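import Cfsg.Agent.J4.Split

/-! The centraliser of the second involution. -/

set_option autoImplicit false
set_option maxRecDepth 100000
set_option linter.unusedSectionVars false

namespace CA.J4

open CA.M24 CA.Fi CA.FG Cfsg Subgroup Equiv
open scoped commutatorElement Pointwise

noncomputable section

open scoped symmDiff

theorem card_fix_le {p : Perm Pt} (hp : p ∈ M24) (h : p ≠ 1) : (fixS p).card ≤ 8 := by
  by_contra c
  exact h (eq_one_of_nine hp (by omega))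

theorem exists_duad {p q : Perm Pt} (hp : p ∈ M24) (hq : q ∈ M24) (p2 : p * p = 1) (q2 : q * q = 1)
    (c : Commute p q) (p1 : p ≠ 1) (q1 : q ≠ 1) (h : p * q ≠ 1) :
    ∃ D : Finset Pt, D.card = 2 ∧ p • D = D ∧ Disjoint D (q • D) := by
  have pp : ∀ u, p (p u) = u := fun u => by rw [← Perm.mul_apply, p2]; rfl
  have qq : ∀ u, q (q u) = u := fun u => by rw [← Perm.mul_apply, q2]; rfl
  have pq : ∀ u, q (p u) = p (q u) := fun u => by rw [← Perm.mul_apply, ← c.eq]; rfl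
  have key : ∀ u v, q u ≠ u → q v ≠ v → q u ≠ v → Disjoint ({u, v} : Finset Pt) (q • {u, v}) := fun u v a b d => by
    have : q v ≠ u := fun e => d (by rw [← e, qq])
    simp [Finset.smul_finset_insert, a, b, d, this]
  by_contra H
  push Not at H
  have h1 : Finset.univ ⊆ fixS p ∪ fixS q ∪ fixS (p * q) := fun u _ => by
    by_contra a
    simp only [Finset.mem_union, mem_fixS, not_or, Perm.mul_apply] at a
    refine H {u, p u} (Finset.card_pair (Ne.symm a.1.1)) (by simp [Finset.smul_finset_insert, pp, Finset.pair_comm])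
      (key _ _ a.1.2 (fun e => a.1.2 (p.injective (by rw [← pq, e]))) fun e => a.2 (by rw [e, pp]))
  have h2 := (Finset.card_le_card h1).trans (Finset.card_union_le _ _)
  have h3 := Finset.card_union_add_card_inter (fixS p) (fixS q)
  have h4 := card_fix_le hp p1
  have h5 := card_fix_le hq q1
  have h6 := card_fix_le (mul_mem hp hq) h
  rw [Finset.card_univ, card_Pt] at h2
  have h7 : ∀ u ∈ fixS p, q u ≠ u := fun u hu e => by
    have := Finset.card_pos.2 ⟨u, Finset.mem_inter.2 ⟨hu, mem_fixS.2 e⟩⟩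
    omega
  obtain ⟨u, hu⟩ := Finset.card_pos.1 (show 0 < (fixS p).card by omega)
  obtain ⟨v, hv, n⟩ := Finset.exists_mem_notMem_of_card_lt_card (s := {u, q u}) (t := fixS p)
    (lt_of_le_of_lt Finset.card_le_two (by omega))
  simp only [Finset.mem_insert, Finset.mem_singleton, not_or] at n
  exact H {u, v} (Finset.card_pair (Ne.symm n.1)) (by simp [Finset.smul_finset_insert, mem_fixS.1 hu, mem_fixS.1 hv])
    (key _ _ (h7 u hu) (h7 v hv) (Ne.symm n.2))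

variable {G : Type*} [Group G]

theorem refl_conj {x y : G} (hx : x * x = 1) (hy : y * y = 1) (k : ℕ) :
    ∃ g ∈ zpowers (x * y), x * (x * y) ^ k = g * (if k % 2 = 0 then x else y) * g⁻¹ := by
  induction k using Nat.twoStepInduction with
  | zero => exact ⟨1, one_mem _, by simp⟩
  | one => exact ⟨1, one_mem _, by simp [← mul_assoc, hx]⟩
  | more k ih _ =>
    obtain ⟨g, hg, e⟩ := ih
    refine ⟨(x * y)⁻¹ * g, mul_mem (inv_mem (mem_zpowers _)) hg, ?_⟩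
    rw [Nat.add_mod_right, show ∀ a b c : G, a * b * c * (a * b)⁻¹ = a * (b * c * b⁻¹) * a⁻¹ from fun _ _ _ => by group,
      ← e, inv_inv, mul_inv_rev, inv_eq_of_mul_eq_one_right hx, inv_eq_of_mul_eq_one_right hy, pow_succ, pow_succ']
    simp only [← mul_assoc, hx, one_mul, mul_assoc y x x, mul_one]

theorem ncard_orb_conjg (M : Subgroup G) (a g : G) : {v | ∃ n ∈ M :^ g, n * (g * a * g⁻¹) * n⁻¹ = v}.ncard =
    {v | ∃ n ∈ M, n * a * n⁻¹ = v}.ncard := by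
  rw [← Set.ncard_image_of_injective {v | ∃ n ∈ M, n * a * n⁻¹ = v} (MulAut.conj g).injective]
  congr 1
  ext v
  constructor
  · rintro ⟨_, ⟨n, hn, rfl⟩, rfl⟩
    exact ⟨_, ⟨n, hn, rfl⟩, by simp [mul_assoc]⟩
  · rintro ⟨_, ⟨n, hn, rfl⟩, rfl⟩
    exact ⟨_, conj_mem_conjg g hn, by simp [mul_assoc]⟩

theorem isConj_cj {a b : G} (g : G) : IsConj a (g * b * g⁻¹) ↔ IsConj a b :=
  ⟨fun h => h.trans (isConj_iff.2 ⟨g, rfl⟩).symm, fun h => h.trans (isConj_iff.2 ⟨g, rfl⟩)⟩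

namespace HM

variable [Finite G] (X : HM G)

/-- a conjugate of `V` -/
def IsV (A : Subgroup G) : Prop := ∃ g, A = X.V :^ g

variable {X}

theorem IsV.conjg {A : Subgroup G} (h : X.IsV A) (g : G) : X.IsV (A :^ g) := by
  obtain ⟨k, rfl⟩ := h
  exact ⟨g * k, (conjg_mul _ _ _).symm⟩

theorem IsV.elem {A : Subgroup G} (h : X.IsV A) : IsElementaryAbelian 2 A := by
  obtain ⟨k, rfl⟩ := h
  exact elem_conjg X.V_elem k

theorem IsV.card {A : Subgroup G} (h : X.IsV A) : Nat.card A = 2048 := by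
  obtain ⟨k, rfl⟩ := h
  rw [card_conjg, X.card_V]

theorem IsV.sq {A : Subgroup G} (h : X.IsV A) {a : G} (ha : a ∈ A) : a * a = 1 := by rw [← pow_two, h.elem.2 a ha]

theorem IsV.comm {A : Subgroup G} (h : X.IsV A) {a b : G} (ha : a ∈ A) (hb : b ∈ A) : Commute a b :=
  congrArg Subtype.val (h.elem.1.1.1 ⟨a, ha⟩ ⟨b, hb⟩)

variable (X) in
theorem isV : X.IsV X.V := ⟨1, (conjg_one _).symm⟩

theorem mem_Y_of_dc {g : G} (hg : Commute X.z g) {x y : ℕ} (hx : x < 2048) (hy : y < 2048) (h : dc x = true)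
    (h' : dc y = true) (e : g * X.ev x * g⁻¹ = X.ev y) : g ∈ X.Y := by
  rcases Nat.lt_or_ge x 128 with a | a
  swap
  · exact X.mem_Y_of_out hg hx hy a e
  rcases Nat.lt_or_ge y 128 with b | b
  swap
  · exact (inv_mem_iff (H := X.Y)).1 (X.mem_Y_of_out hg.inv_right hy hx b (by rw [← e]; group))
  obtain ⟨v, c, hc⟩ := exists_rq hg
  have k := (by decide +kernel : ∀ x < 128, dc x = true → gm (ap mW x) = 147502)
  rw [X.ev_W a, X.ev_W b, cjm, hc.act (ap_lt _ _), conj_eq_iff_commute.2 (hg.pow_left _).symm, mul_assoc,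
    ← pow_add] at e
  have := hc.ex.gm_ap (ap_lt mW x)
  rw [(X.s_eq (ap_lt _ _) (ap_lt _ _) e).1, k x a h, k y b h', ← hc.code_π, ← mask_unmask (show 147502 < 2 ^ 24 by norm_num),
    mapp_code, mask_inj.eq_iff] at this
  refine ⟨hg, X.π_mem g hg, ?_⟩
  change X.π g • unmask O0 = unmask O0
  rw [show unmask O0 = unmask 147502 ∪ unmask 8388609 by decide +kernel, Finset.smul_finset_union, ← this]
  exact congrArg _ (X.π_mem g hg).2

variable [hF : Fact X.Fu]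

theorem dc_of {x : ℕ} (hx : x < 2048) (h : IsConj X.t (X.ev x)) : dc x = true :=
  (dc_iff hx).2 ⟨fun e => X.t_ne (by simpa [e] using h), fun e => X.not_conj_t (((X.zc_iff hx).2 e).trans h.symm)⟩

theorem conj_t_of {x : ℕ} (hx : x < 2048) (h : dc x = true) : IsConj X.t (X.ev x) := by
  obtain ⟨a, b⟩ := (dc_iff hx).1 h
  obtain ⟨m, -, e⟩ := ((X.V_cases (X.ev_mem hx)).resolve_left fun e => a (X.ev_eq_one hx e)).resolve_left
    (mt (X.zc_iff hx).1 b)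
  exact (isConj_iff.2 ⟨m, e⟩).symm

/-- involutions of both classes determine the conjugate of `V` -/
theorem IsV.eq {A B : Subgroup G} (hA : X.IsV A) (hB : X.IsV B) {x y : G} (hx : IsConj X.z x) (hy : IsConj X.t y)
    (a1 : x ∈ A) (a2 : x ∈ B) (b1 : y ∈ A) (b2 : y ∈ B) : A = B := by
  obtain ⟨g, rfl⟩ := isConj_iff.1 hx
  have k : ∀ {A}, X.IsV A → g * X.z * g⁻¹ ∈ A → ∃ h, Commute X.z h ∧ A = X.V :^ (g * h) := fun {A} hA a => by
    obtain ⟨h, h1, h2⟩ := X.conj_V_H (A := A :^ g⁻¹) (fun u hu => mem_cent_iff.2 ((hA.conjg _).comm hu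
      (by simpa [mem_conjg] using a))) (hA.conjg _).elem (hA.conjg _).card.ge
    exact ⟨h, h1, by rw [conjg_mul, ← h2, conjg_cancel_inv]⟩
  obtain ⟨a, ha, rfl⟩ := k hA a1
  obtain ⟨b, hb, rfl⟩ := k hB a2
  obtain ⟨_, ⟨u, hu, rfl⟩, rfl⟩ := mem_conjg'.1 b1
  obtain ⟨_, ⟨w, hw, rfl⟩, e⟩ := mem_conjg'.1 b2
  refine conjg_eq_conjg_iff.2 (X.Y_le_norm ?_)
  rw [show (g * b)⁻¹ * (g * a) = b⁻¹ * a by group]
  refine mem_Y_of_dc (hb.inv_right.mul_right ha) hu hw (dc_of hu ((isConj_cj _).1 hy))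
    (dc_of hw ((isConj_cj _).1 (e ▸ hy))) ?_
  rw [show X.ev w = (g * b)⁻¹ * (g * b * X.ev w * (g * b)⁻¹) * (g * b) by group, e]; group

theorem IsV.two {B : Subgroup G} (hB : X.IsV B) {a c : G} (ha : a ∈ 𝒩(B)) (hc : c ∈ 𝒩(B)) (a2 : a * a = 1)
    (c2 : c * c = 1) (h : Commute a c) (a1 : a ∉ B) (c1 : c ∉ B) (h1 : a * c ∉ B) :
    ∃ b ∈ B, Commute a b ∧ IsConj X.z (b * (c * b * c⁻¹)) := by
  obtain ⟨g, rfl⟩ := hB
  obtain ⟨a, rfl⟩ := (MulAut.conj g).surjective a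
  obtain ⟨c, rfl⟩ := (MulAut.conj g).surjective c
  simp only [MulAut.conj_apply, ← cjm, ← conjg_norm, conj_mem_conjg_iff, conj_eq_one_iff, commute_conj_iff] at *
  obtain ⟨p, hp⟩ := X.exists_TH ha
  obtain ⟨q, hq⟩ := X.exists_TH hc
  obtain ⟨D, d1, d2, d3⟩ := exists_duad hp.inM hq.inM (hp.sq a2) (hq.sq c2) (hp.comm hq h) (fun e => a1 (e ▸ hp).mem_V)
    (fun e => c1 (e ▸ hq).mem_V) fun e => h1 (e ▸ hp.mul hq).mem_V
  have ev : Even D.card := by rw [d1]; decide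
  refine ⟨_, conj_mem_conjg g (X.ψ_mem D), commute_conj_iff.2 (conj_eq_iff_commute.1 (by rw [hp.cj D ev, d2])), ?_⟩
  rw [show ∀ b, g * b * g⁻¹ * (g * c * g⁻¹ * (g * b * g⁻¹) * (g * c * g⁻¹)⁻¹) = g * (b * (c * b * c⁻¹)) * g⁻¹ from
    fun b => by group, isConj_cj, hq.cj D ev, ← X.todd.mul]
  exact X.tetrad (by rw [d3.symmDiff_eq_sup, Finset.sup_eq_union, Finset.card_union_of_disjoint d3]; simp [d1])

theorem IsV.one {B : Subgroup G} (hB : X.IsV B) {a : G} (ha : a ∈ 𝒩(B)) (a2 : a * a = 1) (a1 : a ∉ B) :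
    ∃ b ∈ B, ∃ c ∈ B, Commute a b ∧ Commute a c ∧ IsConj X.z b ∧ IsConj X.z c ∧ IsConj X.z (b * c) := by
  obtain ⟨g, rfl⟩ := hB
  obtain ⟨a, rfl⟩ := (MulAut.conj g).surjective a
  simp only [MulAut.conj_apply, ← cjm, ← conjg_norm, conj_mem_conjg_iff, conj_eq_one_iff] at *
  obtain ⟨p, hp⟩ := X.exists_TH ha
  obtain ⟨k, hk, e⟩ := conj_qAB hp.inM (hp.sq a2) fun e => a1 (e ▸ hp).mem_V
  obtain ⟨m, hm⟩ := X.TH_surj hk
  have h := hp.conj hm
  obtain ⟨x, hx, x1, x2, x3, x4⟩ : ∃ x < 2048, J4.act (code (k * p * k⁻¹)) x = x ∧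
      J4.act (code (k * p * k⁻¹)) 64 = 64 ∧ zc x = true ∧ zc (64 ^^^ x) = true := by
    rcases e with e | e <;> rw [e]
    · exact ⟨3, by rw [qA_in.code_perm]; decide +kernel⟩
    · exact ⟨3, by rw [qB_in.code_perm]; decide +kernel⟩
  have c : ∀ {u}, Commute (m * a * m⁻¹) u → Commute (g * a * g⁻¹) (g * (m⁻¹ * u * m) * g⁻¹) := fun e =>
    commute_conj_iff.2 (commute_conj_left_iff.1 e)
  have i : ∀ {u}, IsConj X.z u → IsConj X.z (g * (m⁻¹ * u * m) * g⁻¹) := fun e =>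
    (isConj_cj _).2 (by simpa using (isConj_cj m⁻¹).2 e)
  refine ⟨_, conj_mem_conjg g (conj_mem_of_mem_norm' hm.mem (X.ev_mem (x := 64) (by norm_num))), _,
    conj_mem_conjg g (conj_mem_of_mem_norm' hm.mem (X.ev_mem hx)), c ((h.fix (by norm_num)).2 x2), c ((h.fix hx).2 x1),
    i (X.ev_64 ▸ IsConj.refl _), i ((X.zc_iff hx).2 x3), ?_⟩
  rw [← cjm, show ∀ a b, m⁻¹ * a * m * (m⁻¹ * b * m) = m⁻¹ * (a * b) * m from fun _ _ => by group, ← X.ev_xor]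
  exact i ((X.zc_iff (xor_lt11 (by norm_num) hx)).2 x4)

theorem IsV.coset {A Z : Subgroup G} (hA : X.IsV A) (h : Z ≤ A) {u : G} (hu : u ∈ Z) (h1 : IsConj X.t u)
    (h2 : ∀ a ∈ Z, ¬ IsConj X.z a) : ∃ x ∈ A, ∀ a ∈ Z, IsConj X.z (x * a) := by
  obtain ⟨g, rfl⟩ := hA
  obtain ⟨m, hm, e⟩ := X.fusion' X.t_mem (mem_conjg.1 (h hu)) (by simpa using (isConj_cj g⁻¹).2 h1)
  rw [← conjg_of_mem_norm hm, ← conjg_mul] at h ⊢
  have e1 : g * m * X.ev 4 * (g * m)⁻¹ ∈ Z := by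
    rwa [show g * m * X.ev 4 * (g * m)⁻¹ = g * (m * X.t * m⁻¹) * g⁻¹ by rw [t]; group, e,
      show g * (g⁻¹ * u * g) * g⁻¹ = u by group]
  generalize g * m = k at *
  have n : ∀ x < 2048, k * X.ev x * k⁻¹ ∈ Z → ¬ zc x = true := fun x hx a b =>
    h2 _ a ((isConj_cj _).2 ((X.zc_iff hx).2 b))
  have m2 : ∀ x y, k * X.ev x * k⁻¹ ∈ Z → k * X.ev y * k⁻¹ ∈ Z → k * X.ev (x ^^^ y) * k⁻¹ ∈ Z := fun x y a b => by
    rw [X.ev_xor, cjm]; exact mul_mem a b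
  suffices ∃ x < 2048, ∀ y < 2048, k * X.ev y * k⁻¹ ∈ Z → zc (x ^^^ y) = true by
    obtain ⟨x, hx, H⟩ := this
    refine ⟨_, conj_mem_conjg k (X.ev_mem hx), fun a ha => ?_⟩
    obtain ⟨_, ⟨y, hy, rfl⟩, rfl⟩ := mem_conjg'.1 (h ha)
    rw [← cjm, isConj_cj, ← X.ev_xor, X.zc_iff (xor_lt11 hx hy)]
    exact H y hy ha
  by_cases H : ∃ y < 2048, y ≠ 0 ∧ y ≠ 4 ∧ k * X.ev y * k⁻¹ ∈ Z
  · obtain ⟨y, hy, y0, y4, a⟩ := H
    have c := all11 (by decide +kernel : allP (fun y => bor (memL y [0, 4]) (bor (zc y) (bor (zc (Nat.xor y 4))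
      (anyL (fun x => allP (fun u => bor (zc u) (bor (zc (Nat.xor u 4)) (bor (zc (Nat.xor u y))
        (bor (zc (Nat.xor (Nat.xor u y) 4)) (zc (Nat.xor x u)))))) 11 0) [1, 128])))) 11 0 = true) hy
    simp only [bor_eq_true, memL_eq_true, anyL_eq_true, List.mem_cons, List.not_mem_nil, or_false, y0, y4,
      false_or] at c
    obtain ⟨x, hx, c⟩ := (c.resolve_left (n y hy a)).resolve_left (n _ (xor_lt11 hy (by norm_num)) (m2 _ _ a e1))
    refine ⟨x, by omega, fun u hu b => ?_⟩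
    have := all11 c hu
    simp only [bor_eq_true] at this
    exact (((this.resolve_left (n u hu b)).resolve_left (n _ (xor_lt11 hu (by norm_num)) (m2 _ _ b e1))).resolve_left
      (n _ (xor_lt11 hu hy) (m2 _ _ b a))).resolve_left
      (n _ (xor_lt11 (xor_lt11 hu hy) (by norm_num)) (m2 _ _ (m2 _ _ b a) e1))
  · push Not at H
    refine ⟨1, by norm_num, fun y hy a => ?_⟩
    by_cases y0 : y = 0
    · subst y0; decide +kernel
    · obtain rfl : y = 4 := by_contra fun y4 => H y hy y0 y4 a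
      decide +kernel

variable (X)

/-- the second involution lies in only one conjugate of `V` -/
theorem uniq_t {A B : Subgroup G} (hA : X.IsV A) (hB : X.IsV B) (a : X.t ∈ A) (b : X.t ∈ B) : A = B := by
  by_contra H
  obtain ⟨Z, ⟨hZ, A, B, hA, hB, H, rfl⟩, mx⟩ := Set.Finite.exists_maximal
    (s := {Z | X.t ∈ Z ∧ ∃ C D, X.IsV C ∧ X.IsV D ∧ C ≠ D ∧ Z = C ⊓ D}) (Set.toFinite _)
    ⟨_, mem_inf.2 ⟨a, b⟩, A, B, hA, hB, H, rfl⟩
  have mx : ∀ {C D u}, X.IsV C → X.IsV D → A ⊓ B ≤ C → A ⊓ B ≤ D → u ∈ C → u ∈ D → u ∉ A ⊓ B → C = D :=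
    fun hC hD a b c d e => by_contra fun n => e (mx ⟨mem_inf.2 ⟨a hZ, b hZ⟩, _, _, hC, hD, n, rfl⟩ (le_inf a b) (mem_inf.2 ⟨c, d⟩))
  have nz : ∀ u ∈ A ⊓ B, ¬ IsConj X.z u := fun u hu e => H (hA.eq hB e (IsConj.refl _) hu.1 hu.2 hZ.1 hZ.2)
  have ex : ∃ y ∈ B, IsConj X.t y ∧ y ∉ A ⊓ B := by
    obtain ⟨g, rfl⟩ := hB
    by_contra c
    push Not at c
    refine nz _ (mul_mem (c _ (conj_mem_conjg g X.t_mem) ((isConj_cj _).2 (IsConj.refl _)))
      (c _ (conj_mem_conjg g (X.ev_mem (x := 68) (by norm_num)))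
        ((isConj_cj _).2 (conj_t_of (by norm_num) (by decide +kernel))))) ?_
    rw [← cjm, isConj_cj, t, ← X.ev_xor]
    exact X.ev_64 ▸ IsConj.refl _
  obtain ⟨y, hy, y1, y2⟩ := ex
  obtain ⟨x, hx, x1⟩ := hA.coset inf_le_left hZ (IsConj.refl _) nz
  have x2 : x ∉ A ⊓ B := fun e => nz _ e (by simpa using x1 1 (one_mem _))
  have lA : A ⊓ B ≤ A := inf_le_left
  have lB : A ⊓ B ≤ B := inf_le_right
  generalize hZ' : A ⊓ B = Z at *
  have cj : ∀ {C g}, Z ≤ C → g ∈ 𝒞(Z) → Z ≤ C :^ g := fun {C g} a b => conjg_of_mem_cent b ▸ conjg_mono g a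
  have cz : ∀ {C c}, X.IsV C → Z ≤ C → c ∈ C → c ∈ 𝒞(Z) := fun hC a b =>
    mem_cent_subgroup_iff.2 fun _ e => hC.comm b (a e)
  have nm : ∀ {C g u}, X.IsV C → Z ≤ C → g ∈ 𝒞(Z) → u ∈ C → u ∉ Z → g * u * g⁻¹ ∈ C → g ∈ 𝒩(C) :=
    fun {C g u} hC a b c d e => conjg_eq_self_iff.1 (mx (hC.conjg g) hC (cj a b) a (conj_mem_conjg g c) e fun f =>
      d (conj_mem_conjg_iff.1 ((conjg_of_mem_cent b).ge f)))
  have star : ∀ {C D a}, X.IsV C → X.IsV D → Z ≤ C → Z ≤ D → a ∈ C → a ∈ 𝒩(D) → a ∈ D := by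
    intro C D a hC hD c d a1 a2
    by_contra a3
    have ne : ∀ {u}, u ∈ C → u ∈ D → ¬ IsConj X.z u := fun {u} e f i =>
      a3 (mx hC hD c d e f (fun j => nz _ j i) ▸ a1)
    obtain ⟨b, b1, b', b2, e1, e2, i1, i2, i3⟩ := hD.one a2 (hC.sq a1) a3
    have n : ∀ {b}, b ∈ D → Commute a b → b ∈ 𝒩(C) := fun e f =>
      nm hC c (cz hD d e) a1 (fun j => a3 (d j)) (by rwa [conj_eq_iff_commute.2 f.symm])
    obtain ⟨u, u1, u2, u3⟩ := hC.two (n b1 e1) (n b2 e2) (hD.sq b1) (hD.sq b2) (hD.comm b1 b2) (fun j => ne j b1 i1)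
      (fun j => ne j b2 i2) fun j => ne j (mul_mem b1 b2) i3
    have := nm hD d (cz hC c u1) b1 (fun j => nz _ j i1) (by rwa [conj_eq_iff_commute.2 u2.symm])
    refine ne (mul_mem u1 (conj_mem_of_mem_norm (n b2 e2) u1)) ?_ u3
    rw [show u * (b' * u * b'⁻¹) = u * b' * u⁻¹ * (u * u) * b'⁻¹ by group, hC.sq u1, mul_one]
    exact mul_mem (conj_mem_of_mem_norm this b2) (inv_mem b2)
  have fin : ∀ {A B x y k}, X.IsV A → X.IsV B → Z ≤ A → Z ≤ B → x ∈ A → y ∈ B → x ∉ Z →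
      (x * y) ^ k * (x * y) ^ k ∈ Z → (x * y) ^ k ∈ A := by
    intro A B x y k hA hB lA lB hx hy x2 e
    have w := mul_mem (cz hA lA hx) (cz hB lB hy)
    obtain ⟨g, hg, a⟩ := refl_conj (hA.sq hx) (hB.sq hy) k
    have hg := zpowers_le.2 w hg
    have sq : x * (x * y) ^ k * (x * (x * y) ^ k) = 1 := by
      rw [a, ← cjm, conj_eq_one_iff]
      split_ifs
      exacts [hA.sq hx, hB.sq hy]
    have n : x * (x * y) ^ k ∈ 𝒩(A) := mul_mem (le_normalizer hx) ((inv_mem_iff (H := 𝒩(A))).1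
      (nm hA lA (inv_mem (pow_mem w k)) hx x2 (by
        rw [inv_inv, inv_eq_of_mul_eq_one_left (show x * (x * y) ^ k * x * (x * y) ^ k = 1 by rw [← sq, mul_assoc]),
          mul_assoc _ x x, hA.sq hx, mul_one, mul_assoc]
        exact mul_mem hx (lA e))))
    refine (mul_mem_cancel_left hx).1 ?_
    split_ifs at a
    · exact star (hA.conjg g) hA (cj lA hg) lA (a ▸ conj_mem_conjg g hx) n
    · exact star (hB.conjg g) hA (cj lB hg) lA (a ▸ conj_mem_conjg g hy) n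
  have ex : ∃ n, 0 < n ∧ (x * y) ^ n ∈ Z := ⟨_, orderOf_pos (x * y), by rw [pow_orderOf_eq_one]; exact one_mem _⟩
  classical
  obtain ⟨n0, hn⟩ := Nat.find_spec ex
  have mn := fun k => Nat.find_min ex (m := k)
  generalize Nat.find ex = n at *
  obtain ⟨k, rfl | rfl⟩ := Nat.even_or_odd' n
  · rw [two_mul, pow_add] at hn
    refine mn k (by omega) ⟨by omega, hZ' ▸ ⟨fin hA hB lA lB hx hy x2 hn, ?_⟩⟩
    have e : (y * x) ^ k = ((x * y) ^ k)⁻¹ := by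
      rw [← inv_pow, mul_inv_rev, inv_eq_of_mul_eq_one_right (hA.sq hx), inv_eq_of_mul_eq_one_right (hB.sq hy)]
    exact (inv_mem_iff (H := B)).1 (e ▸ fin hB hA lB lA hy hx y2 (by rw [e, ← mul_inv_rev]; exact inv_mem hn))
  · obtain ⟨g, -, a⟩ := refl_conj (hA.sq hx) (hB.sq hy) (2 * k + 1)
    rw [if_neg (by omega)] at a
    exact X.not_conj_t (((isConj_cj g).1 (a ▸ x1 _ hn)).trans y1.symm)

theorem cent_t : 𝒞[X.t] ≤ 𝒩(X.V) := fun g hg => conjg_eq_self_iff.1 (X.uniq_t (X.isV.conjg g) X.isV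
  (conj_eq_iff_commute.2 (mem_cent_iff.1 hg) ▸ conj_mem_conjg g X.t_mem) X.t_mem)

variable {X} in
theorem TH.comm_t {g : G} {p : Perm Pt} (h : X.TH g p) : Commute g X.t ↔ p ∈ DD := by
  have c : (unmask 8388609).card = 2 := by decide +kernel
  rw [← conj_eq_iff_commute, ← X.ψ_t, h.cj _ (by rw [c]; decide)]
  exact ⟨fun e => ⟨h.inM, X.todd.inj (S := p • unmask 8388609) (T := unmask 8388609)
    (by simp only [Finset.card_smul_finset, c]; decide) (by simp [c]) e⟩,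
    fun e => congrArg _ e.2⟩

theorem s5568 {V : Subgroup G} (hV : IsElementaryAbelian 2 V) (hc : Nat.card V = 2 ^ 11) :
    ∃ z' t : G, z' ∈ V ∧ t ∈ V ∧ t ≠ 1 ∧ IsConj X.z z' ∧ ¬ IsConj X.z t ∧
    Set.ncard {v : G | ∃ n ∈ 𝒩(V), n * z' * n⁻¹ = v} = 1771 ∧
    Set.ncard {v : G | ∃ n ∈ 𝒩(V), n * t * n⁻¹ = v} = 276 ∧ 𝒞[t] ≤ 𝒩(V) := by
  obtain ⟨g, rfl⟩ := X.conj_V hV (by simp [hc])
  rw [← conjg_norm]
  exact ⟨_, _, conj_mem_conjg g X.z_mem_V, conj_mem_conjg g X.t_mem, mt conj_eq_one_iff.1 X.t_ne,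
    isConj_iff.2 ⟨g, rfl⟩, mt (isConj_cj g).1 X.not_conj_t, (ncard_orb_conjg _ _ _).trans X.ncard_orbit_z,
    (ncard_orb_conjg _ _ _).trans X.ncard_orbit_t, conjg_cent1 _ g ▸ conjg_mono g X.cent_t⟩

theorem s5569 {t : G} (ht : orderOf t = 2) (hn : ¬ IsConj X.z t) :
    ∃ V K : Subgroup G, V ≤ 𝒞[t] ∧ K ≤ 𝒞[t] ∧ 𝒞[t] ≤ 𝒩(V) ∧ IsElementaryAbelian 2 V ∧ Nat.card V = 2 ^ 11 ∧
    K ⊓ V = ⊥ ∧ K ⊔ V = 𝒞[t] ∧ Nonempty (K ≃* MulAut Spor.M22) := by
  obtain ⟨h1, h2⟩ := of_orderOf ht (by norm_num)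
  obtain ⟨g, rfl⟩ := isConj_iff.1 (((X.inv_cases (by rwa [← pow_two])).resolve_left h2).resolve_left hn)
  obtain ⟨K, a, b, ⟨e⟩⟩ := X.split_map DD_le
  have c : K ⊔ X.V = 𝒞[X.t] := Subgroup.ext fun g => (b g).trans ⟨fun ⟨_, d, f⟩ => mem_cent_iff.2 (f.comm_t.2 d),
    fun d => by
      obtain ⟨p, hp⟩ := X.exists_TH (X.cent_t d)
      exact ⟨p, hp.comm_t.1 (mem_cent_iff.1 d), hp⟩⟩
  rw [← conjg_cent1]
  exact ⟨X.V :^ g, K :^ g, conjg_mono g (c ▸ le_sup_right), conjg_mono g (c ▸ le_sup_left),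
    conjg_norm _ g ▸ conjg_mono g X.cent_t, elem_conjg X.V_elem g, by simp [X.card_V],
    by rw [← conjg_inf, a, conjg_bot], by rw [← conjg_sup, c],
    ⟨((MulAut.conj g).subgroupMap K).symm.trans (e.trans autM22)⟩⟩

end HM

end

end CA.J4

theorem CA.J4.realizeEqnsJ4Ct : True := by
  have := @CA.J4.HM.IsV.eq_1.{0}
  have := @CA.J4.HM.IsV.eq_def.{0}
  have := @CA.J4.HM.IsV.congr_simp.{0}
  trivial
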