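import Cfsg.Agent.J4.Fus
import Cfsg.Agent.M24.Todd

/-! General lemmas: orbits, fixed points, the number of Sylow subgroups, splitting. -/

set_option autoImplicit false
set_option maxRecDepth 100000
set_option linter.unusedSectionVars false

namespace CA.J4

open CA.M24 CA.Fi CA.FG Cfsg Subgroup Equiv
open scoped commutatorElement Pointwise

noncomputable section

variable {G : Type*} [Group G]

theorem ncard_conj (M : Subgroup G) (d : G) :
    {y | ∃ c ∈ M, c * d * c⁻¹ = y}.ncard * Nat.card ↥(M ⊓ 𝒞[d]) = Nat.card M := by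
  let : MulAction M G := MulAction.compHom G ((MulAut.conj (G := G)).comp M.subtype)
  rw [← Nat.card_congr (MulAction.orbitProdStabilizerEquivGroup M d), Nat.card_prod, Nat.card_coe_set_eq,
    show MulAction.stabilizer M d = (centralizer {d}).subgroupOf M from
    Subgroup.ext fun c => conj_eq_iff_commute.trans mem_cent_iff.symm, ← inf_subgroupOf_left,
    Nat.card_congr (subgroupOfEquivOfLe inf_le_left).toEquiv]
  congr 2
  exact Set.ext fun y => ⟨fun ⟨c, hc, e⟩ => ⟨⟨c, hc⟩, e⟩, fun ⟨c, e⟩ => ⟨c, c.2, e⟩⟩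

theorem card_mod_cent [Finite G] {A : Subgroup G} {g : G} {p : ℕ} (hp : p.Prime)
    (hA : g ∈ 𝒩(A)) (hg : g ^ p = 1) : Nat.card A ≡ Nat.card ↥(A ⊓ 𝒞[g]) [MOD p] := by
  classical
  have := Fact.mk hp
  have := Fintype.ofFinite A
  let f : Function.End A := fun a => ⟨g * a * g⁻¹, conj_mem_of_mem_norm hA a.2⟩
  have h1 : ∀ n : ℕ, ∀ a, ((f ^ n) a : G) = g ^ n * a * (g ^ n)⁻¹ := fun n => by
    induction n with
    | zero => simp [Function.End.one_def]
    | succ n ih => intro a; rw [pow_succ, pow_succ, show (f ^ n * f) a = (f ^ n) (f a) from rfl, ih]; simp [f, mul_assoc]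
  have := Equiv.Perm.card_fixedPoints_modEq (f := f) (p := p) (n := 1)
    (funext fun a => Subtype.ext (by rw [h1, pow_one, hg]; simp [Function.End.one_def]))
  rw [← Nat.card_eq_fintype_card, ← Nat.card_eq_fintype_card] at this
  rwa [← Nat.card_congr (subgroupOfEquivOfLe (inf_le_left (b := centralizer {g}))).toEquiv, inf_subgroupOf_left,
    show Nat.card ((centralizer {g}).subgroupOf A) = Nat.card f.fixedPoints from Nat.card_congr (Equiv.subtypeEquivRight
      fun a => (mem_cent_iff.trans (Commute.symm_iff.trans conj_eq_iff_commute.symm)).trans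
        (Subtype.ext_iff (a1 := f a) (a2 := a)).symm)]

theorem ncard_sumR {α : Type*} {f : ℕ → α} {N : ℕ} (hf : ∀ m < N, ∀ n < N, f m = f n → m = n) (S : Set α)
    (q : ℕ → Bool) (h1 : ∀ x ∈ S, ∃ n < N, f n = x) (h2 : ∀ n < N, f n ∈ S ↔ q n = true) :
    S.ncard = sumR (fun n => bif' (q n) 1 0) N := by
  have : S = f '' ((Finset.range N).filter fun n => q n = true) := by
    ext v
    refine ⟨fun hv => ?_, ?_⟩
    · obtain ⟨n, hn, rfl⟩ := h1 v hv
      exact ⟨n, by simpa [hn] using (h2 n hn).1 hv, rfl⟩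
    · rintro ⟨m, hm, rfl⟩
      simp only [Finset.coe_filter, Finset.mem_range, Set.mem_ofPred_eq] at hm
      exact (h2 m hm.1).2 hm.2
  rw [this, Set.InjOn.ncard_image, Set.ncard_coe_finset, sumR_eq, Finset.card_filter]
  · simp only [bif'_eq]
  · intro a ha b hb
    simp only [Finset.coe_filter, Finset.mem_range, Set.mem_ofPred_eq] at ha hb
    exact hf a ha.1 b hb.1

theorem sylow_count [Finite G] {p : ℕ} (hp : p.Prime) {P M : Subgroup G} (h : IsSylowOf p P M) :
    (𝒩(P)).relIndex M ≡ 1 [MOD p] := by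
  have := Fact.mk hp
  obtain ⟨S, rfl⟩ := IsSylowOf.exists_sylow h hp
  have := card_sylow_modEq_one p M
  rw [S.card_eq_index_normalizer] at this
  rwa [relIndex, subgroupOf_normalizer_eq (map_subtype_le _), subgroupOf_map_subtype']

theorem gaschutz_top [Finite G] {V T C : Subgroup G} [V.Normal] (hc : IsMulCommutative V) (hVT : V ≤ T)
    (hC : C ≤ T) (h1 : V ⊓ C = ⊥) (h2 : ∀ t ∈ T, ∃ c ∈ C, t * c⁻¹ ∈ V) (hn : ∀ v ∈ V, v ^ T.index = v) :
    ∃ K : Subgroup G, K ⊓ V = ⊥ ∧ K ⊔ V = ⊤ := by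
  classical
  let : CommGroup V := { (inferInstance : Group V) with mul_comm := hc.1.1 }
  have := Fintype.ofFinite (G ⧸ T)
  have cm : ∀ a ∈ V, ∀ b ∈ V, a * b = b * a := fun a ha b hb => congrArg Subtype.val (hc.1.1 ⟨a, ha⟩ ⟨b, hb⟩)
  choose! cc c1 c2 using h2
  have uq : ∀ v ∈ V, ∀ c ∈ C, v * c * (cc (v * c))⁻¹ = v := fun v hv c hc' => by
    have ht := mul_mem (hVT hv) (hC hc')
    have : c * (cc (v * c))⁻¹ ∈ V ⊓ C :=
      ⟨(V.mul_mem_cancel_left hv).1 (mul_assoc v c _ ▸ c2 _ ht), C.mul_mem hc' (C.inv_mem (c1 _ ht))⟩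
    rw [h1, mem_bot] at this
    rw [mul_assoc, this, mul_one]
  have φm : ∀ t ∈ T, ∀ u ∈ T, t * u * (cc (t * u))⁻¹ = t * (cc t)⁻¹ * (t * (u * (cc u)⁻¹) * t⁻¹) := by
    intro t ht u hu
    have hv := mul_mem (c2 t ht) (‹V.Normal›.conj_mem _ (c2 u hu) t)
    have := uq _ hv _ (mul_mem (c1 t ht) (c1 u hu))
    rwa [show t * (cc t)⁻¹ * (t * (u * (cc u)⁻¹) * t⁻¹) * (cc t * cc u) = t * u by
      rw [cm _ (c2 t ht) _ (‹V.Normal›.conj_mem _ (c2 u hu) t)]
      group] at this
  have hτ : ∀ (g : G) (x : G ⧸ T), (g • x).out⁻¹ * (g * x.out) ∈ T := fun g x => by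
    rw [← QuotientGroup.eq, QuotientGroup.out_eq']
    conv_lhs => rw [← x.out_eq']
    rfl
  let a : G → G ⧸ T → V := fun g x => ⟨(g • x).out * ((g • x).out⁻¹ * (g * x.out) *
    (cc ((g • x).out⁻¹ * (g * x.out)))⁻¹) * (g • x).out⁻¹, ‹V.Normal›.conj_mem _ (c2 _ (hτ g x)) _⟩
  have am : ∀ g h x, a (g * h) x = a g (h • x) * MulAut.conjNormal g (a h x) := fun g h x => by
    refine Subtype.ext ?_
    have := φm _ (hτ g (h • x)) _ (hτ h x)
    simp only [a, coe_mul, MulAut.conjNormal_apply, mul_smul]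
    rw [show (g • h • x).out⁻¹ * (g * h * x.out) = (g • h • x).out⁻¹ * (g * (h • x).out) * ((h • x).out⁻¹ * (h * x.out))
      by group, this]
    group
  have dm : ∀ g h, ∏ x, a (g * h) x = (∏ x, a g x) * MulAut.conjNormal g (∏ x, a h x) := fun g h => by
    rw [map_prod, ← Equiv.prod_comp (MulAction.toPerm h) (a g), ← Finset.prod_mul_distrib]
    exact Finset.prod_congr rfl fun x _ => am g h x
  have dv : ∀ v : V, ∏ x, a v x = v := fun v => by
    have : ∀ x, a v x = v := fun x => by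
      have hv := ‹V.Normal›.conj_mem' _ v.2 x.out
      have e : (v : G) • x = x := by
        conv_lhs => rw [← x.out_eq']
        conv_rhs => rw [← x.out_eq']
        exact (QuotientGroup.eq.2 (hVT (mul_assoc x.out⁻¹ (v : G) _ ▸ hv))).symm
      have := uq _ hv 1 (one_mem _)
      refine Subtype.ext ?_
      simp only [a, e]
      rw [mul_one, mul_assoc x.out⁻¹ (v : G)] at this
      rw [this]; group
    rw [Finset.prod_congr rfl fun x _ => this x, Finset.prod_const, Finset.card_univ, ← Nat.card_eq_fintype_card]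
    exact Subtype.ext (hn _ v.2)
  let K : Subgroup G :=
    { carrier := {g | ∏ x, a g x = 1}
      one_mem' := dv 1
      mul_mem' := fun {g h} hg hh => by
        rw [Set.mem_ofPred_eq] at hg hh ⊢
        rw [dm, hg, hh, map_one, mul_one]
      inv_mem' := fun {g} hg => by
        have := dm g g⁻¹
        rw [Set.mem_ofPred_eq] at hg ⊢
        rw [mul_inv_cancel, hg, one_mul] at this
        exact (map_eq_one_iff _ (MulAut.conjNormal g).injective).1 (this.symm.trans (dv 1)) }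
  refine ⟨K, eq_bot_iff.2 fun g hg => congrArg Subtype.val ((dv ⟨g, hg.2⟩).symm.trans hg.1),
    eq_top_iff.2 fun g _ => ?_⟩
  have : ((∏ x, a g x)⁻¹ : V) * g ∈ K := by
    change ∏ x, a _ x = 1
    rw [dm, dv, inv_mul_eq_one]
    exact Subtype.ext (by rw [MulAut.conjNormal_apply, cm _ (SetLike.coe_mem _) _ (SetLike.coe_mem _)]; simp)
  exact (mul_mem_cancel_left (mem_sup_right (SetLike.coe_mem _))).1 (mem_sup_left this)

/-- splitting over an abelian normal subgroup is detected in a subgroup of suitable index -/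
theorem gaschutz [Finite G] {V T C M : Subgroup G} (hM : M ≤ 𝒩(V)) (hc : IsMulCommutative V) (hVT : V ≤ T)
    (hT : T ≤ M) (hC : C ≤ T) (h1 : V ⊓ C = ⊥) (h2 : ∀ t ∈ T, ∃ c ∈ C, t * c⁻¹ ∈ V)
    (hn : ∀ v ∈ V, v ^ T.relIndex M = v) : ∃ K ≤ M, K ⊓ V = ⊥ ∧ K ⊔ V = M := by
  have := normal_subgroupOf_of_normalIn ⟨hVT.trans hT, hM⟩
  obtain ⟨K, a, b⟩ := gaschutz_top (V := V.subgroupOf M) (T := T.subgroupOf M) (C := C.subgroupOf M)
    ((subgroupOf_abelian_iff (hVT.trans hT)).2 hc) (subgroupOf_mono M hVT) (subgroupOf_mono M hC)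
    (by rw [← subgroupOf_inf', h1, bot_subgroupOf])
    (fun t ht => by
      obtain ⟨c, c1, c2⟩ := h2 t ht
      exact ⟨⟨c, hT (hC c1)⟩, c1, c2⟩) fun v hv => Subtype.ext (hn v hv)
  refine ⟨K.map M.subtype, map_subtype_le _, ?_, ?_⟩
  · rw [← map_subtype_subgroupOf (hVT.trans hT), ← map_inf _ _ _ M.subtype_injective, a, Subgroup.map_bot]
  · rw [← map_subtype_subgroupOf (hVT.trans hT), ← Subgroup.map_sup, b, map_subtype_top]

end

end CA.J4
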