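import Cfsg.Agent.J4.Base
import Cfsg.Agent.BG.I01
import Cfsg.Agent.Fi.Extra

/-! Generic lemmas: special groups, four-groups, the extraspecial group of order 27. -/

set_option autoImplicit false
set_option maxRecDepth 100000
set_option linter.unusedSectionVars false

namespace CA.J4

open CA.M24 CA.Fi CA.FG Cfsg Subgroup Equiv
open scoped commutatorElement Pointwise

noncomputable section

variable {G : Type*} [Group G]

theorem special_of' [Finite G] {p : ℕ} (hp : p.Prime) {R Z : Subgroup G} (hR : IsPGrp p R) (h1 : ∀ r ∈ R, r ^ p ∈ Z)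
    (h2 : ⁅R, R⁆ = Z) (h3 : ∀ r ∈ R, (∀ q ∈ R, Commute r q) ↔ r ∈ Z) :
    IsSpecial p R ∧ center R = Z.subgroupOf R := by
  have h4 : center R = Z.subgroupOf R := Subgroup.ext fun r => mem_center_iff.trans
    (Iff.trans ⟨fun H q hq => congrArg Subtype.val (H ⟨q, hq⟩).symm, fun H q => Subtype.ext (H q q.2).symm⟩ (h3 r r.2))
  have h5 : frattiniOf R = Z := le_antisymm ((Phi_le_iff hp hR (h2 ▸ (der_normalIn R).2)).2 ⟨h2.le, h1⟩)
    (h2 ▸ der1_sub_Phi_of_nil hR.nil)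
  refine ⟨⟨hR.isPGroup hp, ?_, ?_⟩, h4⟩
  · rw [h4, ← h5]; exact (subgroupOf_map_subtype' _).symm
  · rw [h4, ← h2, ← map_subtype_commutator]; exact (subgroupOf_map_subtype' _).symm

theorem four_gen [Finite G] {a b : G} {O K : Subgroup G} (ha : a * a = 1) (hb : b * b = 1) (c : Commute a b)
    (a1 : a ≠ 1) (b1 : b ≠ 1) (ab : a ≠ b) (hO : IsPiGrp {2}ᶜ O) (na : a ∈ 𝒩(O)) (nb : b ∈ 𝒩(O))
    (h : ∀ u ∈ [a, b, a * b], O ⊓ 𝒞[u] ≤ K) : O ≤ K := by
  have hc : zpowers a ≤ 𝒞(zpowers b) := by rw [cent_zpowers]; exact zpowers_le.2 (mem_cent_iff.2 c)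
  have e := abelem_sup (abelem_zpowers (p := 2) (by rwa [pow_two])) (abelem_zpowers (p := 2) (by rwa [pow_two])) hc
  refine CA.BG.coprime_abelian_gen_cent1_le e.1 (fun H => ?_) (sup_le (zpowers_le.2 na) (zpowers_le.2 nb))
    (IsPiGrp.coprime (pGrp_of_forall_pow Nat.prime_two (k := 1) e.2) hO).symm fun u hu u1 => h u ?_
  · obtain ⟨y, hy, e1⟩ := cyclic_iff_eq_zpowers.1 H
    have k := fun x => mem_zpowers_iff_of_sq (x := x) (show y * y = 1 by rw [← pow_two, e.2 y hy])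
    exact ab ((((k a).1 (e1 ▸ mem_sup_left (mem_zpowers a))).resolve_left a1).trans
      (((k b).1 (e1 ▸ mem_sup_right (mem_zpowers b))).resolve_left b1).symm)
  · obtain ⟨x, hx, y, hy, rfl⟩ := (mem_sup_of_left_le_norm (norm_of_cent hc)).1 hu
    rcases (mem_zpowers_iff_of_sq ha).1 hx with rfl | rfl <;> rcases (mem_zpowers_iff_of_sq hb).1 hy with rfl | rfl <;>
      simp_all

/-- elements of order three that differ by an element of an elementary abelian 2-group -/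
theorem isConj_of_three {A : Subgroup G} (hA : IsElementaryAbelian 2 A) {x y : G} (hx : x ^ 3 = 1) (hy : y ^ 3 = 1)
    (n : y ∈ 𝒩(A)) (h : x * y⁻¹ ∈ A) : IsConj y x := by
  obtain ⟨v, rfl⟩ : ∃ v, x = v * y := ⟨x * y⁻¹, by group⟩
  rw [mul_inv_cancel_right] at h
  have i : ∀ u ∈ A, u⁻¹ = u := fun u hu => inv_eq_of_mul_eq_one_right (by rw [← pow_two, hA.2 u hu])
  have h1 := conj_mem_of_mem_norm n h
  refine isConj_iff.2 ⟨y * v * y⁻¹, ?_⟩
  rw [i _ h1, show y * v * y⁻¹ * y * (y * v * y⁻¹) = v⁻¹ * (v * y) ^ 3 * (y ^ 3)⁻¹ * y by simp only [pow_succ]; group, hx, hy,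
    i v h]
  group

/-- the relations of the extraspecial group of order 27 and exponent 3 -/
structure Heis (a b r : G) : Prop where
  a3 : a ^ 3 = 1
  b3 : b ^ 3 = 1
  r3 : orderOf r = 3
  ar : Commute a r
  br : Commute b r
  ba : b * a = a * b * r

namespace Heis

variable {a b r : G} (h : Heis a b r)
include h

theorem swap (i j : ℕ) : b ^ j * a ^ i = a ^ i * b ^ j * r ^ (i * j) := by
  have k : ∀ j, b ^ j * a = a * b ^ j * r ^ j := fun j => by
    induction j with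
    | zero => simp
    | succ j ih => rw [pow_succ', mul_assoc, ih, ← mul_assoc, ← mul_assoc, h.ba, mul_assoc _ r,
        ← (h.br.pow_left j).eq, pow_succ' r]; group
  induction i with
  | zero => simp
  | succ i ih => rw [pow_succ, ← mul_assoc, ih, mul_assoc, ← (h.ar.pow_right _).eq, ← mul_assoc, mul_assoc (a ^ i), k,
      add_mul, one_mul, add_comm, pow_add]; group

theorem mul (i j k i' j' k' : ℕ) : a ^ i * b ^ j * r ^ k * (a ^ i' * b ^ j' * r ^ k') =
    a ^ (i + i') * b ^ (j + j') * r ^ (i' * j + k + k') := by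
  have c : ∀ n, Commute (r ^ n) (b ^ j') := fun n => (h.br.pow_pow _ _).symm
  calc _ = a ^ i * (b ^ j * (r ^ k * a ^ i')) * b ^ j' * r ^ k' := by group
    _ = a ^ i * (a ^ i' * b ^ j * (r ^ (i' * j + k) * b ^ j')) * r ^ k' := by
      rw [← (h.ar.pow_pow _ _).eq, ← mul_assoc (b ^ j), h.swap, pow_add]; group
    _ = _ := by rw [(c _).eq, pow_add r _ k']; simp only [pow_add, mul_assoc]

theorem cube (i j k : ℕ) : (a ^ i * b ^ j * r ^ k) ^ 3 = 1 := by
  rw [pow_succ, pow_two, h.mul, h.mul, show i + i + i = 3 * i by ring, show j + j + j = 3 * j by ring,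
    show i * (j + j) + (i * j + k + k) + k = 3 * (i * j + k) by ring, pow_mul, pow_mul, pow_mul, h.a3, h.b3, ← h.r3,
    pow_orderOf_eq_one]
  simp

/-- the group generated by `a` and `b` -/
def sub : Subgroup G where
  carrier := {g | ∃ i j k : ℕ, g = a ^ i * b ^ j * r ^ k}
  one_mem' := ⟨0, 0, 0, by simp⟩
  mul_mem' := by
    rintro _ _ ⟨i, j, k, rfl⟩ ⟨i', j', k', rfl⟩
    exact ⟨_, _, _, h.mul ..⟩
  inv_mem' := by
    rintro _ ⟨i, j, k, rfl⟩
    exact ⟨_, _, _, (inv_eq_of_mul_eq_one_left (by rw [← pow_two, ← pow_succ, h.cube])).trans (h.mul i j k i j k)⟩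

theorem a_mem : a ∈ h.sub := ⟨1, 0, 0, by simp⟩
theorem b_mem : b ∈ h.sub := ⟨0, 1, 0, by simp⟩
theorem r_mem : r ∈ h.sub := ⟨0, 0, 1, by simp⟩
theorem pow3 {g : G} (hg : g ∈ h.sub) : g ^ 3 = 1 := by obtain ⟨i, j, k, rfl⟩ := hg; exact h.cube ..
theorem le {K : Subgroup G} (ha : a ∈ K) (hb : b ∈ K) (hr : r ∈ K) : h.sub ≤ K := by
  rintro _ ⟨i, j, k, rfl⟩
  exact mul_mem (mul_mem (pow_mem ha _) (pow_mem hb _)) (pow_mem hr _)

theorem ca (i j k : ℕ) : a ^ i * b ^ j * r ^ k * a = a * (a ^ i * b ^ j * r ^ k) * r ^ j := by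
  have := h.mul i j k 1 0 0
  simp only [pow_one, pow_zero, mul_one, add_zero, one_mul] at this
  rw [this, add_comm j, pow_add r, pow_succ']; group

theorem cb (i j k : ℕ) : b * (a ^ i * b ^ j * r ^ k) = a ^ i * b ^ j * r ^ k * b * r ^ i := by
  have := h.mul 0 1 0 i j k
  simp only [pow_one, pow_zero, mul_one, add_zero, one_mul, zero_add] at this
  rw [this, add_comm i, pow_add r, add_comm 1, pow_succ, mul_assoc _ (r ^ k) b, ← (h.br.pow_right k).eq]; group

theorem mem_iff {g : G} : g ∈ h.sub ↔ ∃ n < 27, a ^ (n % 3) * b ^ (n / 3 % 3) * r ^ (n / 9) = g := by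
  refine ⟨?_, fun ⟨n, _, e⟩ => ⟨_, _, _, e.symm⟩⟩
  rintro ⟨i, j, k, rfl⟩
  refine ⟨i % 3 + 3 * (j % 3) + 9 * (k % 3), by omega, ?_⟩
  rw [pow_eq_pow_mod i h.a3, pow_eq_pow_mod j h.b3, ← pow_mod_orderOf r k, h.r3]
  congr 3 <;> omega

theorem card : Nat.card h.sub = 27 := by
  refine card_of_param _ (fun m hm n hn e => ?_) fun _ => h.mem_iff
  have e1 := h.ca (m % 3) (m / 3 % 3) (m / 9)
  have e2 := h.cb (m % 3) (m / 3 % 3) (m / 9)
  rw [e, h.ca, mul_right_inj, pow_inj_mod, h.r3] at e1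
  rw [e, h.cb, mul_right_inj, pow_inj_mod, h.r3] at e2
  rw [show m % 3 = n % 3 by omega, show m / 3 % 3 = n / 3 % 3 by omega, mul_right_inj, pow_inj_mod, h.r3] at e
  omega

theorem cen {g : G} (hg : g ∈ h.sub) : (∀ q ∈ h.sub, Commute g q) ↔ g ∈ zpowers r := by
  refine ⟨fun H => ?_, fun H q hq => (mem_cent_iff.1 (zpowers_le.2 (show r ∈ 𝒞[q] from mem_cent_iff.2
    (mem_cent_iff.1 (h.le (mem_cent_iff.2 h.ar) (mem_cent_iff.2 h.br) (mem_cent_iff.2 (Commute.refl r)) hq)).symm) H))⟩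
  obtain ⟨i, j, k, rfl⟩ := hg
  have e1 := h.ca i j k
  have e2 := h.cb i j k
  rw [(H a h.a_mem).eq, left_eq_mul, ← orderOf_dvd_iff_pow_eq_one, h.r3] at e1
  rw [← (H b h.b_mem).eq, left_eq_mul, ← orderOf_dvd_iff_pow_eq_one, h.r3] at e2
  obtain ⟨j, rfl⟩ := e1
  obtain ⟨i, rfl⟩ := e2
  rw [pow_mul, pow_mul, h.a3, h.b3, one_pow, one_pow, one_mul, one_mul]
  exact npow_mem_zpowers r k

theorem der : ⁅h.sub, h.sub⁆ = zpowers r := by
  refine le_antisymm (commutator_le.2 ?_) (zpowers_le.2 ?_)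
  · rintro _ ⟨i, j, k, rfl⟩ _ ⟨i', j', k', rfl⟩
    have c := (h.cen (pow_mem h.r_mem (i * j'))).2 (npow_mem_zpowers r _)
    have e : a ^ i * b ^ j * r ^ k * (a ^ i' * b ^ j' * r ^ k') * r ^ (i * j') =
        r ^ (i' * j) * (a ^ i' * b ^ j' * r ^ k' * (a ^ i * b ^ j * r ^ k)) := by
      rw [((h.cen (pow_mem h.r_mem _)).2 (npow_mem_zpowers r _) _ (mul_mem ⟨_, _, _, rfl⟩ ⟨_, _, _, rfl⟩)).eq, h.mul, h.mul,
        mul_assoc _ _ (r ^ (i * j')), mul_assoc _ _ (r ^ (i' * j)), ← pow_add, ← pow_add]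
      congr 2
      · rw [add_comm]
      · rw [add_comm]
      · ring
    rw [commutatorElement_def, eq_mul_inv_iff_mul_eq.2 e, mul_assoc (r ^ _),
      ← (c _ (mul_mem ⟨_, _, _, rfl⟩ ⟨_, _, _, rfl⟩)).inv_left.eq]
    simpa [mul_assoc] using mul_mem (npow_mem_zpowers r (i' * j)) (inv_mem (npow_mem_zpowers r (i * j')))
  · convert commutator_mem_commutator h.b_mem h.a_mem using 1
    rw [commutatorElement_def, h.ba, ← (h.ar.mul_left h.br).eq.symm]; group

theorem special [Finite G] : IsExtraspecial 3 h.sub ∧ Monoid.exponent h.sub = 3 := by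
  obtain ⟨a1, a2⟩ := special_of' Nat.prime_three (pGrp_of_forall_pow Nat.prime_three (k := 1) fun _ => h.pow3)
    (fun _ e => h.pow3 e ▸ one_mem _) h.der fun _ => h.cen
  have := Fact.mk Nat.prime_three
  refine ⟨⟨a1, by rw [a2, card_subgroupOf (zpowers_le.2 h.r_mem), Nat.card_zpowers, h.r3]⟩, ?_⟩
  refine ((Nat.dvd_prime Nat.prime_three).1 (Monoid.exponent_dvd_of_forall_pow_eq_one fun x =>
    Subtype.ext (h.pow3 x.2))).resolve_left fun e => ?_
  have := Monoid.exp_eq_one_iff.1 e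
  have c := h.card
  rw [Nat.card_of_subsingleton (1 : h.sub)] at c
  omega

theorem norm_le : 𝒩(h.sub) ≤ 𝒩(zpowers r) := h.der ▸ fun _ hg => conjg_eq_self_iff.1 (by
  rw [conjg_comm, conjg_of_mem_norm hg])

end Heis

end

end CA.J4

theorem CA.J4.realizeEqnsJ4Gen2 : True := by
  have := @CA.J4.Heis.sub.eq_1.{0}
  have := @CA.J4.Heis.sub.eq_def.{0}
  have := @CA.J4.Heis.sub.congr_simp.{0}
  trivial
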