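import Cfsg.Agent.J4.Orb

/-! The normaliser of the elementary abelian group of order 2048 induces the Mathieu group. -/

set_option autoImplicit false
set_option maxRecDepth 100000
set_option linter.unusedSectionVars false

namespace CA.J4

open CA.M24 CA.Fi CA.FG Cfsg Subgroup Equiv
open scoped commutatorElement Pointwise

noncomputable section

open scoped symmDiff

/-- coordinates of a subset -/
def coc (m : ℕ) : ℕ := xorSel cocL m 0
/-- an even subset with given coordinates -/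
def sec (x : ℕ) : ℕ := xorSel secL x 0
/-- the action of a permutation on the coordinates -/
def act (c x : ℕ) : ℕ := force (sec x) fun m => force (mapp c m) coc
def du (p q : ℕ) : ℕ := Nat.xor (getL cocL 0 p) (getL cocL 0 q)
/-- the members conjugate to the involution -/
def zc (x : ℕ) : Bool := tb 58 (vl 7 x)
/-- the other involutions -/
def dc (x : ℕ) : Bool := tb 68 (vl 7 x)
def thChk (L c : ℕ) : Bool := band (chk c) (allR (fun p => allR (fun q =>
  Nat.beq (ap L (du p q)) (du (dig c p) (dig c q))) 24) 24)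
def μgens : List ℕ := [μC, μT, μR, pone]

theorem coc_lt (m : ℕ) : coc m < 2048 :=
  xorSel_ind (· < 2048) (by norm_num) (fun _ _ => xor_lt11) _ (by decide) _ _

theorem coc_xor (m n : ℕ) : coc (Nat.xor m n) = coc m ^^^ coc n := xorSel_xor ..

theorem act_lt (c x : ℕ) : act c x < 2048 := by rw [act, force_eq, force_eq]; exact coc_lt _

theorem coc_chk : allP (fun k => band (force (cw k) fun c => band (Nat.beq (c % 4096) k) (Nat.beq (coc c) 0))
    (force (4096 * k) fun m => bor (Nat.beq k 0) (bor (bne' (coc m) 0) (Nat.beq (pcnt m % 2) 1)))) 12 0 = true := by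
  decide +kernel

theorem sec_spec {x : ℕ} (hx : x < 2048) : coc (sec x) = x ∧ sec x < 2 ^ 24 ∧ pcnt (sec x) % 2 = 0 := by
  simpa using all11 (by decide +kernel : allP (fun n => force (sec n) fun m => band (Nat.beq (coc m) n)
    (band (blt' m (2 ^ 24)) (Nat.beq (pcnt m % 2) 0))) 11 0 = true) hx

theorem dc_spec {x : ℕ} (hx : x < 2048) (h : dc x = true) : ∃ p < 24, ∃ q < 24, p ≠ q ∧ du p q = x := by
  have := all11 (by decide +kernel : allP (fun n => bimp (dc n) (force (pick pqT 10 1023 n % 32) fun p =>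
    force (pick pqT 10 1023 n / 32) fun q => band (blt' p q) (band (blt' q 24) (Nat.beq (du p q) n)))) 11 0 = true) hx
  simp only [bimp_eq_true, force_eq, band_eq_true, beq_iff, blt'_eq_true] at this
  obtain ⟨a, b, c⟩ := this h
  exact ⟨_, a.trans b, _, b, a.ne, c⟩

theorem dc_du : ∀ p < 24, ∀ q < 24, p ≠ q → dc (du p q) = true := by decide +kernel

theorem dc_iff {x : ℕ} (hx : x < 2048) : dc x = true ↔ x ≠ 0 ∧ ¬ zc x = true := by
  have := all11 (by decide +kernel : allP (fun n => band (bimp (dc n) (band (bne' n 0) (bnot (zc n))))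
    (bimp (band (bne' n 0) (bnot (zc n))) (dc n))) 11 0 = true) hx
  simp only [bimp_eq_true, band_eq_true, bne'_eq_true, bnot_eq_true] at this
  exact ⟨this.1, this.2⟩

theorem coc_single (p : Pt) : coc (mask {p}) = getL cocL 0 (idx p) := by
  rw [mask_singleton]; revert p; decide +kernel

theorem coc_pair {p q : Pt} (h : p ≠ q) : coc (mask {p, q}) = du (idx p) (idx q) := by
  rw [← pair_eq h, mask_symmDiff, coc_xor, coc_single, coc_single]; rfl

theorem coc_eq_zero {T : Finset Pt} (hT : Even T.card) : coc (mask T) = 0 ↔ T ∈ Cs := by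
  have h := allP_zero coc_chk
  simp only [force_eq, band_eq_true, bor_eq_true, beq_iff, bne'_eq_true] at h
  have h1 : ∀ T ∈ Cs, coc (mask T) = 0 := fun T hT => by
    obtain ⟨k, hk, e⟩ := exists_cw hT
    rw [← e, (h k hk).1.2]
  refine ⟨fun H => ?_, h1 T⟩
  have hk := Nat.mod_lt (mask T) (show 0 < 4096 by norm_num)
  obtain ⟨d, hd, e⟩ := inC_cw (mask T % 4096)
  have h2 : mask (T ∆ d) % 4096 = 0 := by
    rw [mask_symmDiff, e]
    refine (Nat.xor_mod_two_pow (n := 12)).trans ?_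
    erw [(h _ hk).1.1, Nat.xor_self]
  have h3 := mask_lt (T ∆ d)
  have h4 := (h (mask (T ∆ d) / 4096) (by omega)).2
  have h5 := card_symmDiff_add T d
  have h6 := card_of_mem_Cs hd
  rw [show 4096 * (mask (T ∆ d) / 4096) = mask (T ∆ d) by omega, pcnt_mask, mask_symmDiff T d, coc_xor, H, h1 d hd,
    ← mask_symmDiff] at h4
  rw [Nat.even_iff] at hT
  rcases h4 with h4 | h4 | h4
  · rwa [symmDiff_eq_bot.1 (mask_inj (show mask (T ∆ d) = mask ∅ by rw [mask_empty]; omega))]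
  · exact (h4 rfl).elim
  · omega

variable {G : Type*} [Group G]

namespace HM

variable [Finite G] (X : HM G)

/-- the cocode coordinates -/
def ψ (T : Finset Pt) : G := X.ev (coc (mask T))
/-- the second involution -/
def t : G := X.ev 4
/-- `g` normalises `V` and induces the permutation `p` -/
structure TH (g : G) (p : Perm Pt) : Prop where
  mem : g ∈ 𝒩(X.V)
  inM : p ∈ M24
  cj : ∀ T : Finset Pt, Even T.card → g * X.ψ T * g⁻¹ = X.ψ (p • T)

theorem todd : Todd X.ψ :=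
  ⟨fun S T => by rw [ψ, mask_symmDiff, coc_xor, X.ev_xor]; rfl, fun T hT => by
    rw [← coc_eq_zero hT]
    exact ⟨X.ev_eq_one (coc_lt _), fun e => by rw [ψ, e, X.ev_zero]⟩⟩

theorem ψ_mem (T : Finset Pt) : X.ψ T ∈ X.V := X.ev_mem (coc_lt _)

omit [Finite G] in
theorem ψ_sec {x : ℕ} (hx : x < 2048) : Even (unmask (sec x)).card ∧ X.ψ (unmask (sec x)) = X.ev x := by
  obtain ⟨a, b, c⟩ := sec_spec hx
  exact ⟨by rw [card_unmask b, Nat.even_iff, c], by rw [ψ, mask_unmask b, a]⟩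

theorem mem_V_iff (a : G) : a ∈ X.V ↔ ∃ T : Finset Pt, Even T.card ∧ X.ψ T = a :=
  ⟨fun ⟨_, hx, e⟩ => ⟨_, (X.ψ_sec hx).1, (X.ψ_sec hx).2.trans e⟩, fun ⟨T, _, e⟩ => e ▸ X.ψ_mem T⟩

omit [Finite G] in
theorem ψ_pair {p q : Pt} (h : p ≠ q) : X.ψ {p, q} = X.ev (du (idx p) (idx q)) := by rw [ψ, coc_pair h]

omit [Finite G] in
theorem ψ_t : X.ψ (unmask 8388609) = X.t := by rw [ψ, mask_unmask (by norm_num)]; rfl

omit [Finite G] in
theorem ψ_z : X.ψ (unmask 8388615) = X.z := by rw [ψ, mask_unmask (by norm_num), ← X.ev_64]; rfl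

theorem t_mem : X.t ∈ X.V := X.ev_mem (by norm_num)
theorem t_sq : X.t * X.t = 1 := X.ev_sq _
theorem t_ne : X.t ≠ 1 := fun h => absurd (X.ev_eq_one (by norm_num) h) (by norm_num)

theorem mem_V_of_comm {g : G} (h : ∀ a ∈ X.V, Commute g a) : g ∈ X.V := X.cent_V.le (mem_cent_subgroup_iff.2 h)

variable {X}

namespace TH

variable {g h : G} {p q : Perm Pt}

theorem mul (a : X.TH g p) (b : X.TH h q) : X.TH (g * h) (p * q) :=
  ⟨mul_mem a.mem b.mem, mul_mem a.inM b.inM, fun T hT => by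
    rw [mul_smul, ← a.cj _ (by simpa using hT), ← b.cj T hT]; group⟩

theorem inv (a : X.TH g p) : X.TH g⁻¹ p⁻¹ :=
  ⟨inv_mem a.mem, inv_mem a.inM, fun T hT => by
    rw [← smul_inv_smul p T, ← a.cj _ (by simpa using hT), inv_smul_smul]; group⟩

theorem unique (a : X.TH g p) (b : X.TH g q) : p = q :=
  X.todd.perm_ext fun T hT => by rw [← a.cj T (by rw [hT]; decide), ← b.cj T (by rw [hT]; decide)]

theorem of_V (a : g ∈ X.V) : X.TH g 1 :=
  ⟨le_normalizer a, one_mem _, fun T _ => by rw [one_smul, conj_eq_iff_commute.2 (X.V_comm a (X.ψ_mem T))]⟩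

theorem one : X.TH 1 1 := of_V (one_mem _)

theorem mem_V (a : X.TH g 1) : g ∈ X.V := X.mem_V_of_comm fun b hb => by
  obtain ⟨T, hT, rfl⟩ := (X.mem_V_iff b).1 hb
  exact conj_eq_iff_commute.1 ((a.cj T hT).trans (by rw [one_smul]))

theorem pow (a : X.TH g p) (n : ℕ) : X.TH (g ^ n) (p ^ n) := by
  induction n with
  | zero => simpa using one
  | succ n ih => rw [pow_succ, pow_succ]; exact ih.mul a

theorem conj {m : G} {k : Perm Pt} (a : X.TH g p) (b : X.TH m k) : X.TH (m * g * m⁻¹) (k * p * k⁻¹) :=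
  (b.mul a).mul b.inv

theorem div (a : X.TH g p) (b : X.TH h p) : g * h⁻¹ ∈ X.V := (mul_inv_cancel p ▸ a.mul b.inv).mem_V

theorem eq_one (a : X.TH g p) (b : g ∈ X.V) : p = 1 := a.unique (of_V b)

theorem mulV (a : X.TH g p) (b : h ∈ X.V) : X.TH (h * g) p := one_mul p ▸ (of_V b).mul a

theorem act (a : X.TH g p) {x : ℕ} (hx : x < 2048) : g * X.ev x * g⁻¹ = X.ev (act (code p) x) := by
  rw [← (X.ψ_sec hx).2, a.cj _ (X.ψ_sec hx).1, ψ, ← mapp_code, mask_unmask (sec_spec hx).2.1, J4.act, force_eq, force_eq]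

theorem pair (a : X.TH g p) (x y : Pt) (e : x ≠ y) : g * X.ψ {x, y} * g⁻¹ = X.ψ {p x, p y} := by
  rw [a.cj _ (by rw [Finset.card_pair e]; decide), Finset.smul_finset_insert, Finset.smul_finset_singleton]; rfl

theorem sq (a : X.TH g p) (e : g * g = 1) : p * p = 1 := (a.mul a).eq_one (e ▸ one_mem _)

theorem comm (a : X.TH g p) (b : X.TH h q) (e : Commute g h) : Commute p q := (a.mul b).unique (e.eq ▸ b.mul a)

end TH

variable (X) [hF : Fact X.Fu]

theorem av_t : X.AV X.t3 (LT 7) := (X.classes hF.out).1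

theorem zc_iff {x : ℕ} (hx : x < 2048) : IsConj X.z (X.ev x) ↔ zc x = true := (X.classes hF.out).2 x hx

theorem duad_iff {a : G} : a ∈ X.V ∧ a ≠ 1 ∧ ¬ IsConj X.z a ↔ ∃ D : Finset Pt, D.card = 2 ∧ X.ψ D = a := by
  constructor
  · rintro ⟨⟨x, hx, rfl⟩, h1, h2⟩
    obtain ⟨p, hp, q, hq, a, rfl⟩ := dc_spec hx ((dc_iff hx).2 ⟨fun e => h1 (by rw [e, X.ev_zero]),
      mt (X.zc_iff hx).2 h2⟩)
    have : pt p ≠ pt q := fun e => a (pt_inj hp hq e)
    exact ⟨_, Finset.card_pair this, by rw [X.ψ_pair this, idx_pt hp, idx_pt hq]⟩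
  · rintro ⟨D, hD, rfl⟩
    obtain ⟨p, q, e, rfl⟩ := Finset.card_eq_two.1 hD
    have l : du (idx p) (idx q) < 2048 := coc_pair e ▸ coc_lt _
    have := (dc_iff l).1 (dc_du _ (idx_lt p) _ (idx_lt q) fun a => e (idx_inj a))
    exact ⟨X.ψ_mem _, fun a => this.1 (X.ev_eq_one l (X.ψ_pair e ▸ a)), by rw [X.ψ_pair e, X.zc_iff l]; exact this.2⟩

theorem card_M : Nat.card 𝒩(X.V) = 1771 * 283115520 := by
  rw [X.card_M_eq fun x => X.zc_iff, show sumR _ _ = 1771 by decide +kernel]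

theorem exists_θ : ∃ θ : 𝒩(X.V) →* M24, Function.Surjective θ ∧ ∀ m : 𝒩(X.V), X.TH m (θ m) := by
  obtain ⟨θ, h1, h2⟩ := X.todd.exists_hom (M := 𝒩(X.V)) X.mem_V_iff (fun _ => X.mem_V_of_comm)
    fun m hm D hD => by
      obtain ⟨a, b, c⟩ := X.duad_iff.2 ⟨D, hD, rfl⟩
      obtain ⟨D', e⟩ := X.duad_iff.1 ⟨conj_mem_of_mem_norm hm a, mt conj_eq_one_iff.1 b,
        fun H => c (H.trans (isConj_iff.2 ⟨m, rfl⟩).symm)⟩
      exact ⟨D', e.1, e.2.symm⟩
  refine ⟨θ, MonoidHom.range_eq_top.1 (eq_top_of_le_card _ ?_), fun m => ⟨m.2, (θ m).2, h2 m⟩⟩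
  have h3 := θ.ker.card_mul_index
  rw [index_ker, congrArg (fun X : Subgroup _ => Nat.card X) h1, card_subgroupOf le_normalizer, X.card_V,
    X.card_M] at h3
  rw [card_M24]
  omega

theorem exists_TH {g : G} (hg : g ∈ 𝒩(X.V)) : ∃ p, X.TH g p := by
  obtain ⟨θ, -, h⟩ := X.exists_θ
  exact ⟨_, h ⟨g, hg⟩⟩

theorem TH_surj {p : Perm Pt} (hp : p ∈ M24) : ∃ g, X.TH g p := by
  obtain ⟨θ, h1, h⟩ := X.exists_θ
  obtain ⟨m, e⟩ := h1 ⟨p, hp⟩
  exact ⟨m, by simpa [e] using h m⟩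

variable {X} in
theorem AV.th {g : G} {L c : ℕ} (h : X.AV g L) (e : thChk L c = true) : X.TH g (perm c) := by
  obtain ⟨p, hp⟩ := X.exists_TH h.norm
  simp only [thChk, band_eq_true, allR_eq_true, beq_iff] at e
  refine X.todd.perm_ext (π := p) (π' := perm c) (fun T hT => ?_) ▸ hp
  obtain ⟨x, y, xy, rfl⟩ := Finset.card_eq_two.1 hT
  rw [← hp.cj _ (by rw [hT]; decide), X.ψ_pair xy, h.2 _ (coc_pair xy ▸ coc_lt _), e.2 _ (idx_lt x) _ (idx_lt y),
    Finset.smul_finset_insert, Finset.smul_finset_singleton, X.ψ_pair (p := perm c • x) (q := perm c • y)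
      fun a => xy ((perm c).injective a), Perm.smul_def, Perm.smul_def, ← dig_code_idx, ← dig_code_idx,
    code_perm_chk e.1]

theorem th_ρ : X.TH X.ρ (perm μR) := X.av_ρ.th (by decide +kernel)
theorem th_c5 : X.TH X.c5 (perm μC) := X.av_c5.th (by decide +kernel)
theorem th_t3 : X.TH X.t3 (perm μT) := X.av_t.th (by decide +kernel)
theorem th_sP {i : ℕ} (hi : i < 6) : X.TH (X.s (col mP i)) (perm (getL μS 0 i)) :=
  (X.av_sP hi).th ((by decide +kernel : ∀ i < 6, thChk (getL LSP 0 i) (getL μS 0 i) = true) i hi)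

theorem not_conj_t : ¬ IsConj X.z X.t := by rw [t, X.zc_iff (by norm_num)]; decide +kernel

theorem duad_conj {D : Finset Pt} (h : D.card = 2) : ∃ m ∈ 𝒩(X.V), m * X.ψ D * m⁻¹ = X.t := by
  obtain ⟨x, y, xy, rfl⟩ := Finset.card_eq_two.1 h
  obtain ⟨k, hk, a, b⟩ := exists_two xy (show pt 23 ≠ pt 0 by decide)
  obtain ⟨m, hm⟩ := X.TH_surj hk
  exact ⟨m, hm.mem, by rw [hm.pair x y xy, a, b, ← X.ψ_t, unmask_duad]⟩

theorem V_cases {a : G} (h : a ∈ X.V) : a = 1 ∨ IsConj X.z a ∨ ∃ m ∈ 𝒩(X.V), m * a * m⁻¹ = X.t := by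
  by_contra c
  push Not at c
  obtain ⟨D, hD, rfl⟩ := X.duad_iff.1 ⟨h, c.1, c.2.1⟩
  obtain ⟨m, hm, e⟩ := X.duad_conj hD
  exact c.2.2 m hm e

theorem tetrad {T : Finset Pt} (h : T.card = 4) : IsConj X.z (X.ψ T) := by
  by_contra c
  obtain ⟨D, hD, e⟩ := X.duad_iff.1 ⟨X.ψ_mem T, fun a => by
    have := card_of_mem_Cs ((X.todd.ker T (by rw [h]; decide)).1 a)
    omega, c⟩
  have := congrArg Finset.card (X.todd.inj (by rw [h, hD]; decide) (by omega) e)
  omega

theorem orbit_t : {y | ∃ c ∈ 𝒩(X.V), c * X.t * c⁻¹ = y} = {y | y ∈ X.V ∧ y ≠ 1 ∧ ¬ IsConj X.z y} :=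
  Set.ext fun _ => ⟨fun ⟨c, hc, e⟩ => e ▸ ⟨conj_mem_of_mem_norm hc X.t_mem, mt conj_eq_one_iff.1 X.t_ne,
    fun a => X.not_conj_t (a.trans (isConj_iff.2 ⟨c, rfl⟩).symm)⟩, fun H => by
    obtain ⟨m, hm, e⟩ := ((X.V_cases H.1).resolve_left H.2.1).resolve_left H.2.2
    exact ⟨m⁻¹, inv_mem hm, by rw [← e]; group⟩⟩

theorem ncard_orbit_z : {y | ∃ c ∈ 𝒩(X.V), c * X.z * c⁻¹ = y}.ncard = 1771 := by
  have := ncard_conj 𝒩(X.V) X.z
  rw [X.inf_eq_Y, X.card_Y, X.card_M] at this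
  omega

theorem ncard_orbit_t : {y | ∃ c ∈ 𝒩(X.V), c * X.t * c⁻¹ = y}.ncard = 276 := by
  rw [X.orbit_t, ncard_sumR (fun _ a _ b => X.ev_inj a b) _ dc (fun _ a => a.1) fun n hn => ?_]
  · decide +kernel
  rw [Set.mem_ofPred_eq, and_iff_right (X.ev_mem hn), dc_iff hn, X.zc_iff hn]
  exact and_congr_left' (not_congr ⟨X.ev_eq_one hn, fun e => by rw [e, X.ev_zero]⟩)

/-- the value of a word -/
def wd : List ℕ → G
  | [] => 1
  | i :: w => [X.c5, X.t3, X.ρ, X.xu 0].getD i 1 * wd w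

omit hF in
theorem rc_wd (w : List ℕ) : X.RC (X.wd w) (evalC ygens w) := by
  induction w with
  | nil => exact X.rc_one
  | cons i w ih =>
    change X.RC _ (force (evalC ygens w) fun a => force (getL ygens cone i) fun b => cmul b a)
    rw [force_eq, force_eq]
    refine RC.mul ?_ ih
    rcases i with _ | _ | _ | _ | i
    exacts [X.rc_c5, X.rc_t3, X.rc_ρ, (by decide +kernel : uc (2 ^ 0) = getL ygens cone 3) ▸ X.rc_xu (by norm_num),
      X.rc_one]

theorem th_wd (w : List ℕ) : ∃ p, code p = evalW μgens w ∧ X.TH (X.wd w) p := by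
  induction w with
  | nil => exact ⟨1, code_one, TH.one⟩
  | cons i w ih =>
    obtain ⟨p, a, b⟩ := ih
    obtain ⟨q, c, d⟩ : ∃ q, code q = getL μgens pone i ∧ X.TH ([X.c5, X.t3, X.ρ, X.xu 0].getD i 1) q := by
      rcases i with _ | _ | _ | _ | i
      exacts [⟨_, code_perm_chk (by decide +kernel), X.th_c5⟩, ⟨_, code_perm_chk (by decide +kernel), X.th_t3⟩,
        ⟨_, code_perm_chk (by decide +kernel), X.th_ρ⟩, ⟨1, code_one, TH.of_V (X.xu_mem (by norm_num))⟩,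
        ⟨1, code_one, TH.one⟩]
    refine ⟨q * p, ?_, d.mul b⟩
    change _ = force (evalW μgens w) fun a => force (getL μgens pone i) fun b => pmul b a
    rw [force_eq, force_eq, ← a, ← c, pmul_code]

end HM

end

end CA.J4

theorem CA.J4.realizeEqnsJ4Mat : True := by
  have := @CA.J4.du.eq_1
  have := @CA.J4.du.eq_def
  have := @CA.J4.du.congr_simp
  have := @CA.J4.zc.eq_1
  have := @CA.J4.zc.eq_def
  have := @CA.J4.zc.congr_simp
  have := @CA.J4.HM.wd.eq_1.{0}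
  have := @CA.J4.HM.wd.eq_2.{0}
  have := @CA.J4.HM.wd.eq_def.{0}
  have := @CA.J4.HM.wd.congr_simp.{0}
  have := @CA.J4.act.eq_1
  have := @CA.J4.act.eq_def
  have := @CA.J4.act.congr_simp
  have := @CA.J4.thChk.eq_1
  have := @CA.J4.thChk.eq_def
  have := @CA.J4.thChk.congr_simp
  have := @CA.J4.sec.eq_1
  have := @CA.J4.sec.eq_def
  have := @CA.J4.sec.congr_simp
  have := @CA.J4.μgens.eq_1
  have := @CA.J4.μgens.eq_def
  have := @CA.J4.μgens.congr_simp
  have := @CA.J4.dc.eq_1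
  have := @CA.J4.dc.eq_def
  have := @CA.J4.dc.congr_simp
  have := @CA.J4.coc.eq_1
  have := @CA.J4.coc.eq_def
  have := @CA.J4.coc.congr_simp
  have := @CA.J4.HM.t.eq_1.{0}
  have := @CA.J4.HM.t.eq_def.{0}
  have := @CA.J4.HM.t.congr_simp.{0}
  have := @CA.J4.HM.ψ.eq_1.{0}
  have := @CA.J4.HM.ψ.eq_def.{0}
  have := @CA.J4.HM.ψ.congr_simp.{0}
  trivial
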