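import Cfsg.Agent.J4.Mod

/-! Identification of the twelve-dimensional module, second part. -/

set_option autoImplicit false
set_option maxRecDepth 100000

namespace CA.J4

open CA.M24

noncomputable section

variable {W : Type*} [AddCommGroup W]

namespace Hyp

variable {Ω A B T U : AddMonoid.End W}

theorem comm_apply {φ ψ : AddMonoid.End W} (h : Commute φ ψ) (w : W) : φ (ψ w) = ψ (φ w) :=
  DFunLike.congr_fun h.eq w

variable {f : ℕ → W}

theorem basis (hA : Act f A mA) {j : ℕ} (hj : j < 10) : f (2 ^ j) = (A ^ j) (f 1) := by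
  rw [((hA.pow j) 1 (by norm_num)).2, (by decide +kernel : ∀ j < 10, itr (ap mA) j 1 = 2 ^ j) j hj]

theorem act_omM (H : Hyp Ω A B T U) (hf : Co f) (hA : Act f A mA) (h2 : f 2048 = Ω (f 1024)) {y : ℕ}
    (hy : y < 4096) (e : Ω (f 1) = f y) : Act f Ω (omM y) := by
  refine act_of_basis hf.xor fun i hi => ?_
  have k := fun j => hA.pow j y hy
  rw [omM, pk_eq, col_getL (by simp [hy, (k _).1]) hi]
  by_cases h9 : i < 10
  · rw [basis hA h9, comm_apply (H.oA.pow_right i), e, (k i).2]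
    interval_cases i <;> rfl
  obtain rfl | rfl : i = 10 ∨ i = 11 := by omega
  · exact h2.symm
  · change Ω (f 2048) = f (2048 ^^^ 1024)
    rw [hf.xor, h2, H.om]

theorem om_cases (H : Hyp Ω A B T U) (hf : Co f) (hA : Act f A mA) (h2 : f 2048 = Ω (f 1024))
    (hx : ∑ j ∈ Finset.range 11, (A ^ j) (f 1) = 0) : Ω (f 1) = f 570 ∨ (Ω ^ 2) (f 1) = f 570 := by
  obtain ⟨y, hy, e⟩ := hf.surj (Ω (f 1))
  have k := H.act_omM hf hA h2 hy e.symm
  have c1 : allP (fun y => bimp (Nat.beq (trc (ap mA) 11 y) 0)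
      (bimp (Nat.beq (ap (omM y) y) (Nat.xor y 1)) (memL y [570, 571]))) 12 0 = true := by decide +kernel
  have c2 := allV c1 hy
  simp only [bimp_eq_true, beq_iff, memL_eq_true, List.mem_cons, List.not_mem_nil, or_false] at c2
  obtain ⟨a, b⟩ := hA.trc hf.xor 11 hy
  have c3 := c2 (hf.inj _ a (by
      rw [b, e]
      simp only [← comm_apply (H.oA.pow_right _)]
      rw [← map_sum, hx, map_zero]))
    (hf.eq (ap_lt _ _) (xor_lt hy (by norm_num)) (by
      rw [← (k y hy).2, e, H.om]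
      change _ = f (y ^^^ 1)
      rw [hf.xor, e]))
  rcases c3 with rfl | rfl
  · exact Or.inl e.symm
  · right
    change Ω (Ω (f 1)) = _
    rw [H.om, ← e, ← hf.xor]
    rfl

theorem act_B (H : Hyp Ω A B T U) (hf : Co f) (hA : Act f A mA) (hO : Act f Ω mO) (h1 : B (f 1) = f 1) :
    Act f B mB := by
  have e2 : f 2048 = Ω (f 1024) := ((hO 1024 (by norm_num)).2).symm
  have hc : B (f 1024) = f 1024 := by
    obtain ⟨y, hy, e⟩ := hf.surj (B (f 1024))
    have c1 : allP (fun y => bimp (Nat.beq (itr (ap mA) 4 y) y) (memL y [0, 1024, 2048, 3072])) 12 0 = true := by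
      decide +kernel
    have c2 := allV c1 hy
    simp only [bimp_eq_true, beq_iff, memL_eq_true, List.mem_cons, List.not_mem_nil, or_false] at c2
    have k := hA.pow 4 y hy
    have a1 : A (f 1024) = f 1024 := (hA 1024 (by norm_num)).2
    have c3 := c2 (hf.eq k.1 hy (by
      have := semiconj_pow H.BA 1 (f 1024)
      rw [pow_one, pow_one, a1] at this
      rw [← k.2, e, ← this]))
    have b5 : B (B (B (B (B (f 1024))))) = f 1024 := DFunLike.congr_fun H.B5 _
    have o := comm_apply H.oB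
    have ne : ∀ a < 4096, a ≠ 1024 → f a ≠ f 1024 := fun a ha h e => h (hf.eq ha (by norm_num) e)
    rcases c3 with rfl | rfl | rfl | rfl
    · rw [← e, hf.zero] at b5
      simp only [map_zero] at b5
      exact absurd (hf.inj _ (by norm_num) b5.symm) (by norm_num)
    · exact e.symm
    · rw [e2] at e
      simp only [← e, ← o] at b5
      simp only [(hO _ (by norm_num : 1024 < 4096)).2, (hO _ (ap_lt _ _)).2] at b5
      exact absurd b5 (ne _ (ap_lt _ _) (by decide +kernel))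
    · have e' : B (f 1024) = Ω (Ω (f 1024)) := by
        rw [← e, H.om, ← e2, ← hf.xor]; rfl
      simp only [e', ← o] at b5
      simp only [(hO _ (by norm_num : 1024 < 4096)).2, (hO _ (ap_lt _ _)).2] at b5
      exact absurd b5 (ne _ (ap_lt _ _) (by decide +kernel))
  refine act_of_basis hf.xor fun i hi => ?_
  by_cases h9 : i < 10
  · rw [basis hA h9, semiconj_pow H.BA, h1, (((hA.pow 4).pow i) 1 (by norm_num)).2,
      (by decide +kernel : ∀ j < 10, itr (itr (ap mA) 4) j 1 = col mB j) i h9]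
  obtain rfl | rfl : i = 10 ∨ i = 11 := by omega
  · exact hc
  · change B (f 2048) = f 2048
    rw [e2, ← comm_apply H.oB, hc]

theorem act_T (H : Hyp Ω A B T U) (hf : Co f) (hA : Act f A mA) (hO : Act f Ω mO) (hB : Act f B mB) :
    A (T (f 1)) = T (f 1) ∧ (T (f 1) = f 1024 → Act f T mT) := by
  have fx : ∀ v < 4096, B (f v) = f v → ∃ y ∈ fixB, y < 4096 ∧ T (f v) = f y := by
    intro v hv h
    obtain ⟨y, hy, e⟩ := hf.surj (T (f v))
    have c1 : allP (fun y => bimp (Nat.beq (itr (ap mB) 2 y) y) (memL y fixB)) 12 0 = true := by decide +kernel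
    have c2 := allV c1 hy
    simp only [bimp_eq_true, beq_iff, memL_eq_true] at c2
    have k := hB.pow 2 y hy
    refine ⟨y, c2 (hf.eq k.1 hy ?_), hy, e.symm⟩
    have := semiconj_pow H.TB 1 (f v)
    rw [pow_one, pow_one, h] at this
    rw [← k.2, e, ← this]
  obtain ⟨x0, m0, l0, e0⟩ := fx 1 (by norm_num) (hB 1 (by norm_num)).2
  obtain ⟨x5, m5, l5, e5⟩ := fx 1024 (by norm_num) (hB 1024 (by norm_num)).2
  obtain ⟨y, hy, e⟩ := hf.surj (T (f 10))
  have my : y ∈ kerB := by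
    have c1 : allP (fun y => bimp (Nat.beq (trc (itr (ap mB) 2) 5 y) 0) (memL y kerB)) 12 0 = true := by
      decide +kernel
    have c2 := allV c1 hy
    simp only [bimp_eq_true, beq_iff, memL_eq_true] at c2
    obtain ⟨a, b⟩ := (hB.pow 2).trc hf.xor 5 hy
    refine c2 (hf.inj _ a ?_)
    rw [b, e]
    simp only [← semiconj_pow H.TB]
    rw [← map_sum, ← (hB.trc hf.xor 5 (by norm_num : 10 < 4096)).2,
      show trc (ap mB) 5 10 = 0 by decide +kernel, hf.zero, map_zero]
  have k1 : Act f (T * (show AddMonoid.End W from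
      { toFun := fun w => f (ap mC (hf.surj w).choose)
        map_zero' := by
          rw [hf.inj _ (hf.surj 0).choose_spec.1 (hf.surj 0).choose_spec.2, ap_zero, hf.zero]
        map_add' := fun a b => by
          rw [← hf.xor, ← ap_xor, hf.eq (hf.surj (a + b)).choose_spec.1
            (xor_lt (hf.surj a).choose_spec.1 (hf.surj b).choose_spec.1)]
          rw [hf.xor, (hf.surj a).choose_spec.2, (hf.surj b).choose_spec.2, (hf.surj _).choose_spec.2] }))
      (tN x0 x5 y) := by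
    refine act_of_basis hf.xor fun i hi => ?_
    have l : 2 ^ i < 4096 := (Nat.pow_lt_pow_right (by norm_num) hi : 2 ^ i < 2 ^ 12)
    change T (f (ap mC (hf.surj (f (2 ^ i))).choose)) = _
    rw [hf.eq (hf.surj _).choose_spec.1 l (hf.surj _).choose_spec.2]
    have b2 := hB.pow 2
    have y1 := b2 y hy
    have y2 := b2 _ y1.1
    have y3 := b2 _ y2.1
    simp only [tN, force_eq]
    rw [pk_eq, col_getL (by simp [l0, l5, hy, ap_lt, y1.1, y2.1, y3.1]) hi]
    have o := comm_apply H.oT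
    have s1 : T (f (ap mB 10)) = f (itr (ap mB) 2 y) := by
      rw [← (hB 10 (by norm_num)).2, ← y1.2, e]; exact semiconj_pow H.TB 1 _
    have s2 : T (f (ap mB (ap mB 10))) = f (itr (ap mB) 2 (itr (ap mB) 2 y)) := by
      rw [← (hB _ (ap_lt _ _)).2, ← y2.2, ← s1]; exact semiconj_pow H.TB 1 _
    have s3 : T (f (ap mB (ap mB (ap mB 10)))) = f (itr (ap mB) 2 (itr (ap mB) 2 (itr (ap mB) 2 y))) := by
      rw [← (hB _ (ap_lt _ _)).2, ← y3.2, ← s2]; exact semiconj_pow H.TB 1 _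
    have q : ∀ a b, a < 4096 → b < 4096 → T (f a) = f b → T (f (ap mO a)) = f (ap mO b) := by
      intro a b ha hb h
      rw [← (hO a ha).2, ← (hO b hb).2, ← h, o]
    interval_cases i
    · exact e0
    · exact q 1 _ (by norm_num) l0 e0
    · exact e5
    · exact q 1024 _ (by norm_num) l5 e5
    · exact e.symm
    · exact q 10 _ (by norm_num) hy e.symm
    · exact s1
    · exact q _ _ (ap_lt _ _) y1.1 s1
    · exact s2
    · exact q _ _ (ap_lt _ _) y2.1 s2
    · exact s3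
    · exact q _ _ (ap_lt _ _) y3.1 s3
  have k2 : ActF f T (tF (tN x0 x5 y)) := by
    intro v hv
    rw [tF, force_eq]
    refine ⟨ap_lt _ _, ?_⟩
    rw [← (k1 _ (ap_lt _ _)).2]
    change _ = T (f (ap mC (hf.surj (f (ap mCi v))).choose))
    rw [hf.eq (hf.surj _).choose_spec.1 (ap_lt _ _) (hf.surj _).choose_spec.2, ← ap_mm _ _ hv,
      show mm mC mCi = mone by decide +kernel, ap_mone hv]
  have c := allL_eq_true.1 (allL_eq_true.1 (allL_eq_true.1 tChk_all x0 m0) x5 m5) y my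
  have sc : ∀ (φ : AddMonoid.End W) (g : ℕ → ℕ), ActF f φ g → (∃ i, φ = Ω ^ i) → g 1 ∈ [1, 570, 571] := by
    rintro _ g h ⟨i, rfl⟩
    obtain ⟨a, b⟩ := h 1 (by norm_num)
    have o1 : Ω (f 1) = f 570 := (hO 1 (by norm_num)).2
    rcases H.om_pow i (f 1) with e | e | e <;> rw [b] at e
    · simp [hf.eq a (by norm_num) e]
    · simp [hf.eq a (by norm_num) (e.trans o1)]
    · rw [o1, ← hf.xor] at e
      simp [hf.eq a (by norm_num) e]
  rw [tChk, force_eq] at c
  simp only [bimp_eq_true, memL_eq_true, band_eq_true, beq_iff] at c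
  obtain ⟨c1, c2⟩ := c (sc _ _ ((hA.mul k2).pow 5) H.r1) (sc _ _ (((hA.pow 2).mul k2).pow 7) H.r2)
    (hf.eq (k2.pow 4 1 (by norm_num)).1 (by norm_num) (by rw [← (k2.pow 4 1 (by norm_num)).2, H.T4]; rfl))
  constructor
  · rw [e0, (hA _ l0).2]
    simp only [List.mem_cons, List.not_mem_nil, or_false] at c1
    rcases c1 with rfl | rfl | rfl <;> rfl
  · intro h v hv
    refine ⟨ap_lt _ _, ?_⟩
    rw [(k2 v hv).2, tF, force_eq, ← ap_mm _ _ hv, c2 (hf.eq l0 (by norm_num) (e0.symm.trans h))]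

theorem act_U (H : Hyp Ω A B T U) (hf : Co f) (hA : Act f A mA) (hO : Act f Ω mO) (hB : Act f B mB)
    (hT : Act f T mT) : ∃ i, Act f (Ω ^ i * U) mU := by
  obtain ⟨y, hy, e⟩ := hf.surj (U (f 1))
  have c1 : allP (fun y => bimp (Nat.beq (ap mB y) y) (bimp (Nat.beq (trc (itr (ap mA) 10) 11 y) 0)
    (bor (Nat.beq y 0) (anyR (fun i => Nat.beq (itr (ap mO) i y) 1) 3)))) 12 0 = true := by decide +kernel
  have c2 := allV c1 hy
  simp only [bimp_eq_true, beq_iff, bor_eq_true, anyR_eq_true] at c2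
  obtain ⟨a, b⟩ := (hA.pow 10).trc hf.xor 11 hy
  have c3 := c2 (hf.eq (ap_lt _ _) hy (by
      rw [← (hB y hy).2, e, ← comm_apply H.UB, (hB 1 (by norm_num)).2]; rfl))
    (hf.inj _ a (by
      rw [b, e]
      simp only [← semiconj_pow H.UA]
      rw [← map_sum, ← (hA.trc hf.xor 11 (by norm_num : 1 < 4096)).2,
        show trc (ap mA) 11 1 = 0 by decide +kernel, hf.zero, map_zero]))
  obtain ⟨i, -, h⟩ := c3.resolve_left (by
    rintro rfl
    rw [hf.zero, ← map_zero U] at e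
    exact absurd (hf.inj _ (by norm_num) (H.Uinj e).symm) (by norm_num))
  refine ⟨i, ?_⟩
  have u1 : (Ω ^ i) (U (f 1)) = f 1 := by rw [← e, (hO.pow i y hy).2, h]
  have u2 : (Ω ^ i) (U (f 1024)) = f 1024 := by
    have : f 1024 = T (f 1) := (hT 1 (by norm_num)).2.symm
    rw [this, comm_apply H.UT, comm_apply (H.oT.pow_left i), u1]
  refine act_of_basis hf.xor fun j hj => ?_
  change (Ω ^ i) (U _) = _
  by_cases h9 : j < 10
  · rw [basis hA h9, semiconj_pow H.UA, comm_apply (((H.oA.pow_left i).pow_right 10).pow_right j), u1,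
      (((hA.pow 10).pow j) 1 (by norm_num)).2,
      (by decide +kernel : ∀ j < 10, itr (itr (ap mA) 10) j 1 = col mU j) j h9]
  obtain rfl | rfl : j = 10 ∨ j = 11 := by omega
  · exact u2
  · have e2 : f (2 ^ 11) = (Ω ^ 1) (f 1024) := ((hO 1024 (by norm_num)).2).symm
    rw [e2, semiconj_pow H.oU, comm_apply ((((Commute.refl Ω).pow_left i).pow_right 2).pow_right 1), u2,
      (((hO.pow 2).pow 1) 1024 (by norm_num)).2]
    rfl

theorem main' (H : Hyp Ω A B T U) {x : W} (hx : x ≠ 0) (hx' : ∑ j ∈ Finset.range 11, (A ^ j) x = 0)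
    (hb : B x = x) (ho : ∀ f : ℕ → W, Co f → Act f A mA → f 1 = x → Ω (f 1) = f 570) :
    ∃ f : ℕ → W, Co f ∧ Act f Ω mO ∧ Act f A mA ∧ Act f B mB ∧ Act f T mT ∧ ∃ i, Act f (Ω ^ i * U) mU := by
  have key : ∀ c, c ≠ 0 → A c = c → ∃ f : ℕ → W, Co f ∧ Act f Ω mO ∧ Act f A mA ∧ Act f B mB ∧ f 1 = x ∧
      f 1024 = c := by
    intro c hc hc'
    obtain ⟨f, hf, hA, e1, e2, e3⟩ := H.coord hx hx' hc hc'
    have hO : Act f Ω mO := by
      have := H.act_omM hf hA (by rw [e2, e3]) (by norm_num) (ho f hf hA e1)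
      rwa [show omM 570 = mO by decide +kernel] at this
    exact ⟨f, hf, hO, hA, H.act_B hf hA hO (by rw [e1, hb]), e1, e2⟩
  obtain ⟨c, hc, hc'⟩ := H.exists_c
  obtain ⟨f, hf, hO, hA, hB, e1, -⟩ := key c hc hc'
  have h1 := (H.act_T hf hA hO hB).1
  rw [e1] at h1
  have h2 : T x ≠ 0 := fun h => hx (by
    have : T (T (T (T x))) = x := DFunLike.congr_fun H.T4 x
    rw [← this, h, map_zero, map_zero, map_zero])
  obtain ⟨f, hf, hO, hA, hB, e1, e2⟩ := key _ h2 h1
  have hT := (H.act_T hf hA hO hB).2 (by rw [e1, e2])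
  exact ⟨f, hf, hO, hA, hB, hT, H.act_U hf hA hO hB hT⟩

theorem main (H : Hyp Ω A B T U) : ∃ k, (k = 1 ∨ k = 2) ∧ ∃ f : ℕ → W, Co f ∧ Act f (Ω ^ k) mO ∧
    Act f A mA ∧ Act f B mB ∧ Act f T mT ∧ ∃ i, Act f (Ω ^ i * U) mU := by
  obtain ⟨x, hx, hx', hb⟩ := H.exists_x
  obtain ⟨c, hc, hc'⟩ := H.exists_c
  obtain ⟨f, hf, hA, e1, e2, e3⟩ := H.coord hx hx' hc hc'
  have key : ∀ g : ℕ → W, Co g → Act g A mA → g 1 = x → g 570 = f 570 := by
    intro g hg hgA e
    rw [show 570 = 2 ^ 1 ^^^ 2 ^ 3 ^^^ 2 ^ 4 ^^^ 2 ^ 5 ^^^ 2 ^ 9 from rfl]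
    simp only [hf.xor, hg.xor]
    simp only [basis hA (by norm_num : 1 < 10), basis hA (by norm_num : 3 < 10), basis hA (by norm_num : 4 < 10),
      basis hA (by norm_num : 5 < 10), basis hA (by norm_num : 9 < 10), basis hgA (by norm_num : 1 < 10),
      basis hgA (by norm_num : 3 < 10), basis hgA (by norm_num : 4 < 10),
      basis hgA (by norm_num : 5 < 10), basis hgA (by norm_num : 9 < 10), e, e1]
  rcases H.om_cases hf hA (by rw [e2, e3]) (by rw [e1, hx']) with h | h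
  · refine ⟨1, Or.inl rfl, ?_⟩
    rw [pow_one]
    exact H.main' hx hx' hb fun g hg hgA e => by rw [key g hg hgA e, e, ← e1, h]
  · refine ⟨2, Or.inr rfl, ?_⟩
    obtain ⟨g, h1, h2, h3, h4, h5, i, h6⟩ :=
      H.sq.main' hx hx' hb fun g hg hgA e => by rw [key g hg hgA e, e, ← e1, h]
    exact ⟨g, h1, h2, h3, h4, h5, 2 * i, by rwa [pow_mul]⟩

end Hyp

end

end CA.J4
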