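import Cfsg.Agent.J4.Aut
import Cfsg.Agent.J4.Mod2
import Cfsg.Agent.Fi.Extra
import Cfsg.Agent.FG.PHall
import Cfsg.Prelude.Def_JankoFourType

/-! First consequences of the hypothesis on the centraliser of the involution. -/

set_option autoImplicit false
set_option maxRecDepth 100000

namespace CA.J4

open CA.M24 CA.Fi CA.FG Cfsg Subgroup Equiv
open scoped commutatorElement

noncomputable section

variable {G : Type*} [Group G]

structure Pre (z ρ : G) (E : Subgroup G) (π : G → Perm Pt) : Prop where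
  es : ES E z
  card : Nat.card E = 8192
  norm : ∀ g, Commute z g → g ∈ 𝒩(E)
  faith : ∀ g, Commute z g → (∀ e ∈ E, Commute g e) → g ∈ E
  ρ3 : orderOf ρ = 3
  zρ : Commute z ρ
  fpf : ∀ e ∈ E, Commute e ρ → e = 1 ∨ e = z
  π_mul : ∀ g h, Commute z g → Commute z h → π (g * h) = π g * π h
  π_mem : ∀ g, Commute z g → π g ∈ DD
  π_ker : ∀ g, Commute z g → (π g = 1 ↔ ∃ e ∈ E, ∃ i : ℕ, g = e * ρ ^ i)
  lift : ∀ d ∈ DD, ∃ n, Commute z n ∧ (n * ρ * n⁻¹ = ρ ∨ n * ρ * n⁻¹ = ρ ^ 2) ∧ π n = d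
  inv : ∃ n, Commute z n ∧ n * ρ * n⁻¹ = ρ ^ 2
  der : ρ ∈ ⁅𝒞[z] ⊓ 𝒞[ρ], 𝒞[z] ⊓ 𝒞[ρ]⁆

theorem conj_cases_three {ρ n : G} (h : orderOf ρ = 3) (hn : n * ρ * n⁻¹ ∈ zpowers ρ) :
    n * ρ * n⁻¹ = ρ ∨ n * ρ * n⁻¹ = ρ ^ 2 := by
  classical
  rw [(isOfFinOrder_iff_pow_eq_one.2 ⟨3, by norm_num, h ▸ pow_orderOf_eq_one ρ⟩).mem_zpowers_iff_mem_range_orderOf,
    h] at hn
  obtain ⟨i, hi, e⟩ := Finset.mem_image.1 hn
  have : i < 3 := by simpa using hi
  interval_cases i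
  · have : ρ = 1 := by simpa [eq_mul_inv_iff_mul_eq] using e.symm
    rw [this, orderOf_one] at h
    omega
  · exact Or.inl (by simpa using e.symm)
  · exact Or.inr e.symm

theorem exists_pre [Finite G] {z : G} {P : Subgroup G} (hJ : IsOfJankoFourTypeWith z P) :
    ∃ ρ E π, Pre z ρ E π ∧ P = zpowers ρ := by
  classical
  obtain ⟨h1, h2, h3, h4, ⟨N, n1, n2, n3, n4, ⟨n5, ⟨φ⟩⟩, n6⟩, p1, p2, p3, p4⟩ := hJ
  set E := twoCoreOfCentralizer z with hE
  obtain ⟨ρ, r1, rfl⟩ := exists_zpowers_of_card_prime (by norm_num : Nat.Prime 3) p1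
  have hc : ∀ {g}, g ∈ 𝒞[z] ↔ Commute z g := fun {g} => mem_cent_iff.trans ⟨Commute.symm, Commute.symm⟩
  have zE : z ∈ E := (p2.ge (mem_zpowers z)).1
  have z1 : z ≠ 1 := by rintro rfl; simp at h1
  have es : ES E z := ES_of h2 zE z1 fun x hx => hc.1 (n2 (n1 hx))
  have nE : 𝒞[z] ≤ 𝒩(E) := by
    have : (pCore 2 ↥(𝒞[z])).Normal := sSup_normal _ fun _ h => h.1
    exact (normalIn_map_subtype _).2
  have ρN : ρ ∈ N := n6 (mem_zpowers ρ)
  have ρE : ρ ∉ E := fun h => by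
    have h5 := orderOf_dvd_card_of_mem h
    rw [r1, h3] at h5
    norm_num at h5
  have hN : E ⊔ zpowers ρ = N := by
    have l : E ⊔ zpowers ρ ≤ N := sup_le n1 n6
    refine eq_of_le_of_card_ge l ?_
    rw [card_sup_of_inf_eq_bot (Or.inr (n6.trans (n2.trans nE))), n4, p1, mul_comm]
    rw [inf_comm]
    exact (inf_eq_bot_or_le_of_card_prime (p1 ▸ by norm_num) E).resolve_right fun h => ρE (h (mem_zpowers ρ))
  let π0 : 𝒞[z] →* DD := (autM22.symm.toMonoidHom.comp φ.toMonoidHom).comp (QuotientGroup.mk' _)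
  have k0 : ∀ g : 𝒞[z], π0 g = 1 ↔ (g : G) ∈ N := fun g => by
    simp only [π0, MonoidHom.comp_apply, MulEquiv.coe_toMonoidHom, EmbeddingLike.map_eq_one_iff,
      QuotientGroup.mk'_apply, QuotientGroup.eq_one_iff, mem_subgroupOf]
  have s0 : Function.Surjective π0 :=
    (autM22.symm.surjective.comp φ.surjective).comp (QuotientGroup.mk'_surjective _)
  let π : G → Perm Pt := fun g => if h : g ∈ 𝒞[z] then π0 ⟨g, h⟩ else 1
  have πe : ∀ g (h : g ∈ 𝒞[z]), π g = π0 ⟨g, h⟩ := fun g h => dif_pos h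
  have πm : ∀ g h, Commute z g → Commute z h → π (g * h) = π g * π h := fun g h a b => by
    rw [πe g (hc.2 a), πe h (hc.2 b), πe _ (hc.2 (a.mul_right b)), ← coe_mul, ← map_mul]; rfl
  have πk : ∀ g, Commute z g → (π g = 1 ↔ g ∈ N) := fun g a => by
    rw [πe g (hc.2 a), OneMemClass.coe_eq_one, k0]
  have cz : 𝒞(zpowers ρ) = 𝒞[ρ] := cent_zpowers ρ
  refine ⟨ρ, E, π, ⟨es, h3, fun g h => nE (hc.2 h), fun g a b => h4 ⟨hc.2 a, mem_cent_subgroup_iff.2 b⟩,
    r1, hc.1 (n2 ρN), fun e a b => es.mem_zpowers.1 (p2.le ⟨a, by rw [cz]; exact mem_cent_iff.2 b⟩), πm,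
    fun g a => by rw [πe g (hc.2 a)]; exact (π0 _).2, fun g a => ?_, fun d hd => ?_, ?_, ?_⟩, rfl⟩
  · rw [πk g a, ← hN, mem_sup_of_right_le_norm (n6.trans (n2.trans nE))]
    constructor
    · rintro ⟨e, he, b, hb, rfl⟩
      obtain ⟨i, rfl⟩ := (Submonoid.mem_powers_iff _ _).1 ((mem_powers_iff_mem_zpowers).2 hb)
      exact ⟨e, he, i, rfl⟩
    · rintro ⟨e, he, i, rfl⟩
      exact ⟨e, he, _, pow_mem (mem_zpowers ρ) i, rfl⟩
  · obtain ⟨g, hg⟩ := s0 ⟨d, hd⟩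
    have syl : IsSylowOf 3 (zpowers ρ) N := by
      refine sylow_mk n6 (pGrp_of_card_eq (by norm_num) p1) ?_
      have := card_mul_relIndex n6
      rw [p1, n4, h3] at this
      rw [show (zpowers ρ).relIndex N = 2 ^ 13 by omega]
      norm_num
    obtain ⟨x, hx, n, hn, e⟩ := frattini_arg_mem (by norm_num) syl (n3 g.2)
    have cx := hc.1 (n2 hx)
    have cn : Commute z n := by
      rw [show n = x⁻¹ * g by rw [e]; group]
      exact cx.inv_right.mul_right (hc.1 g.2)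
    refine ⟨n, cn, conj_cases_three r1 (conj_mem_of_mem_norm hn (mem_zpowers ρ)), ?_⟩
    have := πm x n cx cn
    rw [(πk x cx).2 hx, one_mul, ← e, πe _ g.2] at this
    rw [← this]
    exact congrArg Subtype.val hg
  · by_contra hn
    refine p3 (le_antisymm (fun n hn' => ⟨hn'.1, ?_⟩) (inf_le_inf_left _ (cent_le_norm _)))
    rw [cz]
    refine mem_cent_iff.2 (conj_eq_iff_commute.1 ?_)
    exact (conj_cases_three r1 (conj_mem_of_mem_norm hn'.2 (mem_zpowers ρ))).resolve_right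
      fun h => hn ⟨n, hc.1 hn'.1, h⟩
  · rw [← cz]; exact p4 (mem_zpowers ρ)

namespace Pre

variable {z ρ : G} {E : Subgroup G} {π : G → Perm Pt}

theorem ρ_cube (H : Pre z ρ E π) : ρ ^ 3 = 1 := H.ρ3 ▸ pow_orderOf_eq_one ρ

theorem ρ4 (H : Pre z ρ E π) : (ρ ^ 2) ^ 2 = ρ := by
  rw [← pow_mul, show 2 * 2 = 3 + 1 from rfl, pow_succ, H.ρ_cube, one_mul]

theorem sq (H : Pre z ρ E π) : Pre z (ρ ^ 2) E π :=
  { H with
    ρ3 := by rw [orderOf_pow' _ (by norm_num), H.ρ3]; rfl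
    zρ := H.zρ.pow_right 2
    fpf := fun e a b => H.fpf e a (H.ρ4 ▸ b.pow_right 2)
    π_ker := fun g a => by
      rw [H.π_ker g a]
      constructor
      · rintro ⟨e, he, i, rfl⟩
        exact ⟨e, he, 2 * i, by rw [pow_mul, H.ρ4]⟩
      · rintro ⟨e, he, i, rfl⟩
        exact ⟨e, he, 2 * i, by rw [pow_mul]⟩
    lift := fun d hd => by
      obtain ⟨n, a, b, c⟩ := H.lift d hd
      refine ⟨n, a, ?_, c⟩
      rw [← conj_pow]
      rcases b with b | b <;> rw [b]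
      · exact Or.inl rfl
      · exact Or.inr rfl
    inv := by
      obtain ⟨n, a, b⟩ := H.inv
      exact ⟨n, a, by rw [← conj_pow, b]⟩
    der := by
      have : 𝒞[ρ ^ 2] = 𝒞[ρ] := le_antisymm (by
        have := cent_singleton_le_pow (ρ ^ 2) 2
        rwa [H.ρ4] at this) (cent_singleton_le_pow ρ 2)
      rw [this]
      exact pow_mem H.der 2 }

theorem π_one (H : Pre z ρ E π) : π 1 = 1 := by
  simpa using H.π_mul 1 1 (Commute.one_right z) (Commute.one_right z)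

theorem π_pow (H : Pre z ρ E π) {g : G} (hg : Commute z g) (n : ℕ) : π (g ^ n) = π g ^ n := by
  induction n with
  | zero => simpa using H.π_one
  | succ n ih => rw [pow_succ, H.π_mul _ _ (hg.pow_right n) hg, ih, pow_succ]

theorem π_inv (H : Pre z ρ E π) {g : G} (hg : Commute z g) : π g⁻¹ = (π g)⁻¹ := by
  rw [eq_inv_iff_mul_eq_one, ← H.π_mul _ _ hg.inv_right hg, inv_mul_cancel, H.π_one]

/-- normalises the group of order three -/
def NP (z ρ n : G) : Prop := Commute z n ∧ (n * ρ * n⁻¹ = ρ ∨ n * ρ * n⁻¹ = ρ ^ 2)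

theorem NP.mul (H : Pre z ρ E π) {m n : G} (hm : NP z ρ m) (hn : NP z ρ n) : NP z ρ (m * n) := by
  refine ⟨hm.1.mul_right hn.1, ?_⟩
  rw [show m * n * ρ * (m * n)⁻¹ = m * (n * ρ * n⁻¹) * m⁻¹ by group]
  rcases hn.2 with h | h <;> rw [h]
  · exact hm.2
  · rw [← conj_pow]
    rcases hm.2 with h | h <;> rw [h]
    · exact Or.inr rfl
    · exact Or.inl H.ρ4

theorem NP.sq (H : Pre z ρ E π) {n : G} (hn : NP z ρ n) : Commute (n * n) ρ := by
  rw [← conj_eq_iff_commute, show n * n * ρ * (n * n)⁻¹ = n * (n * ρ * n⁻¹) * n⁻¹ by group]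
  rcases hn.2 with h | h
  · rw [h, h]
  · rw [h, ← conj_pow, h, H.ρ4]

theorem NP.of_comm {n : G} (h1 : Commute z n) (h2 : Commute n ρ) : NP z ρ n :=
  ⟨h1, Or.inl (conj_eq_iff_commute.2 h2)⟩

theorem NP.pow (H : Pre z ρ E π) {n : G} (hn : NP z ρ n) (k : ℕ) : NP z ρ (n ^ k) := by
  induction k with
  | zero => exact NP.of_comm (by simp) (by simp)
  | succ k ih => rw [pow_succ]; exact ih.mul H hn

theorem NP.inv (H : Pre z ρ E π) {n : G} (hn : NP z ρ n) : NP z ρ n⁻¹ := by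
  refine ⟨hn.1.inv_right, ?_⟩
  have := (hn.sq H).inv_left
  rw [show n⁻¹ * ρ * n⁻¹⁻¹ = n * ((n * n)⁻¹ * ρ * (n * n)⁻¹⁻¹) * n⁻¹ by group, conj_eq_iff_commute.2 this]
  exact hn.2

/-- the kernel inside the normaliser -/
theorem ker_NP (H : Pre z ρ E π) {n : G} (hn : NP z ρ n) (h : π n = 1) :
    ∃ i : ℕ, n = ρ ^ i ∨ n = z * ρ ^ i := by
  obtain ⟨e, he, i, rfl⟩ := (H.π_ker n hn.1).1 h
  have h1 : NP z ρ e := by
    simpa using hn.mul H (((NP.of_comm H.zρ (Commute.refl ρ)).pow H i).inv H)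
  have h2 : Commute e ρ := by
    rcases h1.2 with h2 | h2
    · exact conj_eq_iff_commute.1 h2
    · have h3 : ρ ∈ E := by
        have h4 : e * (ρ * e⁻¹ * ρ⁻¹) ∈ E := mul_mem he (conj_mem_of_mem_norm (H.norm ρ H.zρ) (inv_mem he))
        rwa [show e * (ρ * e⁻¹ * ρ⁻¹) = e * ρ * e⁻¹ * ρ⁻¹ by group, h2, pow_two, mul_inv_cancel_right] at h4
      have h5 := orderOf_dvd_card_of_mem h3
      rw [H.ρ3, H.card] at h5
      norm_num at h5
  rcases H.fpf e he h2 with rfl | rfl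
  · exact ⟨i, Or.inl (one_mul _)⟩
  · exact ⟨i, Or.inr rfl⟩

theorem ker_six (H : Pre z ρ E π) {n : G} (hn : NP z ρ n) (h : π n = 1) : n ^ 6 = 1 ∧ Commute n ρ ∧
    (n ^ 3 = 1 ∨ n ^ 3 = z) ∧ ∀ x, Commute z x → Commute x ρ → Commute n x := by
  have a : ∀ i, (ρ ^ i) ^ 3 = 1 := fun i => by rw [← pow_mul, mul_comm, pow_mul, H.ρ_cube, one_pow]
  have b : ∀ i, (z * ρ ^ i) ^ 3 = z := fun i => by
    rw [(H.zρ.pow_right i).mul_pow, a, mul_one, pow_succ, pow_two, H.es.z_sq, one_mul]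
  obtain ⟨i, rfl | rfl⟩ := H.ker_NP hn h
  · exact ⟨by rw [show 6 = 3 * 2 from rfl, pow_mul, a, one_pow], (Commute.refl ρ).pow_left i, Or.inl (a i),
      fun x _ h => h.symm.pow_left i⟩
  · exact ⟨by rw [show 6 = 3 * 2 from rfl, pow_mul, b, pow_two, H.es.z_sq],
      H.zρ.mul_left ((Commute.refl ρ).pow_left i), Or.inr (b i), fun x h h' => h.mul_left (h'.symm.pow_left i)⟩

theorem comm_of_odd (H : Pre z ρ E π) {n : G} (hn : NP z ρ n) {k : ℕ} (h : π n ^ (2 * k + 1) = 1) :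
    Commute n ρ := by
  have h1 := (H.ker_six (hn.pow H _) (by rw [H.π_pow hn.1, h])).2.1
  have h2 := ((hn.sq H).pow_left k).inv_left.mul_left h1
  rwa [pow_succ, pow_mul, pow_two, inv_mul_cancel_left] at h2

theorem eq_of_π (H : Pre z ρ E π) {x y : G} (hx : Commute z x) (hy : Commute z y) (hx' : Commute x ρ)
    (hy' : Commute y ρ) (h : π x = π y) {k : ℕ} (hk : Nat.Coprime k 6) (h1 : x ^ k = 1) (h2 : y ^ k = 1) :
    x = y := by
  have h3 := H.ker_six (NP.of_comm (hy.inv_right.mul_right hx) (hy'.inv_left.mul_left hx'))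
    (by rw [H.π_mul _ _ hy.inv_right hx, H.π_inv hy, h, inv_mul_cancel])
  have h4 : (y⁻¹ * x) ^ k = 1 := by
    have := (h3.2.2.2 y hy hy').symm.mul_pow k
    rw [mul_inv_cancel_left, h1, h2, one_mul] at this
    exact this.symm
  have h5 := pow_gcd_eq_one.2 ⟨h4, h3.1⟩
  rw [hk, pow_one, inv_mul_eq_one] at h5
  exact h5.symm

/-- the generators -/
theorem gens (H : Pre z ρ E π) : ∃ a b t u : G, Commute z a ∧ Commute z b ∧ Commute z t ∧ Commute z u ∧
    Commute a ρ ∧ Commute b ρ ∧ Commute t ρ ∧ u * ρ * u⁻¹ = ρ ^ 2 ∧ π a = perm ca ∧ π t = perm ct ∧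
    π u = perm cu ∧ a ^ 11 = 1 ∧ b ^ 5 = 1 ∧ b * a = a ^ 4 * b ∧ (t ^ 4 = 1 ∨ t ^ 4 = z) ∧
    t * b = b ^ 2 * t ∧ u * a = a ^ 10 * u ∧ u * b = b * u ∧ (u * t = t * u ∨ u * t = z * (t * u)) := by
  have ia := ca_in.mono M22_le_DD
  have ib := cb_in.mono M22_le_DD
  have it := ct_in.mono M22_le_DD
  have iu := cu_in
  have pa : perm ca ^ 11 = 1 := code_inj (by rw [← ppow_code, ia.code_perm, code_one]; decide +kernel)
  have pb : perm cb ^ 5 = 1 := code_inj (by rw [← ppow_code, ib.code_perm, code_one]; decide +kernel)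
  have pt4 : perm ct ^ 4 = 1 := code_inj (by rw [← ppow_code, it.code_perm, code_one]; decide +kernel)
  have pat : (perm ca * perm ct) ^ 5 = 1 := code_inj (by
    rw [← ppow_code, ← pmul_code, ia.code_perm, it.code_perm, code_one]; decide +kernel)
  obtain ⟨a0, a1, a2, a3⟩ := H.lift _ ia.perm_mem
  obtain ⟨b0, b1, b2, b3⟩ := H.lift _ ib.perm_mem
  obtain ⟨t0, t1, t2, t3⟩ := H.lift _ it.perm_mem
  obtain ⟨u, u1, u2, u3⟩ := H.lift _ iu.perm_mem
  have a4 : Commute a0 ρ := H.comm_of_odd ⟨a1, a2⟩ (k := 5) (by rw [a3, pa])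
  have b4 : Commute b0 ρ := H.comm_of_odd ⟨b1, b2⟩ (k := 2) (by rw [b3, pb])
  have t4 : Commute t0 ρ := by
    have := H.comm_of_odd (NP.mul H ⟨a1, a2⟩ ⟨t1, t2⟩) (k := 2) (by rw [H.π_mul _ _ a1 t1, a3, t3, pat])
    simpa using a4.inv_left.mul_left this
  have u4 : u * ρ * u⁻¹ = ρ ^ 2 := by
    refine u2.resolve_left fun u4 => ?_
    obtain ⟨n, n1, n2⟩ := H.inv
    have key : ∀ d ∈ gen [ca, ct, cu], ∃ x, Commute z x ∧ Commute x ρ ∧ π x = d := by
      intro d hd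
      refine gen_induction (fun d => ∃ x, Commute z x ∧ Commute x ρ ∧ π x = d)
        ⟨1, by simp, by simp, H.π_one⟩ ?_ hd
      rintro g h hg ⟨x, x1, x2, rfl⟩
      have : ∃ x, Commute z x ∧ Commute x ρ ∧ π x = g := by
        simp only [List.mem_cons, List.not_mem_nil, or_false] at hg
        rcases hg with hg | hg | hg
        · exact ⟨a0, a1, a4, by rw [a3, ← hg, perm_code]⟩
        · exact ⟨t0, t1, t4, by rw [t3, ← hg, perm_code]⟩
        · exact ⟨u, u1, conj_eq_iff_commute.1 u4, by rw [u3, ← hg, perm_code]⟩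
      obtain ⟨y, y1, y2, rfl⟩ := this
      exact ⟨y * x, y1.mul_right x1, y2.mul_left x2, H.π_mul _ _ y1 x1⟩
    obtain ⟨x, x1, x2, x3⟩ := key _ (DD_le_gen (H.π_mem n n1))
    have h1 := (H.ker_six (((NP.of_comm x1 x2).inv H).mul H ⟨n1, Or.inr n2⟩)
      (by rw [H.π_mul _ _ x1.inv_right n1, H.π_inv x1, x3, inv_mul_cancel])).2.1
    have h2 : Commute n ρ := by simpa using x2.mul_left h1
    rw [conj_eq_iff_commute.2 h2, pow_two, left_eq_mul] at n2
    have := H.ρ3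
    rw [n2, orderOf_one] at this
    omega
  have a5 := (H.ker_six ((NP.of_comm a1 a4).pow H 11) (by rw [H.π_pow a1, a3, pa])).1
  have b5 := (H.ker_six ((NP.of_comm b1 b4).pow H 5) (by rw [H.π_pow b1, b3, pb])).1
  have t5 := (H.ker_six ((NP.of_comm t1 t4).pow H 4) (by rw [H.π_pow t1, t3, pt4])).2.2.1
  have a6 : π (a0 ^ 12) = perm ca := by rw [H.π_pow a1, a3, pow_succ, pa, one_mul]
  have b6 : π (b0 ^ 6) = perm cb := by rw [H.π_pow b1, b3, pow_succ, pb, one_mul]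
  have t6 : π (t0 ^ 9) = perm ct := by
    rw [H.π_pow t1, t3, pow_succ, show 8 = 4 * 2 from rfl, pow_mul, pt4, one_pow, one_mul]
  have a7 : (a0 ^ 12) ^ 11 = 1 := by
    rw [← pow_mul, show 12 * 11 = 11 * 6 * 2 from rfl, pow_mul, pow_mul, a5, one_pow]
  have b7 : (b0 ^ 6) ^ 5 = 1 := by rw [← pow_mul, mul_comm, pow_mul, b5]
  have z3 : z ^ 3 = z := by rw [pow_succ, pow_two, H.es.z_sq, one_mul]
  have t7 : (t0 ^ 9) ^ 4 = 1 ∨ (t0 ^ 9) ^ 4 = z := by
    rw [← pow_mul, show 9 * 4 = 4 * 3 * 3 from rfl, pow_mul, pow_mul]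
    rcases t5 with h | h <;> rw [h]
    · exact Or.inl (one_pow _)
    · exact Or.inr z3
  have ca' := a1.pow_right 12
  have cb' := b1.pow_right 6
  have ct' := t1.pow_right 9
  have ra := a4.pow_left 12
  have rb := b4.pow_left 6
  have rt := t4.pow_left 9
  generalize a0 ^ 12 = a at *
  generalize b0 ^ 6 = b at *
  generalize t0 ^ 9 = t at *
  have cj : ∀ g x, NP z ρ g → Commute z x → Commute x ρ → Commute z (g * x * g⁻¹) ∧ Commute (g * x * g⁻¹) ρ ∧
      π (g * x * g⁻¹) = π g * π x * (π g)⁻¹ := by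
    intro g x hg h1 h2
    refine ⟨(hg.1.mul_right h1).mul_right hg.1.inv_right, ?_, by
      rw [H.π_mul _ _ (hg.1.mul_right h1) hg.1.inv_right, H.π_mul _ _ hg.1 h1, H.π_inv hg.1]⟩
    rw [commute_conj_left_iff]
    have := (hg.inv H).2
    rw [inv_inv] at this
    rcases this with h | h <;> rw [h]
    · exact h2
    · exact h2.pow_right 2
  have fin : ∀ g x y k, NP z ρ g → Commute z x → Commute x ρ → Commute z y → Commute y ρ → Nat.Coprime k 6 →
      x ^ k = 1 → y ^ k = 1 → pmul (code (π g)) (code (π x)) = pmul (code (π y)) (code (π g)) → g * x = y * g := by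
    intro g x y k hg h1 h2 h3 h4 hk h5 h6 h7
    obtain ⟨c1, c2, c3⟩ := cj g x hg h1 h2
    rw [pmul_code, pmul_code] at h7
    rw [← mul_inv_eq_iff_eq_mul]
    exact H.eq_of_π c1 h3 c2 h4 (by rw [c3, code_inj h7, mul_inv_cancel_right]) hk (by rw [conj_pow, h5]; simp) h6
  have pw : ∀ (x : G) k j, x ^ k = 1 → (x ^ j) ^ k = 1 := fun x k j h => by
    rw [← pow_mul, mul_comm, pow_mul, h, one_pow]
  refine ⟨a, b, t, u, ca', cb', ct', u1, ra, rb, rt, u4, a6, t6, u3, a7, b7, ?_, t7, ?_, ?_, ?_, ?_⟩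
  · refine fin _ _ _ 11 (NP.of_comm cb' rb) ca' ra (ca'.pow_right _) (ra.pow_left _) (by norm_num) a7
      (pw _ _ _ a7) ?_
    rw [H.π_pow ca', a6, b6, ← ppow_code, ia.code_perm, ib.code_perm]; decide +kernel
  · refine fin _ _ _ 5 (NP.of_comm ct' rt) cb' rb (cb'.pow_right _) (rb.pow_left _) (by norm_num) b7
      (pw _ _ _ b7) ?_
    rw [H.π_pow cb', t6, b6, ← ppow_code, it.code_perm, ib.code_perm]; decide +kernel
  · refine fin _ _ _ 11 ⟨u1, u2⟩ ca' ra (ca'.pow_right _) (ra.pow_left _) (by norm_num) a7 (pw _ _ _ a7) ?_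
    rw [H.π_pow ca', a6, u3, ← ppow_code, ia.code_perm, iu.code_perm]; decide +kernel
  · refine fin _ _ _ 5 ⟨u1, u2⟩ cb' rb cb' rb (by norm_num) b7 b7 ?_
    rw [b6, u3, ib.code_perm, iu.code_perm]; decide +kernel
  · obtain ⟨c1, c2, c3⟩ := cj u t ⟨u1, u2⟩ ct' rt
    have e : π u * π t = π t * π u := code_inj (by
      rw [← pmul_code, ← pmul_code, t6, u3, it.code_perm, iu.code_perm]; decide +kernel)
    obtain ⟨k1, -, k2, k3⟩ := H.ker_six (NP.of_comm (c1.mul_right ct'.inv_right) (c2.mul_left rt.inv_left))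
      (by rw [H.π_mul _ _ c1 ct'.inv_right, c3, H.π_inv ct', e]; group)
    have k4 : (u * t * u⁻¹ * t⁻¹) ^ 4 = 1 := by
      have := (k3 t ct' rt).mul_pow 4
      rw [inv_mul_cancel_right, conj_pow] at this
      have h : u * t ^ 4 * u⁻¹ = t ^ 4 := by
        rcases t7 with h | h <;> rw [h]
        · simp
        · exact conj_eq_iff_commute.2 u1.symm
      rwa [h, right_eq_mul] at this
    have k5 : u * t * u⁻¹ * t⁻¹ = ((u * t * u⁻¹ * t⁻¹) ^ 3)⁻¹ := by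
      rw [eq_inv_iff_mul_eq_one, ← pow_succ', k4]
    rcases k2 with h | h <;> rw [h] at k5
    · left
      rw [inv_one, mul_inv_eq_one, mul_inv_eq_iff_eq_mul] at k5
      exact k5
    · right
      rw [H.es.z_inv, mul_inv_eq_iff_eq_mul, mul_inv_eq_iff_eq_mul, mul_assoc] at k5
      exact k5

end Pre

end

end CA.J4

theorem CA.J4.realizeEqnsJ4Pre : True := by
  have := @CA.J4.Pre.NP.eq_1.{0}
  have := @CA.J4.Pre.NP.eq_def.{0}
  have := @CA.J4.Pre.NP.congr_simp.{0}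
  trivial
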