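import Cfsg.Agent.J4.Ct
import Cfsg.Agent.J4.Gen2
import Cfsg.Agent.Blk.ZCor

/-! The centraliser of the element of order three. -/

set_option autoImplicit false
set_option maxRecDepth 100000
set_option linter.unusedSectionVars false

namespace CA.J4

open CA.M24 CA.Fi CA.FG Cfsg Subgroup Equiv
open scoped commutatorElement Pointwise

noncomputable section


theorem cent_M22 {d : Perm Pt} (hd : d ∈ DD) (h : ∀ g ∈ Spor.M22, Commute d g) : d = 1 :=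
  congrArg Subtype.val ((injective_iff_map_eq_one _).1 cjD_inj ⟨d, hd⟩ (MulEquiv.ext fun g => Subtype.ext
    ((cjD_apply _ _).trans (conj_eq_iff_commute.2 (h g g.2)))))

theorem M22_perfect : Spor.M22 ≤ ⁅Spor.M22, Spor.M22⁆ := by
  have k : ∀ {c x y}, band (chk22 x) (band (chk22 y) (Nat.beq (pmul (pmul x y) (pmul (pinv x) (pinv y))) c)) = true →
      InH ⁅Spor.M22, Spor.M22⁆ c := fun {c x y} h => by
    simp only [band_eq_true, beq_iff] at h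
    obtain ⟨g, hg, rfl⟩ := in22_of_chk h.1
    obtain ⟨k, hk, rfl⟩ := in22_of_chk h.2.1
    exact ⟨_, commutator_mem_commutator hg hk, by
      rw [← h.2.2, pinv_code, pinv_code, pmul_code, pmul_code, pmul_code, commutatorElement_def, mul_assoc _ g⁻¹]⟩
  refine M22_le_gen.trans (gen_le fun c hc => ?_)
  simp only [List.mem_cons, List.not_mem_nil, or_false] at hc
  rcases hc with rfl | rfl
  · exact k (x := 972922411457568343067464796801736768) (y := 959776598866762743206390549997201088) (by decide +kernel)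
  · exact k (x := 956981584099844360618427296583465568) (y := 984684929324813737370766286172393504) (by decide +kernel)

/-- the involutions of `M22` -/
theorem conj_inv22 {p : Perm Pt} (hp : p ∈ Spor.M22) (h : p * p = 1) :
    ∃ k ∈ Spor.M22, ∃ j < 16, code (k * p * k⁻¹) = sn (uc j) := by
  have := Fact.mk Nat.prime_two
  obtain ⟨a, b, c⟩ := mem_M22'.1 hp
  rcases eq_or_ne p 1 with rfl | h1
  · exact ⟨1, one_mem _, 0, by norm_num, by simp [code_one, uc_zero, sn_cone]⟩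
  have f := ((card_fix_two a (orderOf_eq_prime (by rwa [pow_two]) h1)).resolve_right fun e =>
    card_fixS_eq_zero.1 e _ b).2
  obtain ⟨x, hx, y, hy, u, hu, xy, xu, yu⟩ := Finset.two_lt_card.1
    (show 2 < (((fixS p).erase (pt 23)).erase (pt 0)).card by
      have := Finset.pred_card_le_card_erase (s := fixS p) (a := pt 23)
      have := Finset.pred_card_le_card_erase (s := (fixS p).erase (pt 23)) (a := pt 0)
      omega)
  simp only [Finset.mem_erase, mem_fixS] at hx hy hu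
  have n : pt 23 ≠ pt 0 := by decide
  obtain ⟨k, hk, e⟩ := five_transitive ⟨![pt 23, pt 0, x, y, u], fun i j => by
    fin_cases i <;> fin_cases j <;> simp [*, Ne.symm]⟩ ⟨![pt 23, pt 0, pt 1, pt 2, pt 3], by decide⟩
  have f : ∀ {v w}, p v = v → k v = w → (k * p * k⁻¹) w = w := fun a b => by simp [← b, a]
  have q := enumFix_spec (a := 23) (b := 0) (c := 1) (d := 2) (e := 3)
    (q := fun p => bimp (Nat.beq (pmul p p) pone) (anyR (fun k => Nat.beq (sn (uc k)) p) 16))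
    (by decide +kernel) (by decide) (by decide) (mul_mem (mul_mem hk a) (inv_mem hk)) (by
      simp only [List.mem_cons, List.not_mem_nil, or_false, forall_eq_or_imp, forall_eq]
      exact ⟨f b (e 0), f c (e 1), f hx.2.2 (e 2), f hy.2.2 (e 3), f hu.2.2 (e 4)⟩)
  simp only [bimp_eq_true, beq_iff, anyR_eq_true] at q
  obtain ⟨j, hj, q⟩ := q (by rw [pmul_code, ← cjm, h, ← code_one]; simp)
  exact ⟨k, mem_M22'.2 ⟨hk, e 0, e 1⟩, j, hj, q.symm⟩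

variable {G : Type*} [Group G]

namespace HM

variable [Finite G] (X : HM G)

/-- the image of a subgroup in the permutations -/
def im (K : Subgroup G) : Subgroup (Perm Pt) := ((K.subgroupOf (X.pre DD)).map (X.πh DD)).map DD.subtype

omit [Finite G] in
theorem mem_im {K : Subgroup G} {p : Perm Pt} : p ∈ X.im K ↔ ∃ g ∈ K, Commute X.z g ∧ X.π g = p :=
  ⟨fun ⟨_, ⟨g, a, b⟩, c⟩ => ⟨g, a, g.2.1, c ▸ b ▸ rfl⟩, fun ⟨g, a, b, c⟩ =>
    ⟨_, ⟨⟨g, b, X.π_mem g b⟩, a, rfl⟩, c⟩⟩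

omit [Finite G] in
theorem card_im {K : Subgroup G} (h : K ≤ 𝒞[X.z]) : Nat.card (X.im K) * Nat.card ↥(K ⊓ X.pre ⊥) = Nat.card K := by
  have h0 : K ≤ X.pre DD := X.pre_DD ▸ h
  rw [← card_subgroupOf h0, ← card_map_mul_card_inf_ker _ (X.πh DD), ← card_subgroupOf (inf_le_left.trans h0), im,
    card_map_of_injective (subtype_injective _)]
  congr 3
  ext g
  exact ⟨fun a => ⟨Subtype.ext a.2.2, a.1⟩, fun a => ⟨a.2, g.2.1, congrArg Subtype.val a.1⟩⟩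

/-- the centraliser of both `z` and `ρ` -/
abbrev C0 : Subgroup G := 𝒞[X.z] ⊓ 𝒞[X.ρ]
/-- its centre -/
abbrev Z6 : Subgroup G := zpowers (X.ρ * X.z)

omit [Finite G] in
theorem card_Z6 : Nat.card X.Z6 = 6 := by
  rw [Nat.card_zpowers, X.zρ.symm.orderOf_mul_eq_mul_orderOf_of_coprime (by rw [X.ρ3, X.orderOf_z]; norm_num), X.ρ3,
    X.orderOf_z]

omit [Finite G] in
theorem ρ_Z6 : X.ρ ∈ X.Z6 := mem_zpowers_mul_of_coprime X.zρ.symm (by rw [X.ρ3, X.orderOf_z]; norm_num)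
omit [Finite G] in
theorem z_Z6 : X.z ∈ X.Z6 := mem_zpowers_mul_of_coprime' X.zρ.symm (by rw [X.ρ3, X.orderOf_z]; norm_num)

variable {X}

theorem RC.mem_Z6 {n : G} {c : ℕ} (h : X.RC n c) (e : X.π n = 1) : n ∈ X.Z6 := by
  obtain ⟨v, hv, i, j, rfl⟩ := X.π_ker n h.zc e
  rw [(Rq.unique (Rq.mulz ⟨hv, _, X.rc_ρ.pow i, rfl⟩ j) h.rq).1, X.s_zero, one_mul]
  exact mul_mem (pow_mem X.ρ_Z6 _) (pow_mem X.z_Z6 _)

omit [Finite G] in
theorem RC.mem_C0 {n : G} {c : ℕ} (h : X.RC n c) (e : sg (sn c) = 0) : n ∈ X.C0 :=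
  ⟨mem_cent_iff.2 h.zc.symm, mem_cent_iff.2 (conj_eq_iff_commute.1 (by rw [h.ρc, e, add_zero, pow_one]))⟩

theorem rc_C0 {n : G} (h : n ∈ X.C0) : ∃ c, X.RC n c ∧ X.π n ∈ Spor.M22 := by
  have e := conj_eq_iff_commute.2 (mem_cent_iff.1 h.2)
  obtain ⟨c, hc⟩ := exists_rc (mem_cent_iff.1 h.1).symm (.inl e)
  refine ⟨c, hc, ?_⟩
  have a := hc.ρc
  rw [e, ← pow_one X.ρ, ← pow_mul, pow_inj_mod, X.ρ3, ← hc.code_π] at a
  have b := (sg_code _).1 (show sg (code (X.π n)) = 0 by have := sg_lt (code (X.π n)); omega)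
  obtain ⟨d, ⟨-, d1⟩ | ⟨d1, -⟩⟩ := mem_DD.1 (X.π_mem n hc.zc)
  · exact mem_M22'.2 ⟨d, b, d1⟩
  · exact absurd (b.symm.trans d1) (by decide)

omit [Finite G] in
theorem lift_C0 {p : Perm Pt} (h : p ∈ Spor.M22) : ∃ n ∈ X.C0, ∃ c, X.RC n c ∧ X.π n = p := by
  obtain ⟨n, c, a, b⟩ := exists_lift (X := X) (M22_le_DD h)
  exact ⟨n, a.mem_C0 (by rw [← a.code_π, sg_code, b]; exact (mem_M22'.1 h).2.1), c, a, b⟩

theorem RC.eq3 {n n' : G} {c : ℕ} (h : X.RC n c) (h' : X.RC n' c) (a : n ^ 3 = 1) (b : n' ^ 3 = 1) : n = n' := by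
  obtain ⟨k, rfl⟩ := h.eq h'
  rw [(h.zc.pow_left k).symm.mul_pow, a, one_mul, pow_succ, pow_two, X.zz, one_mul] at b
  rw [b, mul_one]

theorem eq_z_of_EE {g : G} (h : g ∈ X.EE) (e : Commute g X.ρ) : g = 1 ∨ g = X.z := by
  obtain ⟨c, hc, -⟩ := rc_C0 (X := X) ⟨mem_cent_iff.2 (X.z_EE h).symm, mem_cent_iff.2 e⟩
  obtain ⟨v, hv, k, rfl⟩ := h
  rw [eq_zero_of_rc hv hc, X.s_zero, one_mul]
  exact X.z_cases k

variable (X)

/-- the homomorphism onto `M22` -/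
def φ0 : X.C0 →* Spor.M22 where
  toFun g := ⟨X.π g, (rc_C0 g.2).choose_spec.2⟩
  map_one' := Subtype.ext X.π_one
  map_mul' a b := Subtype.ext (X.π_mul _ _ (mem_cent_iff.1 a.2.1).symm (mem_cent_iff.1 b.2.1).symm)

theorem φ0_surj : Function.Surjective X.φ0 := fun p => by
  obtain ⟨n, a, -, -, b⟩ := lift_C0 (X := X) p.2
  exact ⟨⟨n, a⟩, Subtype.ext b⟩

omit [Finite G] in
theorem Z6_le : X.Z6 ≤ 𝒞(X.C0) := zpowers_le.2 (mem_cent_subgroup_iff.2 fun _ h =>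
  (mem_cent_iff.1 h.2).symm.mul_left (mem_cent_iff.1 h.1).symm)

omit [Finite G] in
theorem Z6_le' : X.Z6 ≤ X.C0 := zpowers_le.2 (mul_mem ⟨mem_cent_iff.2 X.zρ.symm, mem_cent_iff.2 (Commute.refl _)⟩
  ⟨mem_cent_iff.2 (Commute.refl _), mem_cent_iff.2 X.zρ⟩)

theorem cen_C0 {g : G} (h : g ∈ X.C0) (e : ∀ k ∈ X.C0, Commute g k) : g ∈ X.Z6 := by
  obtain ⟨c, hc, a⟩ := rc_C0 h
  refine hc.mem_Z6 (cent_M22 (M22_le_DD a) fun p hp => ?_)
  obtain ⟨n, b, d, hd, rfl⟩ := lift_C0 (X := X) hp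
  rw [commute_iff_eq, ← X.π_mul _ _ hc.zc hd.zc, (e n b).eq, X.π_mul _ _ hd.zc hc.zc]

theorem center_C0 : center X.C0 = X.Z6.subgroupOf X.C0 := Subgroup.ext fun g =>
  ⟨fun h => X.cen_C0 g.2 fun k hk => congrArg Subtype.val (mem_center_iff.1 h ⟨k, hk⟩).symm,
    fun h => mem_center_iff.2 fun k => Subtype.ext (mem_cent_subgroup_iff.1 (X.Z6_le h) k k.2).symm⟩

theorem ker_φ0 : X.φ0.ker = center X.C0 := by
  rw [X.center_C0]
  refine Subgroup.ext fun g => ⟨fun h => (rc_C0 g.2).choose_spec.1.mem_Z6 (congrArg Subtype.val h), fun h => ?_⟩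
  exact Subtype.ext (mem_bot.1 (zpowers_le.2 (show X.ρ * X.z ∈ X.pre ⊥ from mul_mem ⟨X.zρ, X.π_ρ⟩
    (X.EE_le_pre _ X.z_mem)) h).2)

/-- the involutions centralising `z` and `ρ` -/
theorem inv_C0 {y : G} (h : y ∈ X.C0) (e : y * y = 1) : ∃ k ∈ X.C0, k * y * k⁻¹ ∈ X.V := by
  obtain ⟨c, hc, a⟩ := rc_C0 h
  obtain ⟨p, hp, j, hj, b⟩ := conj_inv22 a (by rw [← X.π_mul _ _ hc.zc hc.zc, e, X.π_one])
  obtain ⟨k, hk, d, hd, rfl⟩ := lift_C0 (X := X) hp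
  obtain ⟨u, hu, -⟩ := rc_C0 (mul_mem (mul_mem hk h) (inv_mem hk))
  rw [← X.π_inv hd.zc, ← X.π_mul _ _ hd.zc hc.zc, ← X.π_mul _ _ (hd.zc.mul_right hc.zc) hd.zc.inv_right, hu.code_π] at b
  obtain ⟨i, hi, rfl⟩ := hu.rq.ex.eq_of_sn (X.ex_uc hj) b
  have f := (hu.mul hu).unique (by rw [← cjm, e, mul_one, mul_inv_cancel]; exact X.rc_one)
  rw [(by decide +kernel : ∀ i < 3, ∀ j < 16, cmul (cmul (cpow cO i) (uc j)) (cmul (cpow cO i) (uc j)) = cone →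
    cmul (cpow cO i) (uc j) = uc j) i hi j hj f] at hu
  exact ⟨k, hk, mem_V_of (x := 0) hj (by rw [ap_zero]; exact hu.rq)⟩

variable [hF : Fact X.Fu]

theorem comm_ρ {x : ℕ} (hx : x < 2048) : Commute X.ρ (X.ev x) ↔ act μR x = x := by
  rw [X.th_ρ.fix hx, code_perm_chk (by decide +kernel)]

theorem der_C0 (h : X.ρ ∈ ⁅X.C0, X.C0⁆) : ⁅X.C0, X.C0⁆ = X.C0 := by
  have k : ∀ w y u, band (blt' y 2048) (band (Nat.beq (act μR y) y) (band (Nat.beq (sg (sn (evalC ygens w))) 0)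
      (Nat.beq (Nat.xor (act (evalW μgens w) y) y) u))) = true → X.ev u ∈ ⁅X.C0, X.C0⁆ := fun w y u e => by
    simp only [band_eq_true, beq_iff, blt'_eq_true] at e
    obtain ⟨p, a, b⟩ := X.th_wd w
    have := commutator_mem_commutator ((X.rc_wd w).mem_C0 e.2.2.1) (show X.ev y ∈ X.C0 from
      ⟨mem_cent_iff.2 (X.zc_V (X.ev_mem e.1)).symm, mem_cent_iff.2 ((X.comm_ρ e.1).2 e.2.1).symm⟩)
    rwa [commutatorElement_def, b.act e.1, X.ev_inv, ← X.ev_xor, a, show _ ^^^ y = u from e.2.2.2] at this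
  have hz : X.z ∈ ⁅X.C0, X.C0⁆ := by
    have := mul_mem (k [0] 128 384 (by decide +kernel)) (k [1, 0, 1, 0, 0] 1024 448 (by decide +kernel))
    rwa [← X.ev_xor, show 384 ^^^ 448 = 64 by decide, X.ev_64] at this
  refine le_antisymm (der_le _) fun g hg => ?_
  have e : (commutator X.C0).map X.φ0 = ⊤ := by
    rw [map_commutator_eq, MonoidHom.range_eq_top.2 X.φ0_surj, ← commutator_def, eq_top_iff]
    intro p _
    exact (subgroupOf_map_subtype' _).le (mem_subgroupOf.2 ((map_subtype_commutator _).ge (M22_perfect p.2)))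
  obtain ⟨n, a, b⟩ := e.ge (mem_top (X.φ0 ⟨g, hg⟩))
  have c : (⟨g, hg⟩ * n⁻¹ : X.C0) ∈ X.φ0.ker := by simp [MonoidHom.mem_ker, b]
  rw [X.ker_φ0, X.center_C0] at c
  exact (mul_mem_cancel_right (inv_mem ((map_subtype_commutator X.C0).le (mem_map_of_mem _ a)))).1
    (zpowers_le.2 (mul_mem h hz) c)

theorem isolated {g : G} (hg : g ∈ 𝒞[X.ρ]) (h : Commute X.z (g * X.z * g⁻¹)) : g * X.z * g⁻¹ = X.z := by
  obtain ⟨k, hk, a⟩ := X.inv_C0 (y := g * X.z * g⁻¹) (mem_inf.2 ⟨mem_cent_iff.2 h.symm, mul_mem (mul_mem hg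
    (mem_cent_iff.2 X.zρ)) (inv_mem hg)⟩) (by rw [← cjm, X.z_sq]; simp)
  suffices k * g * X.z * (k * g)⁻¹ = X.z by
    rw [show g * X.z * g⁻¹ = k⁻¹ * (k * g * X.z * (k * g)⁻¹) * k⁻¹⁻¹ by group, this]
    exact conj_eq_iff_commute.2 (mem_cent_iff.1 (inv_mem (mem_inf.1 hk).1))
  rw [show k * (g * X.z * g⁻¹) * k⁻¹ = k * g * X.z * (k * g)⁻¹ by group] at a
  have hg := mul_mem (mem_inf.1 hk).2 hg
  clear h hk
  generalize k * g = g at *
  obtain ⟨m, hm, e⟩ := X.fusion X.z_mem_V a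
  obtain ⟨x, hx, e1⟩ := a
  have c := all11 (by decide +kernel : allP (fun x => bimp (Nat.beq (act μR x) x) (bimp (zc x) (bor (Nat.beq x 64)
    (anyR (fun u => force (64 * u) fun u => band (Nat.beq (act μR u) u) (band (dc u) (dc (Nat.xor u x)))) 32)))) 11 0 = true) hx
  simp only [bimp_eq_true, beq_iff, bor_eq_true, anyR_eq_true, force_eq, band_eq_true] at c
  rcases c ((X.comm_ρ hx).1 (e1 ▸ mem_cent_iff.1 (mul_mem (mul_mem hg (mem_cent_iff.2 X.zρ)) (inv_mem hg))).symm)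
    ((X.zc_iff hx).1 (isConj_iff.2 ⟨g, e1.symm⟩)) with rfl | ⟨u, hu, c1, c2, c3⟩
  · rw [← e1, X.ev_64]
  have hu : 64 * u < 2048 := by omega
  generalize 64 * u = u at *
  obtain ⟨w, hw, e2⟩ := conj_mem_of_mem_norm' hm (X.ev_mem hu)
  have d1 := conj_t_of (X := X) hu c2
  have d2 := conj_t_of (X := X) (xor_lt11 hu hx) c3
  have d := all11 (by decide +kernel : allP (fun w => bimp (dc w) (bimp (dc (Nat.xor w 64)) (blt' w 128))) 11 0 = true) hw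
  simp only [bimp_eq_true, blt'_eq_true] at d
  have f := X.conj_EE (g := g⁻¹ * m) (conj_eq_iff_commute.1 (by
    rw [show g⁻¹ * m * X.z * (g⁻¹ * m)⁻¹ = g⁻¹ * (m * X.z * m⁻¹) * g by group, e]; group)).symm
    (X.ev_EE (d (dc_of (X := X) hw (by simpa [e2] using (isConj_cj m⁻¹).2 d1)) (dc_of (X := X) (x := w ^^^ 64) (xor_lt11 hw (by norm_num)) (by
      rw [← isConj_cj m, X.ev_xor, cjm, X.ev_64, e, ← e1, e2, show m * (m⁻¹ * X.ev u * m) * m⁻¹ = X.ev u by group,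
        ← X.ev_xor]; exact d2))))
  rw [e2, show g⁻¹ * m * (m⁻¹ * X.ev u * m) * (g⁻¹ * m)⁻¹ = g⁻¹ * X.ev u * g⁻¹⁻¹ by group] at f
  rcases eq_z_of_EE f (mem_cent_iff.1 (mul_mem (mul_mem (inv_mem hg) (mem_cent_iff.2 ((X.comm_ρ hu).2 c1).symm))
    (inv_mem (inv_mem hg)))) with f | f
  · exact (X.t_ne (by simpa [conj_eq_one_iff.1 f] using d1)).elim
  · exact (X.not_conj_t ((f ▸ isConj_iff.2 ⟨g⁻¹, rfl⟩ : IsConj (X.ev u) X.z).symm.trans d1.symm)).elim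

theorem cent_dc {x : ℕ} (hx : x < 2048) (h : dc x = true) : 𝒞[X.ev x] ≤ 𝒩(X.V) := by
  obtain ⟨m, hm, e⟩ := X.fusion' X.t_mem (X.ev_mem hx) (conj_t_of hx h)
  rw [← e, ← conjg_cent1, ← conjg_of_mem_norm hm, ← conjg_norm]
  exact conjg_mono m X.cent_t

theorem cent_ρ : 𝒞[X.ρ] ≤ 𝒞[X.z] := by
  have hz : X.z ∈ 𝒞[X.ρ] := mem_cent_iff.2 X.zρ
  rw [← CA.Blk.Zstar_sup_of X.orderOf_z hz fun g => X.isolated]
  refine sup_le ?_ inf_le_right
  have n := pcore_norm {2}ᶜ 𝒞[X.ρ]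
  have o := pcore_piGrp {2}ᶜ 𝒞[X.ρ]
  have k : ∀ x < 2048, dc x = true → piCoreOf {2}ᶜ 𝒞[X.ρ] ⊓ 𝒞[X.ev x] ≤ 𝒞[X.z] := fun x hx h g hg =>
    mem_cent_iff.2 (commutatorElement_eq_one_iff_commute.1 (mem_bot.1 ((IsPiGrp.inf_eq_bot (elem_pGrp X.V_elem) o).le
      (mem_inf.2 ⟨mul_mem (conj_mem_of_mem_norm (X.cent_dc hx h hg.2) X.z_mem_V) (inv_mem X.z_mem_V), by
        rw [commutatorElement_def, mul_assoc, mul_assoc, ← mul_assoc X.z]
        exact mul_mem (mem_inf.1 hg).1 (conj_mem_of_mem_norm (n hz) (inv_mem (mem_inf.1 hg).1))⟩))))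
  refine four_gen (X.ev_sq 896) (X.ev_sq 1088) (X.ev_comm _ _)
    (fun e => absurd (X.ev_eq_one (by norm_num) e) (by norm_num))
    (fun e => absurd (X.ev_eq_one (by norm_num) e) (by norm_num))
    (fun e => absurd (X.ev_inj (by norm_num) (by norm_num) e) (by norm_num)) o
    (n (mem_cent_iff.2 ((X.comm_ρ (by norm_num)).2 (by decide +kernel)).symm))
    (n (mem_cent_iff.2 ((X.comm_ρ (by norm_num)).2 (by decide +kernel)).symm)) ?_
  simp only [List.mem_cons, List.not_mem_nil, or_false, forall_eq_or_imp, forall_eq, ← X.ev_xor]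
  exact ⟨k _ (by norm_num) (by decide +kernel), k _ (by norm_num) (by decide +kernel),
    k _ (by decide) (by decide +kernel)⟩

theorem norm_ρ : 𝒩(zpowers X.ρ) ≤ 𝒞[X.z] := fun g hg => by
  have e : X.C0 :^ g = X.C0 := by
    rw [C0, inf_eq_right.2 X.cent_ρ, ← cent_zpowers, conjg_cent, conjg_of_mem_norm hg]
  have h := X.cen_C0 (e.le (conj_mem_conjg g (X.Z6_le' X.z_Z6))) fun k hk => by
    obtain ⟨k, a, rfl⟩ := mem_conjg'.1 (e.ge hk)
    exact commute_conj_iff.2 (mem_cent_iff.1 a.1).symm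
  have a := zpowers_le.2 (show X.ρ * X.z ∈ X.pre ⊥ from mul_mem ⟨X.zρ, X.π_ρ⟩ (X.EE_le_pre _ X.z_mem)) h
  exact mem_cent_iff.2 (conj_eq_iff_commute.1 ((eq_z_of_EE (X.mem_EE_of_pow (k := 1) a.1 a.2 (by
    rw [conj_pow, pow_one, X.z_two]; simp)) (mem_cent_iff.1 (X.Z6_le' h).2)).resolve_left (by simpa using X.z_ne)))

theorem s5563 (h : X.ρ ∈ ⁅X.C0, X.C0⁆) : ⁅X.C0, X.C0⁆ = X.C0 ∧ IsCyclic (center X.C0) ∧ Nat.card (center X.C0) = 6 ∧
    Spor.IsoM22 (X.C0 ⧸ center X.C0) ∧ 𝒩(zpowers X.ρ) ≤ 𝒞[X.z] := by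
  refine ⟨X.der_C0 h, ?_, by rw [X.center_C0, card_subgroupOf X.Z6_le', X.card_Z6],
    ⟨(QuotientGroup.quotientMulEquivOfEq X.ker_φ0.symm).trans (QuotientGroup.quotientKerEquivOfSurjective _ X.φ0_surj)⟩,
    X.norm_ρ⟩
  rw [X.center_C0]
  exact (subgroupOfEquivOfLe X.Z6_le').isCyclic.2 inferInstance

end HM

end

end CA.J4

theorem CA.J4.realizeEqnsJ4Rho : True := by
  have := @CA.J4.HM.C0.eq_1.{0}
  have := @CA.J4.HM.C0.eq_def.{0}
  have := @CA.J4.HM.C0.congr_simp.{0}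
  have := @CA.J4.HM.φ0.eq_1.{0}
  have := @CA.J4.HM.φ0.eq_def.{0}
  have := @CA.J4.HM.φ0.congr_simp.{0}
  have := @CA.J4.HM.Z6.eq_1.{0}
  have := @CA.J4.HM.Z6.eq_def.{0}
  have := @CA.J4.HM.Z6.congr_simp.{0}
  have := @CA.J4.HM.im.eq_1.{0}
  have := @CA.J4.HM.im.eq_def.{0}
  have := @CA.J4.HM.im.congr_simp.{0}
  trivial
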