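import Cfsg.Agent.J4.Mat
import Cfsg.Agent.Fi.Basic

/-! The normaliser of the elementary abelian group of order 2048 splits; the classes of involutions. -/

set_option autoImplicit false
set_option maxRecDepth 100000
set_option linter.unusedSectionVars false

namespace CA.J4

open CA.M24 CA.Fi CA.FG Cfsg Subgroup Equiv
open scoped commutatorElement Pointwise

noncomputable section

def qA : ℕ := nat_lit 29429271468893102754624345968411735
def qB : ℕ := nat_lit 58676030656508056853854093711016674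
def k7 : ℕ := nat_lit 146288985475430471480495109158078510

theorem qA_in : InH M24 qA := inM_of_chk (by decide +kernel)
theorem qB_in : InH M24 qB := inM_of_chk (by decide +kernel)

theorem conj_qAB {p : Perm Pt} (hp : p ∈ M24) (h : p * p = 1) (h1 : p ≠ 1) :
    ∃ k ∈ M24, k * p * k⁻¹ = perm qA ∨ k * p * k⁻¹ = perm qB := by
  have := Fact.mk Nat.prime_two
  obtain ⟨a, ha, ea⟩ := conj_2A qA_in.perm_mem (orderOf_perm qA_in.code_perm (by decide +kernel))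
    (by rw [card_fixS_perm qA_in.code_perm]; decide +kernel)
  obtain ⟨b, hb, eb⟩ := conj_2B qB_in.perm_mem (orderOf_perm qB_in.code_perm (by decide +kernel))
    (by rw [← card_fixS_eq_zero, card_fixS_perm qB_in.code_perm]; decide +kernel)
  obtain ⟨k, hk, e | e⟩ := classes_two hp (by rw [pow_two, h]) h1
  · exact ⟨a⁻¹ * k, mul_mem (inv_mem ha) hk, .inl (by
      rw [show a⁻¹ * k * p * (a⁻¹ * k)⁻¹ = a⁻¹ * (k * p * k⁻¹) * a by group, e, ← ea]; group)⟩
  · exact ⟨b⁻¹ * k, mul_mem (inv_mem hb) hk, .inr (by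
      rw [show b⁻¹ * k * p * (b⁻¹ * k)⁻¹ = b⁻¹ * (k * p * k⁻¹) * b by group, e, ← eb]; group)⟩

variable {G : Type*} [Group G]

theorem card_dih [Finite G] {a b c : G} (ha : a * a = 1) (hb : b * b = 1) (hc : c * c = 1) (h : (a * b) ^ 4 = 1)
    (h1 : a * c * (a * c) = 1) (h2 : b * c * (b * c) = 1) : Nat.card (closure {a, b, c}) ≤ 16 := by
  have c1 := commute_of_sq_eq_one ha hc (by rwa [pow_two])
  have c2 := commute_of_sq_eq_one hb hc (by rwa [pow_two])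
  have n1 : zpowers a ≤ 𝒩(zpowers (a * b)) := zpowers_le.2 (mem_norm_of_forall fun x ⟨k, e⟩ => ⟨-k, by
    simp only at e ⊢
    rw [← e, ← conj_zpow, zpow_neg, ← inv_zpow, mul_inv_rev, inv_eq_of_mul_eq_one_right ha,
      inv_eq_of_mul_eq_one_right hb, ← mul_assoc, ha, one_mul]⟩)
  have n2 : zpowers c ≤ 𝒩(zpowers (a * b) ⊔ zpowers a) := norm_sup
    (norm_zpowers_of_cent (zpowers_le.2 (mem_cent_iff.2 (c1.mul_left c2).symm)))
    (norm_zpowers_of_cent (zpowers_le.2 (mem_cent_iff.2 c1.symm)))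
  have d1 := Nat.le_of_dvd (Nat.mul_pos Nat.card_pos Nat.card_pos) (card_sup_dvd (.inr n1))
  have d2 := Nat.le_of_dvd (Nat.mul_pos Nat.card_pos Nat.card_pos) (card_sup_dvd (.inr n2))
  have o : ∀ {x : G} {n}, 0 < n → x ^ n = 1 → Nat.card (zpowers x) ≤ n := fun p e => by
    rw [Nat.card_zpowers]; exact orderOf_le_of_pow_eq_one p e
  have o1 := o (by norm_num) h
  have o2 := o (x := a) two_pos (by rwa [pow_two])
  have o3 := o (x := c) two_pos (by rwa [pow_two])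
  refine (card_le_of_le (K := zpowers (a * b) ⊔ zpowers a ⊔ zpowers c) ((closure_le _).2 ?_)).trans (by nlinarith)
  have m : a ∈ zpowers (a * b) ⊔ zpowers a := mem_sup_right (mem_zpowers a)
  rintro x (rfl | rfl | rfl)
  exacts [mem_sup_left m, mem_sup_left ((mul_mem_cancel_left m).1 (mem_sup_left (mem_zpowers _))),
    mem_sup_right (mem_zpowers _)]

namespace HM

variable [Finite G] (X : HM G)

/-- the complement of `V ∩ E` in `E` -/
def FF : Subgroup G where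
  carrier := {g | ∃ x < 64, X.s (ap mP x) = g}
  one_mem' := ⟨0, by norm_num, by rw [ap_zero, X.s_zero]⟩
  mul_mem' := by
    rintro _ _ ⟨x, hx, rfl⟩ ⟨y, hy, rfl⟩
    exact ⟨_, Nat.xor_lt_two_pow (n := 6) hx hy, by rw [X.s_mul _ (ap_lt _ _) _ (ap_lt _ _), ap_xor,
      (by decide +kernel : ∀ x < 64, ∀ y < 64, bet (ap mP x) (ap mP y) = 0) x hx y hy, pow_zero, mul_one]⟩
  inv_mem' := by
    rintro _ ⟨x, hx, rfl⟩
    exact ⟨x, hx, by rw [X.s_inv (ap_lt _ _), (by decide +kernel : ∀ x < 64, qq (ap mP x) = 0) x hx, pow_zero, mul_one]⟩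

theorem FF_le : X.FF ≤ X.EE := fun _ ⟨_, _, e⟩ => e ▸ X.s_mem (ap_lt _ _)

theorem card_FF : Nat.card X.FF = 64 := card_of_param (fun x => X.s (ap mP x)) (fun x hx y hy e =>
  (by decide +kernel : ∀ x < 64, ∀ y < 64, ap mP x = ap mP y → x = y) x hx y hy (X.s_eq' (ap_lt _ _) (ap_lt _ _) e))
  fun _ => Iff.rfl

variable {X} in
theorem RC.norm_FF {n : G} {c : ℕ} (h : X.RC n c)
    (e : allR (fun x => force (ap (fs c) (ap mP x)) fun y => anyR (fun x' => Nat.beq (ap mP x') y) 64) 64 = true) :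
    n ∈ 𝒩(X.FF) := mem_norm_of_forall fun _ ⟨x, hx, a⟩ => by
  simp only [allR_eq_true, force_eq, anyR_eq_true, beq_iff] at e
  obtain ⟨y, hy, b⟩ := e x hx
  exact ⟨y, hy, by rw [← a, h.act (ap_lt _ _), b, (by decide +kernel : ∀ x < 64, qq (ap mP x) = 0) x hx, mul_zero,
    pow_zero, mul_one]⟩

theorem s_mem_sup {v : ℕ} (hv : v < 4096) : X.s v ∈ X.V ⊔ X.FF := by
  have c := allV (by decide +kernel : allP (fun v => force (ap mW (ap mWi v)) fun w =>
    anyR (fun x => Nat.beq (Nat.xor w (ap mP x)) v) 64) 12 0 = true) hv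
  simp only [force_eq, anyR_eq_true, beq_iff] at c
  obtain ⟨x, hx, c⟩ := c
  have := X.s_mul _ (ap_lt mW (ap mWi v)) _ (ap_lt mP x)
  rw [← c]
  exact (mul_mem_cancel_right (mem_sup_left (pow_mem X.z_mem_V _))).1
    (this ▸ mul_mem (mem_sup_left (X.s_W _)) (mem_sup_right (S := X.V) (T := X.FF) ⟨x, hx, rfl⟩))

theorem T_le_norm : X.T ≤ 𝒩(X.V) := fun g hg => conjg_eq_self_iff.1
  (X.eq_V_of_le_T (conjg_le_of_mem X.V_le_T hg) (elem_conjg X.V_elem g) (by simp [X.card_V]))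

variable [hF : Fact X.Fu]

theorem th_s {e c : ℕ} (h : band (blt' e 4096) (thChk (LS e) c) = true) : X.TH (X.s e) (perm c) := by
  rw [band_eq_true, blt'_eq_true] at h
  exact (X.av_s h.1).th h.2

variable {X}

theorem TH.sq_comm {g : G} {p : Perm Pt} (h : X.TH g p) (e : p * p = 1) : ∃ u ∈ X.V, g * g = u * (g * u * g⁻¹) := by
  rcases eq_or_ne p 1 with rfl | h1
  · exact ⟨1, one_mem _, by simp [X.V_sq h.mem_V]⟩
  obtain ⟨k, hk, a⟩ := conj_qAB h.inM e h1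
  obtain ⟨m, hm⟩ := X.TH_surj hk
  obtain ⟨f, f1, f2⟩ : ∃ f, f * f = 1 ∧ X.TH f (k * p * k⁻¹) := by
    rcases a with a | a <;> rw [a]
    · exact ⟨_, by rw [X.s_sq (ap_lt _ _), show qq (ap mP 3) = 0 by decide +kernel, pow_zero],
        X.th_s (e := ap mP 3) (by decide +kernel)⟩
    · exact ⟨_, by rw [X.s_sq (ap_lt _ _), show qq (ap mP 5) = 0 by decide +kernel, pow_zero],
        X.th_s (e := ap mP 5) (by decide +kernel)⟩
  have hv := (h.conj hm).div f2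
  refine ⟨_, conj_mem_of_mem_norm' hm.mem hv, ?_⟩
  have c := conj_eq_iff_commute.2 (X.V_comm hv (conj_mem_of_mem_norm f2.mem hv))
  obtain ⟨v, rfl⟩ : ∃ v, g = m⁻¹ * (v * f) * m := ⟨m * g * m⁻¹ * f⁻¹, by group⟩
  rw [show m * (m⁻¹ * (v * f) * m) * m⁻¹ * f⁻¹ = v by group] at hv c ⊢
  calc _ = m⁻¹ * (v * (f * v * f⁻¹) * (f * f)) * m := by group
    _ = m⁻¹ * (v * (v * (f * v * f⁻¹) * v⁻¹)) * m := by rw [f1, c, mul_one]
    _ = _ := by group

theorem sq_wd (w : List ℕ) (h : band (Nat.beq (cmul (evalC ygens w) (evalC ygens w)) cone)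
    (force (evalW μgens w) fun c => allP (fun x => bne' (Nat.xor x (act c x)) 64) 11 0) = true) :
    X.wd w * X.wd w = 1 := by
  rw [band_eq_true, beq_iff, force_eq] at h
  obtain ⟨k, e⟩ := RC.eq_of_cone (h.1 ▸ (X.rc_wd w).mul (X.rc_wd w))
  obtain ⟨p, a, b⟩ := X.th_wd w
  obtain ⟨_, ⟨x, hx, rfl⟩, c⟩ := b.sq_comm ((b.mul b).eq_one (e ▸ pow_mem X.z_mem_V k))
  refine e.trans ((X.z_cases k).resolve_right fun d => bne'_eq_true.1 (all11 h.2 hx) ?_)
  rw [b.act hx, a, ← X.ev_xor, e, d, ← X.ev_64] at c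
  exact X.ev_inj (xor_lt11 hx (act_lt _ _)) (by norm_num) c.symm

omit [Finite G] hF in
theorem wd_append (u w : List ℕ) : X.wd (u ++ w) = X.wd u * X.wd w := by
  induction u with
  | nil => simp [wd]
  | cons i u ih => simp [wd, ih, mul_assoc]

variable (X)

theorem exists_K : ∃ K ≤ 𝒩(X.V), K ⊓ X.V = ⊥ ∧ K ⊔ X.V = 𝒩(X.V) := by
  have hD := card_dih (sq_wd (X := X) wT1 (by decide +kernel)) (sq_wd (X := X) wT2 (by decide +kernel))
    (sq_wd (X := X) [1] (by decide +kernel))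
    (by rw [← wd_append, show 4 = 2 * 2 from rfl, pow_mul, pow_two, pow_two, ← wd_append]
        exact sq_wd _ (by decide +kernel))
    (by rw [← wd_append]; exact sq_wd _ (by decide +kernel)) (by rw [← wd_append]; exact sq_wd _ (by decide +kernel))
  set D := closure {X.wd wT1, X.wd wT2, X.wd [1]}
  have r1 : X.RC (X.wd wT1) cT1 := (by decide +kernel : evalC ygens wT1 = cT1) ▸ X.rc_wd _
  have r2 : X.RC (X.wd wT2) cT2 := (by decide +kernel : evalC ygens wT2 = cT2) ▸ X.rc_wd _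
  have r3 : X.RC (X.wd [1]) cT3 := (by decide +kernel : evalC ygens [1] = cT3) ▸ X.rc_wd _
  have n1 : D ≤ 𝒩(X.FF) := (closure_le _).2 (by
    rintro x (rfl | rfl | rfl)
    exacts [r1.norm_FF (by decide +kernel), r2.norm_FF (by decide +kernel), r3.norm_FF (by decide +kernel)])
  have l1 : X.FF ⊔ D ≤ X.T := sup_le (X.FF_le.trans (X.EE_le_clo _)) ((closure_le _).2 (by
    rintro x (rfl | rfl | rfl)
    exacts [subset_closure ⟨_, _, by simp [tgens], r1.rq⟩, subset_closure ⟨_, _, by simp [tgens], r2.rq⟩,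
      subset_closure ⟨_, _, by simp [tgens], r3.rq⟩]))
  have l2 : X.T ≤ X.V ⊔ (X.FF ⊔ D) := (closure_le _).2 (by
    rintro _ ⟨v, c, hc, hv, n, hn, rfl⟩
    refine mul_mem ((sup_le_sup_left le_sup_left _ : X.V ⊔ X.FF ≤ _) (X.s_mem_sup hv)) ?_
    have k : ∀ {m}, X.RC m c → m ∈ X.V ⊔ (X.FF ⊔ D) → n ∈ X.V ⊔ (X.FF ⊔ D) := fun a b => by
      obtain ⟨j, rfl⟩ := a.eq hn
      exact mul_mem b (mem_sup_left (pow_mem X.z_mem_V _))
    simp only [tgens, List.mem_cons, List.not_mem_nil, or_false] at hc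
    rcases hc with rfl | rfl | rfl | rfl | rfl | rfl | rfl | rfl
    exacts [k X.rc_one (one_mem _), k (X.rc_xu (i := 0) (by norm_num)) (mem_sup_left (X.xu_mem (by norm_num))),
      k (X.rc_xu (i := 1) (by norm_num)) (mem_sup_left (X.xu_mem (by norm_num))),
      k (X.rc_xu (i := 2) (by norm_num)) (mem_sup_left (X.xu_mem (by norm_num))),
      k (X.rc_xu (i := 3) (by norm_num)) (mem_sup_left (X.xu_mem (by norm_num))),
      k r1 (mem_sup_right (mem_sup_right (subset_closure (by simp)))),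
      k r2 (mem_sup_right (mem_sup_right (subset_closure (by simp)))),
      k r3 (mem_sup_right (mem_sup_right (subset_closure (by simp))))])
  have n2 := l1.trans X.T_le_norm
  have d1 := Nat.le_of_dvd (Nat.mul_pos Nat.card_pos Nat.card_pos) (card_sup_dvd (.inr n1))
  have d2 := card_sup_mul_card_inf (.inr n2)
  have d3 := card_le_of_le l2
  rw [X.card_FF] at d1
  rw [X.card_V] at d2
  rw [X.card_T] at d3
  refine gaschutz le_rfl X.V_elem.1 X.V_le_T X.T_le_norm l1 ((card_le_one_iff_eq_bot _).1 (by nlinarith)) (fun t ht => ?_)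
    fun v hv => ?_
  · obtain ⟨v, hv, c, hc, rfl⟩ := (mem_sup_of_right_le_norm n2).1 (l2 ht)
    exact ⟨c, hc, by simpa using hv⟩
  · have := card_mul_relIndex X.T_le_norm
    rw [X.card_T, X.card_M] at this
    rw [show X.T.relIndex 𝒩(X.V) = 2 * 119542 + 1 by omega, pow_succ, pow_mul, pow_two, X.V_sq hv, one_pow, one_mul]

theorem exists_κ : ∃ κ : M24 →* G, ∀ p : M24, X.TH (κ p) p := by
  obtain ⟨K, h1, h2, h3⟩ := X.exists_K
  obtain ⟨θ, -, h⟩ := X.exists_θ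
  have b : Function.Bijective (θ.comp (inclusion h1)) := by
    refine ⟨(injective_iff_map_eq_one _).2 fun k e => Subtype.ext (mem_bot.1 (h2.le ⟨k.2, TH.mem_V ?_⟩)), fun p => ?_⟩
    · have := h (inclusion h1 k)
      rwa [show θ (inclusion h1 k) = 1 from e] at this
    · obtain ⟨g, hg⟩ := X.TH_surj p.2
      obtain ⟨k, hk, v, hv, rfl⟩ := (mem_sup_of_left_le_norm h1).1 (h3.ge hg.mem)
      exact ⟨⟨k, hk⟩, Subtype.ext ((mul_one (_ : Perm Pt) ▸ (h ⟨k, h1 hk⟩).mul (TH.of_V hv)).unique hg)⟩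
  refine ⟨K.subtype.comp (MulEquiv.ofBijective _ b).symm.toMonoidHom, fun p => ?_⟩
  have := h (inclusion h1 ((MulEquiv.ofBijective _ b).symm p))
  rwa [show θ (inclusion h1 ((MulEquiv.ofBijective _ b).symm p)) = p from
    (MulEquiv.ofBijective _ b).apply_symm_apply p] at this

/-- the splitting -/
def κ : M24 →* G := X.exists_κ.choose

theorem th_κ (p : M24) : X.TH (X.κ p) p := X.exists_κ.choose_spec p

theorem κ_inj : Function.Injective X.κ := fun p q e => Subtype.ext ((X.th_κ p).unique (e ▸ X.th_κ q))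

variable {X} in
theorem TH.eq_κ {g : G} {p : Perm Pt} (h : X.TH g p) : ∃ x < 2048, g = X.ev x * X.κ ⟨p, h.inM⟩ := by
  obtain ⟨x, hx, e⟩ := h.div (X.th_κ ⟨p, h.inM⟩)
  exact ⟨x, hx, by rw [e, inv_mul_cancel_right]⟩

theorem split_map {H : Subgroup (Perm Pt)} (h : H ≤ M24) : ∃ K : Subgroup G, K ⊓ X.V = ⊥ ∧
    (∀ g, g ∈ K ⊔ X.V ↔ ∃ p ∈ H, X.TH g p) ∧ Nonempty (K ≃* H) := by
  have n : (X.κ.comp (inclusion h)).range ≤ 𝒩(X.V) := fun _ ⟨p, e⟩ => e ▸ (X.th_κ _).mem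
  refine ⟨(X.κ.comp (inclusion h)).range, eq_bot_iff.2 ?_, fun g => ⟨fun a => ?_, fun ⟨p, hp, a⟩ => ?_⟩,
    ⟨(MonoidHom.ofInjective (f := X.κ.comp (inclusion h)) fun _ _ e => inclusion_injective h (X.κ_inj e)).symm⟩⟩
  · rintro _ ⟨⟨p, rfl⟩, a⟩
    rw [show p = 1 from Subtype.ext ((X.th_κ _).eq_one a), map_one]; exact one_mem _
  · obtain ⟨v, hv, _, ⟨p, rfl⟩, rfl⟩ := (mem_sup_of_left_le_norm' n).1 a
    exact ⟨p, p.2, (X.th_κ _).mulV hv⟩
  · obtain ⟨x, hx, e⟩ := a.eq_κ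
    exact e ▸ mul_mem (mem_sup_right (X.ev_mem hx)) (mem_sup_left ⟨⟨p, hp⟩, rfl⟩)

include hF in
theorem s5567 {V : Subgroup G} (hV : IsElementaryAbelian 2 V) (hc : Nat.card V = 2 ^ 11) :
    𝒞(V) ≤ V ∧ ∃ K : Subgroup G, K ≤ 𝒩(V) ∧ K ⊓ V = ⊥ ∧ K ⊔ V = 𝒩(V) ∧ Spor.IsoM24 K := by
  obtain ⟨g, rfl⟩ := X.conj_V hV (by simp [hc])
  obtain ⟨K, h1, h2, ⟨e⟩⟩ := X.split_map (le_refl M24)
  have h3 : K ⊔ X.V = 𝒩(X.V) := Subgroup.ext fun g => (h2 g).trans ⟨fun ⟨_, _, a⟩ => a.mem, fun a => by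
    obtain ⟨p, hp⟩ := X.exists_TH a
    exact ⟨p, hp.inM, hp⟩⟩
  exact ⟨by rw [← conjg_cent, X.cent_V], K :^ g, by rw [← conjg_norm, ← h3]; exact conjg_mono g le_sup_left,
    by rw [← conjg_inf, h1, conjg_bot], by rw [← conjg_sup, h3, conjg_norm],
    ⟨((MulAut.conj g).subgroupMap K).symm.trans e⟩⟩

theorem π_V {a : G} (h : a ∈ X.V) (b : G) (h' : b ∈ X.V) : X.π a * X.π b * X.π a * (X.π b)⁻¹ = 1 := by
  have c := X.zc_V h
  have d := X.zc_V h'
  rw [← X.π_inv d, ← X.π_mul _ _ c d, ← X.π_mul _ _ (c.mul_right d) c, ← X.π_mul _ _ ((c.mul_right d).mul_right c)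
    d.inv_right, (X.V_comm h h').eq, mul_assoc b, X.V_sq h, mul_one, mul_inv_cancel, X.π_one]

/-- the complement meets `V E` inside `E` -/
theorem κ_EE {f : G} (hf : f ∈ X.EE) {q : Perm Pt} (h : X.TH f q) (p : M24)
    (e : (p : Perm Pt) = q * (perm μR * q * (perm μR)⁻¹)) (e2 : p * p = 1) : X.κ p ∈ X.EE := by
  have a := (X.th_κ ⟨_, h.inM⟩).div h
  have b := (X.th_κ ⟨_, X.th_ρ.inM⟩).div X.th_ρ
  have a1 := inv_mul_cancel_right (X.κ ⟨_, h.inM⟩) f
  have b1 := inv_mul_cancel_right (X.κ ⟨_, X.th_ρ.inM⟩) X.ρ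
  have a2 : Commute X.z (X.κ ⟨_, h.inM⟩) := a1 ▸ (X.zc_V a).mul_right (X.z_EE hf)
  have b2 : Commute X.z (X.κ ⟨_, X.th_ρ.inM⟩) := b1 ▸ (X.zc_V b).mul_right X.zρ
  have e1 : X.κ p = X.κ ⟨_, h.inM⟩ * X.κ ⟨_, X.th_ρ.inM⟩ * X.κ ⟨_, h.inM⟩ * (X.κ ⟨_, X.th_ρ.inM⟩)⁻¹ := by
    rw [← map_inv, ← map_mul, ← map_mul, ← map_mul]
    exact congrArg _ (Subtype.ext (by simp [e, mul_assoc]))
  refine X.mem_EE_of_pow (k := 1) (e1 ▸ ((a2.mul_right b2).mul_right a2).mul_right b2.inv_right) ?_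
    (by rw [pow_one, pow_two, ← map_mul, e2, map_one])
  rw [e1, X.π_mul _ _ ((a2.mul_right b2).mul_right a2) b2.inv_right, X.π_mul _ _ (a2.mul_right b2) a2,
    X.π_mul _ _ a2 b2, X.π_inv b2, ← a1, ← b1, X.π_mul _ _ (X.zc_V a) (X.z_EE hf), X.π_mul _ _ (X.zc_V b) X.zρ,
    X.π_EE hf, X.π_ρ, mul_one, mul_one]
  exact X.π_V a _ b

theorem perm_eq {c : ℕ} {p : Perm Pt} (h : code p = c) : p = perm c := by rw [← h, perm_code]

theorem κA_EE : X.κ ⟨_, qA_in.perm_mem⟩ ∈ X.EE :=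
  X.κ_EE (X.s_mem (col_lt _ _)) (X.th_sP (i := 0) (by norm_num)) _ (code_inj (by
    rw [← pmul_code, ← pmul_code, ← pmul_code, ← pinv_code, qA_in.code_perm, code_perm_chk (by decide +kernel),
      code_perm_chk (by decide +kernel)]; decide +kernel))
    (Subtype.ext (code_inj (by rw [coe_mul, ← pmul_code, qA_in.code_perm, coe_one, code_one]; decide +kernel)))

theorem ev_EE {x : ℕ} (hx : x < 128) : X.ev x ∈ X.EE := ⟨_, ap_lt _ _, _, X.ev_W hx⟩

variable {X} in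
theorem TH.fix {g : G} {p : Perm Pt} (h : X.TH g p) {x : ℕ} (hx : x < 2048) :
    Commute g (X.ev x) ↔ J4.act (code p) x = x := by
  rw [← conj_eq_iff_commute, h.act hx]
  exact ⟨X.ev_inj (act_lt _ _) hx, fun e => by rw [e]⟩

theorem comm_of_sq {a f : G} (ha : a * a = 1) (hf : f * f = 1) (h : a * f * (a * f) = 1) : Commute f a :=
  (commute_of_sq_eq_one ha hf (by rwa [pow_two])).symm

/-- every involution of the normaliser is conjugate into `V` or `E` -/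
theorem inv_M {y : G} (hy : y ∈ 𝒩(X.V)) (e : y * y = 1) :
    y ∈ X.V ∨ ∃ m ∈ 𝒩(X.V), m * y * m⁻¹ ∈ X.EE := by
  obtain ⟨p, hp⟩ := X.exists_TH hy
  rcases eq_or_ne p 1 with rfl | h1
  · exact .inl hp.mem_V
  obtain ⟨k, hk, a⟩ := conj_qAB hp.inM (hp.sq e) h1
  obtain ⟨m, hm⟩ := X.TH_surj hk
  have h2 := hp.conj hm
  have e2 : m * y * m⁻¹ * (m * y * m⁻¹) = 1 := by rw [← cjm, e]; simp
  right
  rcases a with a | a <;> rw [a] at h2
  · obtain ⟨x, hx, b⟩ := h2.eq_κ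
    have c := ((X.th_κ ⟨_, qA_in.perm_mem⟩).fix hx).1 (comm_of_sq (X.ev_sq x) (by
      rw [← map_mul, ← X.κ.map_one]
      exact congrArg _ (Subtype.ext (h2.sq e2))) (b ▸ e2))
    have d := all11 (by decide +kernel : allP (fun x => bimp (Nat.beq (act qA x) x)
      (anyL (fun i => blt' (act (ppow k7 i) x) 128) [1, 2, 3, 0])) 11 0 = true) hx
    simp only [bimp_eq_true, beq_iff, anyL_eq_true, blt'_eq_true] at d
    obtain ⟨i, -, d⟩ := d (qA_in.code_perm ▸ c)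
    have h7 : InH M24 k7 := inM_of_chk (by decide +kernel)
    have cm : Commute (X.κ (⟨_, h7.perm_mem⟩ ^ i)) (X.κ ⟨_, qA_in.perm_mem⟩) := (Commute.pow_left (Subtype.ext
      (commB_code.1 (by rw [h7.code_perm, qA_in.code_perm]; decide +kernel))) i).map _
    refine ⟨X.κ (⟨_, h7.perm_mem⟩ ^ i) * m, mul_mem (X.th_κ _).mem hm.mem, ?_⟩
    rw [show ∀ n : G, n * m * y * (n * m)⁻¹ = n * (m * y * m⁻¹) * n⁻¹ from fun n => by group, b, cjm,
      conj_eq_iff_commute.2 cm, (X.th_κ _).act hx, coe_pow, ← ppow_code, h7.code_perm]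
    exact mul_mem (X.ev_EE d) X.κA_EE
  · have hf := X.th_s (e := ap mP 5) (c := qB) (by decide +kernel)
    obtain ⟨x, hx, b⟩ := h2.div hf
    rw [eq_mul_inv_iff_mul_eq] at b
    have c := (hf.fix hx).1 (comm_of_sq (X.ev_sq x) (by
      rw [X.s_sq (ap_lt _ _), show qq (ap mP 5) = 0 by decide +kernel, pow_zero]) (b ▸ e2))
    have d := all11 (by decide +kernel : allP (fun x => bimp (Nat.beq (act qB x) x) (blt' x 128)) 11 0 = true) hx
    simp only [bimp_eq_true, beq_iff, blt'_eq_true] at d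
    exact ⟨m, hm.mem, b ▸ mul_mem (X.ev_EE (d (qB_in.code_perm ▸ c))) (X.s_mem (ap_lt _ _))⟩

/-- there are two classes of involutions -/
theorem inv_cases {y : G} (e : y * y = 1) : y = 1 ∨ IsConj X.z y ∨ IsConj X.t y := by
  obtain ⟨g, -, h⟩ := sylow_Jsub Nat.prime_two X.T_syl (Q := zpowers y) (pGrp_of_forall_pow Nat.prime_two (k := 1)
    fun x hx => by rcases (mem_zpowers_iff_of_sq e).1 hx with rfl | rfl <;> simp [pow_two, e]) le_top
  have k : ∀ g, g * y * g⁻¹ ∈ X.V → y = 1 ∨ IsConj X.z y ∨ IsConj X.t y := fun g a => by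
    rcases X.V_cases a with b | b | ⟨m, -, b⟩
    · exact .inl (conj_eq_one_iff.1 b)
    · exact .inr (.inl (b.trans (isConj_iff.2 ⟨g, rfl⟩).symm))
    · exact .inr (.inr ((isConj_iff.2 ⟨g, rfl⟩).trans (isConj_iff.2 ⟨m, b⟩)).symm)
  rcases X.inv_M (X.T_le_norm (h (conj_mem_conjg g (mem_zpowers y)))) (by rw [← cjm, e]; simp) with a | ⟨m, -, a⟩
  · exact k g a
  · obtain ⟨n, -, b⟩ := X.EE_conj_V a (by rw [← cjm, ← cjm, e]; simp)
    exact k (n * m * g) (by rwa [show n * m * g * y * (n * m * g)⁻¹ = n * (m * (g * y * g⁻¹) * m⁻¹) * n⁻¹ by group])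

end HM

end

end CA.J4

theorem CA.J4.realizeEqnsJ4Split : True := by
  have := @CA.J4.k7.eq_1
  have := @CA.J4.k7.eq_def
  have := @CA.J4.k7.congr_simp
  have := @CA.J4.qB.eq_1
  have := @CA.J4.qB.eq_def
  have := @CA.J4.qB.congr_simp
  have := @CA.J4.HM.κ.eq_1.{0}
  have := @CA.J4.HM.κ.eq_def.{0}
  have := @CA.J4.HM.κ.congr_simp.{0}
  have := @CA.J4.qA.eq_1
  have := @CA.J4.qA.eq_def
  have := @CA.J4.qA.congr_simp
  have := @CA.J4.HM.FF.eq_1.{0}
  have := @CA.J4.HM.FF.eq_def.{0}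
  have := @CA.J4.HM.FF.congr_simp.{0}
  trivial
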