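import Cfsg.Agent.J4.Rho

/-! The Sylow 3-subgroup and its normaliser. -/

set_option autoImplicit false
set_option maxRecDepth 100000
set_option linter.unusedSectionVars false

namespace CA.J4

open CA.M24 CA.Fi CA.FG Cfsg Subgroup Equiv
open scoped commutatorElement Pointwise

noncomputable section

def wa3 : List ℕ := [1, 0, 1, 0]
def wb3 : List ℕ := [0, 1, 0, 0, 1, 0, 0]
def cA3 : ℕ := nat_lit 16328844121410272360627801310098380800374098598815680349181483975180396519789664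
def cB3 : ℕ := nat_lit 10312139057280465171719839235409594776881310983565079254178876882943564232821280
def ngens : List ℕ := [nat_lit 290111189389775851127806218484009957654147655154303893336590024996438354728503, nat_lit 3113357768396712046150528141019280429481706660320761890051710634381881069183392]
def nw1 : List ℕ := [2, 0, 1, 0, 2, 1, 0, 1, 0, 2, 1, 1, 1, 0, 0, 0]
def nw2 : List ℕ := [2, 0, 2, 1, 1, 0, 2, 1, 0, 0, 2, 1, 1, 0, 1, 0]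
def ncert : List (ℕ × ℕ × List (List ℕ)) := [(6, 3, [[0, 1, 0, 0, 1, 1, 0, 1, 1], [0, 0, 0, 1, 1, 1, 1]]), (9, 2, [[1, 1, 0, 0, 0, 0], [0, 1, 0, 0, 0, 0, 1, 0, 1]]), (10, 1, [])]
def cw3 : List (List ℕ) := [[], [], [1, 1, 0, 0], [0, 1], [1, 0, 0], [0], [0, 1, 1, 1], [0, 1, 1, 0, 0], [1, 0], [], [0, 0], [1, 1], [0, 0, 0, 0, 0, 1], [1, 0, 0, 0, 0], [0, 0, 0, 0, 0], [0, 1, 1, 1, 0], [1, 1, 0], [0, 1, 1, 0, 1], [0], [0, 0, 0, 0], [0, 1, 1, 0], [0, 1, 0], [1], [0, 0, 0], [1, 1, 0, 1], [0, 1, 1], [1, 0, 0, 0]]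
def o22 : List (List ℕ) := [[0, 2, 1], [0, 1], [2, 1], [], [1, 0, 2], [1, 0, 1], [1, 1], [0, 1, 1, 1], [0, 1, 0, 1], [0, 0], [2], [0, 0, 0], [1, 0], [0, 0, 0, 0], [2, 0], [1, 1, 1], [1], [0], [0, 0, 1], [0, 2], [2, 0, 0], [0, 0, 2]]
def o280 : List (List ℕ) := [[0, 0, 1, 0, 1, 0, 1], [1, 1, 0, 1, 0, 0, 0], [1, 0, 0, 0, 1, 1, 0, 0], [0, 0, 0, 1, 0, 0], [0, 0, 0, 1, 0, 1, 0], [1, 1, 1, 1, 0, 1, 0, 0, 0], [1, 1, 1, 1, 1, 0, 1, 0, 0], [1, 0, 0], [1, 0, 0, 1, 0, 1, 0, 0], [1, 1, 0, 1, 1], [0, 0, 0, 1, 1, 0, 0], [1, 0, 0, 0, 1, 0, 1], [1, 0, 0, 1], [1, 0, 1, 1, 1, 0], [0, 1, 0, 0, 0, 1], [0, 0, 0, 1, 1, 1, 0, 0, 0], [0, 1, 1, 0, 0, 1, 1, 0, 0], [0, 1, 1, 1, 0, 0, 0], [1, 1, 0, 0, 0, 1, 0, 0], [1, 0, 0, 1, 1, 0, 1, 0, 1], [1, 1, 0, 0, 1, 0, 0], [0, 1, 1, 1, 0, 1, 0, 0], [0, 1, 0, 0, 1, 0], [1, 1, 0, 1, 0, 0, 0, 1], [0,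 0, 1, 0, 0, 1, 0, 0], [0, 1, 0, 1, 0, 1, 1], [1, 0, 0, 1, 0, 1, 1], [1, 1, 1, 0, 1, 0, 1, 0], [0, 0, 1, 1, 1], [1, 0, 0, 1, 0, 0, 1], [1, 1, 1, 1, 1, 0, 1], [0, 0, 1, 0, 0, 1], [0, 0, 1, 0, 0, 1, 0, 1, 1], [1, 1, 1, 1, 1, 1, 0, 1], [0, 0, 1, 0, 1], [0, 0, 0, 1, 0, 0, 1, 0], [0, 0, 1, 1, 0, 1, 0, 0, 0], [0, 0, 0, 1, 1, 1, 0, 0], [0, 1, 1, 0, 0, 1, 0, 0, 0], [1, 0, 1, 0, 1, 0, 0, 0], [1, 1, 0, 1, 0, 1], [1, 1, 0, 0, 1, 1, 0, 0], [1, 0, 1, 0, 0, 0], [0, 1, 0, 1, 0, 1, 0], [1, 1], [0, 0, 1, 1, 0, 1, 1], [0, 1, 0, 0, 1], [1, 1, 0, 1, 0, 1, 0], [0, 0, 0, 1, 0, 1, 1], [0, 0, 1, 1, 1, 0, 1], [0, 0, 1, 0, 0, 1, 1, 0, 0], [1, 1, 1, 1, 1], [0, 0], [1, 1, 1, 0, 1, 0, 0, 0], [1, 0, 0, 1, 0, 1, 1, 0, 0], [1, 1, 1, 0, 0], [0, 1], [1, 1, 0, 1, 0, 0], [0, 1, 0, 1, 1, 1, 1, 0, 1, 0], [1, 1, 1, 0, 0, 0, 1, 0, 0], [1, 0, 0, 0, 1, 0,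 0, 0], [1, 0, 1, 1], [0, 0, 1, 1, 0, 1, 0, 1, 0], [1, 1, 0, 1, 0, 0, 1, 0], [1, 0, 0, 0, 1, 1, 1, 0], [0, 0, 1, 1, 1, 0, 0], [1, 1, 1, 1], [0, 0, 1, 0, 1, 1, 0, 0], [1, 0, 1, 1, 1, 0, 0], [0, 0, 1, 1, 0, 1], [0, 0, 1, 0, 1, 0, 0], [0, 1, 0, 1, 1], [0, 1, 1, 1, 1, 0, 1, 0], [1, 0, 1, 0, 1, 1], [], [0, 0, 0, 1, 1, 1, 1], [0, 0, 1, 1, 1, 1, 1], [1, 1, 0, 0], [0, 0, 0, 1], [0, 1, 1, 0, 0, 0, 1, 1, 0, 0], [1, 1, 1, 1, 0, 1], [0, 0, 1, 0, 1, 1], [1, 0, 1, 0, 0], [1, 0, 1, 0, 1, 0], [1, 0, 1, 1, 0, 0], [0, 0, 1, 1, 0, 0], [1, 1, 1, 1, 0, 1, 0, 0], [1, 1, 0, 1, 1, 0], [0, 1, 0, 0, 0], [0, 1, 1], [0, 1, 1, 0, 0, 1, 0], [1, 1, 0, 0, 0, 1, 1, 0, 0], [1, 1, 0, 1, 1, 1, 0, 0], [1, 0, 0, 0, 1], [1, 1, 1, 0, 1, 0, 1], [1, 0, 0, 0, 1, 0, 0], [0, 1, 0, 1, 0], [1, 0, 0, 1, 0, 0, 1, 1, 0, 0], [1, 0, 0, 1, 0, 1], [1, 1, 1, 0, 0, 1,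 0, 0], [1, 0, 0, 1, 0, 0], [1, 0, 1, 1, 0], [0, 1, 1, 0, 0], [1, 0, 0, 1, 1, 1, 1], [0, 1, 1, 0, 1], [0, 1, 0, 1, 1, 1, 0, 1, 0, 1], [1, 0, 0, 1, 0, 1, 0, 0, 1, 0], [0, 0, 1, 0, 1, 1, 1, 0], [0, 1, 1, 1, 1, 1, 1, 0, 1], [0, 1, 1, 1, 1, 0, 0, 1, 0, 0], [0, 1, 1, 1, 1, 0, 1, 0, 0], [0, 0, 1, 0, 1, 1, 0], [1, 1, 1, 0, 1, 0, 0], [0, 1, 0, 1, 0, 0, 1, 0, 0], [1, 0, 1, 1, 1, 1, 0, 1, 0], [0, 1, 0, 0, 0, 1, 0, 0], [0, 1, 0, 1, 0, 0, 0], [1, 1, 1], [1, 1, 1, 0, 1, 1], [1, 1, 0, 0, 1, 0, 1, 1], [1, 1, 0, 0, 1], [1, 0, 1], [1, 0, 1, 0, 1], [0, 0, 0, 1, 0, 0, 0], [0, 1, 1, 1, 0, 0], [0, 0, 1, 0, 0], [1, 0, 1, 0, 1, 0, 0, 1, 0, 0], [0, 0, 1, 1, 0, 1, 0, 1], [0, 1, 0, 0], [1, 0, 1, 0, 0, 1, 0, 0, 0], [1], [1, 0, 0, 1, 1, 1, 0, 0], [0, 0, 0, 1, 1, 1, 0], [0, 0, 1, 0, 1, 0, 0, 1, 0], [0, 0, 1, 1, 1, 1], [1, 1, 1, 1, 0, 0, 0, 1,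 0, 0], [1, 0, 1, 0, 0, 0, 1], [0, 0, 0, 1, 0, 1], [0, 1, 1, 1, 0, 1, 0, 0, 0], [1, 0, 0, 0, 1, 1, 1, 1], [0, 1, 1, 1, 0], [0, 0, 1, 0, 1, 0, 1, 0], [1, 1, 1, 0, 1], [0, 1, 0, 1], [0, 1, 0, 0, 1, 0, 0, 0], [1, 1, 0, 0, 1, 0, 1], [1, 1, 1, 1, 0, 0, 1, 0, 0], [0, 1, 1, 0], [0, 0, 1], [0, 0, 1, 1, 1, 1, 0, 1], [0, 0, 0, 1, 0, 0, 1], [1, 1, 1, 0, 1, 0, 0, 0, 1], [1, 0, 0, 1, 1, 0, 0], [1, 1, 1, 1, 1, 1], [1, 0, 1, 0, 0, 1, 0], [1, 1, 1, 1, 1, 0, 1, 0, 0, 0], [0, 1, 1, 0, 0, 0, 1, 0, 0], [0, 1, 0, 0, 1, 0, 1], [0, 1, 1, 1, 1], [1, 1, 0, 1], [0, 1, 1, 1, 1, 1, 1, 0], [1, 1, 1, 0, 0, 1, 0], [0, 1, 0, 1, 1, 0, 0], [1, 1, 0, 1, 1, 0, 1, 1], [1, 0, 1, 1, 1, 1, 0, 1], [0, 0, 1, 0, 1, 1, 1], [0, 1, 0, 0, 0, 1, 0, 0, 0], [0, 1, 1, 0, 1, 0, 1], [1, 1, 0, 1, 0], [1, 0], [1, 0, 1, 1, 1, 1, 1, 1, 0], [0, 0, 0, 1, 0, 1, 1, 0], [0,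 1, 1, 1, 1, 1], [0, 1, 0, 0, 0, 1, 1, 1], [1, 1, 0, 1, 1, 1], [0, 0, 1, 1, 0, 0, 0], [0, 1, 1, 1, 0, 1], [0, 0, 1, 1, 0, 1, 0], [1, 0, 0, 1, 0, 0, 1, 0], [1, 0, 1, 0], [1, 1, 0, 1, 1, 0, 0, 0], [0, 1, 0, 1, 1, 0], [1, 1, 0, 1, 1, 0, 1, 0], [0, 0, 0, 1, 1, 0, 1, 0, 0, 0], [1, 0, 0, 0, 1, 1, 1], [1, 1, 1, 0, 1, 1, 0, 1, 0], [1, 0, 1, 1, 1, 1, 1], [0, 1, 0, 0, 1, 1, 1, 0, 0], [0, 1, 1, 1, 1, 0, 1], [0, 0, 0, 1, 1, 0, 0, 0], [0, 1, 0, 1, 1, 1, 0], [0, 0, 1, 0], [0, 1, 0, 0, 1, 1, 0, 1, 0], [0, 0, 1, 0, 0, 0], [0], [0, 1, 1, 1, 0, 0, 1, 0], [0, 1, 1, 0, 1, 0, 0, 0], [1, 0, 0, 0, 1, 1, 1, 1, 0], [1, 1, 0, 1, 1, 0, 0, 1], [0, 0, 0, 1, 1, 1], [0, 0, 0, 1, 1, 1, 0, 1], [1, 0, 0, 0], [0, 1, 0, 0, 1, 0, 1, 1], [1, 0, 1, 1, 0, 1, 1, 1], [0, 1, 1, 0, 1, 0, 1, 0], [0, 1, 0, 1, 0, 1], [1, 1, 1, 0, 1, 0], [0, 1, 0, 0, 1, 0, 1, 0],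 [0, 0, 1, 1, 1, 1, 0, 1, 0], [1, 1, 1, 1, 0, 0, 0], [0, 0, 0, 1, 0, 1, 0, 1], [0, 0, 1, 1, 1, 1, 0], [0, 1, 0, 1, 0, 0], [1, 0, 1, 1, 0, 1, 0], [1, 1, 1, 0, 0, 0], [1, 0, 0, 0, 1, 0, 1, 1, 0, 0], [1, 1, 0, 1, 0, 1, 1, 0], [1, 1, 0, 0, 1, 0, 0, 0], [1, 1, 0, 0, 1, 0], [1, 1, 1, 0], [0, 1, 0, 0, 0, 1, 1, 0, 0], [1, 1, 1, 0, 1, 1, 0, 0, 0], [0, 0, 0, 1, 0, 1, 0, 0], [0, 1, 0, 0, 1, 0, 0], [1, 1, 1, 1, 0, 0, 1, 0], [1, 0, 1, 1, 0, 1, 0, 0, 0], [0, 0, 0, 1, 0, 0, 1, 0, 0], [0, 0, 1, 1, 1, 0], [1, 0, 1, 1, 0, 1, 1], [1, 1, 1, 1, 1, 1, 0], [0, 1, 1, 0, 1, 1, 1], [0, 1, 1, 0, 1, 1, 1, 0, 0], [0, 1, 0], [0, 0, 0, 1, 1, 1, 1, 1], [0, 1, 0, 1, 1, 0, 1, 0, 0, 0], [0, 1, 1, 0, 1, 1], [0, 1, 0, 1, 1, 1], [0, 0, 0, 1, 0, 1, 1, 1, 0], [1, 0, 1, 0, 0, 1, 0, 0], [0, 0, 0, 1, 1, 1, 1, 0], [1, 1, 0], [1, 1, 0, 0, 0], [1, 0, 1, 1, 1,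 0, 1], [1, 1, 0, 1, 1, 1, 1, 1], [0, 0, 0, 1, 1, 0, 1, 1], [0, 0, 0, 1, 0, 1, 1, 0, 0], [0, 1, 1, 1, 1, 0], [0, 1, 1, 1], [1, 0, 1, 1, 1], [1, 0, 1, 1, 1, 0, 1, 0, 1], [0, 1, 0, 1, 0, 0, 1, 0], [1, 1, 0, 1, 1, 1, 0, 1], [0, 0, 0, 1, 0], [0, 0, 0], [1, 0, 1, 0, 1, 1, 0], [1, 0, 0, 1, 0], [0, 0, 1, 1, 0], [1, 0, 0, 1, 1, 1, 0], [0, 0, 1, 0, 0, 1, 0], [1, 0, 0, 1, 0, 1, 0], [0, 0, 1, 0, 1, 0], [0, 1, 1, 0, 0, 0], [0, 1, 1, 0, 1, 1, 0, 0, 1], [0, 1, 0, 1, 1, 1, 0, 0], [1, 1, 1, 1, 0, 1, 0], [0, 1, 1, 0, 0, 1], [0, 1, 1, 0, 0, 1, 0, 0], [1, 0, 0, 1, 0, 0, 0], [0, 1, 1, 1, 0, 1, 0, 1], [1, 1, 1, 1, 0], [1, 0, 1, 1, 0, 0, 1], [0, 1, 1, 0, 1, 0], [1, 0, 1, 1, 0, 0, 0], [0, 1, 0, 0, 1, 0, 1, 1, 0, 0], [1, 1, 1, 0, 0, 1, 0, 0, 0], [0, 0, 1, 1, 1, 0, 0, 0], [0, 1, 0, 0, 1, 1, 0, 0], [1, 0, 0, 1, 1, 0, 1, 0], [1, 1, 0, 0, 1,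 1, 1, 0], [1, 1, 1, 1, 1, 0]]
def sg21 : List ℕ := [nat_lit 971619131141150445587501460710958624, nat_lit 29290785985479353185897635272412343]
def kA3 : ℕ := nat_lit 627239029836717345573876485333595465

/-- the codes of the Sylow 3-subgroup -/
def k3 (n : ℕ) : ℕ := force (cpow cA3 (n % 3)) fun a => force (cpow cB3 (n / 3 % 3)) fun b => force (cmul a b) fun c =>
  force (cpow cO (n / 9)) fun d => cmul c d
/-- the bound for the normaliser of the Sylow 3-subgroup of `M22` -/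
def ND : Subgroup (Perm Pt) :=
  DD ⊓ MulAction.stabilizer (Perm Pt) (unmask 16) ⊓ MulAction.stabilizer (Perm Pt) (unmask 1678912)

theorem card_ND : Nat.card ND ≤ 144 := by
  have a := card_stab_mul_le (H := DD) (gens := [ca, ct, cu]) (by
    simp [ca_in.mono M22_le_DD, ct_in.mono M22_le_DD, cu_in]) (m := 16) (by decide) o22 (by decide +kernel)
  have b := card_stab_mul_le (H := DD ⊓ MulAction.stabilizer (Perm Pt) (unmask 16)) (gens := sg21) (fun c hc => by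
    have := allL_eq_true.1 (by decide +kernel : allL (fun c => band (chkD c) (Nat.beq (mapp c 16) 16)) sg21 = true) c hc
    simp only [band_eq_true, beq_iff] at this
    refine inH_inf_stab setC (inD_of_chk this.1) trivial ?_
    change mapp c (mask (unmask 16)) = mask (unmask 16)
    rw [mask_unmask (by norm_num)]; exact this.2) (m := 1678912) (by decide) o280 (by decide +kernel)
  rw [card_DD, show o22.length = 22 from rfl] at a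
  rw [show o280.length = 280 by decide +kernel] at b
  unfold ND
  omega

theorem special_congr {A B : Type*} [Group A] [Group B] {p : ℕ} (f : A ≃* B) (h : IsSpecial p B) : IsSpecial p A ∧
    Nat.card (center A) = Nat.card (center B) := by
  have h0 : center A = (center B).comap f.toMonoidHom := Subgroup.ext fun x => by
    simp only [mem_center_iff, mem_comap, MulEquiv.coe_toMonoidHom, f.surjective.forall, ← map_mul, f.injective.eq_iff]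
  have h1 : ∀ K : Subgroup B, K.comap f.toMonoidHom = K.map f.symm.toMonoidHom := fun K =>
    (map_equiv_eq_comap_symm' f.symm K).symm
  have h2 : ∀ K : Subgroup A, (K.comap f.symm.toMonoidHom).comap f.toMonoidHom = K := fun K => by ext; simp
  refine ⟨⟨h.1.of_equiv f.symm, ?_, ?_⟩, ?_⟩
  · rw [h0, ← h.2.1]
    exact le_antisymm (frattini_le_comap_frattini_of_surjective f.surjective)
      ((comap_mono (frattini_le_comap_frattini_of_surjective (φ := f.symm.toMonoidHom) f.symm.surjective)).trans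
        (h2 _).le)
  · rw [h0, ← h.2.2, h1, _root_.map_commutator_eq, MonoidHom.range_eq_top.2 f.symm.surjective]; rfl
  · rw [h0, h1, card_map_of_injective f.symm.injective]

theorem extraspecial_congr {A B : Type*} [Group A] [Group B] {p : ℕ} (f : A ≃* B) (h : IsExtraspecial p B) :
    IsExtraspecial p A := ⟨(special_congr f h.1).1, (special_congr f h.1).2.trans h.2⟩

variable {G : Type*} [Group G]

namespace HM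

variable [Finite G] (X : HM G)

/-- the first generator -/
def a3 : G := X.wd wa3 ^ 4
/-- the second generator -/
def b3 : G := X.wd wb3 ^ 4

theorem rc_a3 : X.RC X.a3 cA3 := (by decide +kernel : cpow (evalC ygens wa3) 4 = cA3) ▸ (X.rc_wd _).pow 4
theorem rc_b3 : X.RC X.b3 cB3 := (by decide +kernel : cpow (evalC ygens wb3) 4 = cB3) ▸ (X.rc_wd _).pow 4

variable {X} in
omit [Finite G] in
theorem RC.cube {n : G} {c : ℕ} (h : X.RC n c) (e : cpow c 3 = cone) : (n ^ 4) ^ 3 = 1 := by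
  obtain ⟨k, a⟩ := RC.eq_of_cone (e ▸ h.pow 3)
  rw [← pow_mul, mul_comm, pow_mul, a, ← pow_mul, X.zmod (b := 0) (by omega), pow_zero]

theorem heis : Heis X.a3 X.b3 X.ρ := by
  have a3 : X.a3 ^ 3 = 1 := (X.rc_wd _).cube (by decide +kernel)
  have b3 : X.b3 ^ 3 = 1 := (X.rc_wd _).cube (by decide +kernel)
  have ar := mem_cent_iff.1 (X.rc_a3.mem_C0 (by decide +kernel)).2
  refine ⟨a3, b3, X.ρ3, ar, mem_cent_iff.1 (X.rc_b3.mem_C0 (by decide +kernel)).2, ?_⟩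
  have h := X.rc_b3.conj X.rc_a3 ⟨_, X.rc_a3.mul X.rc_ρ⟩ (by decide +kernel)
  rw [mul_inv_eq_iff_eq_mul.1 (h.eq3 (X.rc_a3.mul X.rc_ρ) (by rw [conj_pow, a3]; simp)
    (by rw [ar.mul_pow, a3, X.ρ_cube, one_mul])), mul_assoc, mul_assoc,
    (mem_cent_iff.1 (X.rc_b3.mem_C0 (by decide +kernel)).2).eq]

/-- the Sylow 3-subgroup -/
abbrev R3 : Subgroup G := X.heis.sub

theorem rc_k3 (n : ℕ) : X.RC (X.a3 ^ (n % 3) * X.b3 ^ (n / 3 % 3) * X.ρ ^ (n / 9)) (k3 n) := by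
  simp only [k3, force_eq]
  exact ((X.rc_a3.pow _).mul (X.rc_b3.pow _)).mul (X.rc_ρ.pow _)

theorem rc_R3 {g : G} (h : g ∈ X.R3) : ∃ n < 27, X.RC g (k3 n) := by
  obtain ⟨n, hn, rfl⟩ := X.heis.mem_iff.1 h
  exact ⟨n, hn, X.rc_k3 n⟩

variable {X} in
theorem RC.mem_R3 {g : G} {n : ℕ} (h : X.RC g (k3 n)) (e : g ^ 3 = 1) : g ∈ X.R3 :=
  h.eq3 (X.rc_k3 n) e (X.heis.cube ..) ▸ ⟨_, _, _, rfl⟩

theorem R3_le : X.R3 ≤ 𝒞[X.z] := fun _ h => by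
  obtain ⟨n, -, a⟩ := X.rc_R3 h
  exact mem_cent_iff.2 a.zc.symm

theorem R3_sylH : IsSylowOf 3 X.R3 𝒞[X.z] := by
  refine sylow_mk X.R3_le (pGrp_of_forall_pow Nat.prime_three (k := 1) fun _ => X.heis.pow3) ?_
  have := card_mul_relIndex X.R3_le
  rw [X.heis.card, X.card_H] at this
  omega

theorem ex_ngens : ∀ c ∈ ngens, X.Ex c := fun c hc => by
  rcases (by decide +kernel : ∀ c ∈ ngens, evalC cgens nw1 = c ∨ evalC cgens nw2 = c) c hc with e | e <;>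
    exact X.ex_of_word _ e

theorem norm_of_ngens {c : ℕ} (hc : c ∈ ngens) {n : G} (h : X.RC n c) : n ∈ 𝒩(X.R3) := mem_norm_of_forall fun g hg => by
  obtain ⟨i, hi, a⟩ := X.rc_R3 hg
  obtain ⟨j, -, e⟩ := (by decide +kernel : ∀ c ∈ ngens, ∀ i < 27, ∃ j < 27, cmul c (k3 i) = cmul (k3 j) c) c hc i hi
  exact (h.conj a ⟨_, X.rc_k3 j⟩ e).mem_R3 (by rw [conj_pow, X.heis.pow3 hg]; simp)

variable [hF : Fact X.Fu]

theorem norm_R3 : 𝒩(X.R3) ≤ 𝒞[X.z] := X.heis.norm_le.trans X.norm_ρ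

theorem R3_syl : IsSylowOf 3 X.R3 ⊤ :=
  IsSylowOf.of_norm_le X.R3_sylH Nat.prime_three le_top (inf_le_right.trans X.norm_R3)

theorem conj_a3 : IsConj X.ρ X.a3 := by
  obtain ⟨p, a, b⟩ := X.th_wd wa3
  have k : InH M24 kA3 := inM_of_chk (by decide +kernel)
  obtain ⟨m, hm⟩ := X.TH_surj k.perm_mem
  have c := (b.pow 4).conj hm
  rw [show perm kA3 * p ^ 4 * (perm kA3)⁻¹ = perm μR from perm_eq (by
    rw [← pmul_code, ← pmul_code, ← pinv_code, ← ppow_code, a, k.code_perm]; decide +kernel)] at c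
  exact (isConj_cj m).1 (isConj_of_three X.V_elem (by rw [conj_pow, X.heis.a3]; simp)
    X.ρ_cube X.th_ρ.mem (c.div X.th_ρ))

theorem conj_ρ {x : G} (h : orderOf x = 3) : IsConj X.ρ x := by
  obtain ⟨h1, h2⟩ := of_orderOf h (by norm_num)
  obtain ⟨g, -, a⟩ := sylow_Jsub Nat.prime_three X.R3_syl (Q := zpowers x)
    (pGrp_of_forall_pow Nat.prime_three (k := 1) (abelem_zpowers h1).2) le_top
  obtain ⟨i, hi, b⟩ := X.rc_R3 (a (conj_mem_conjg g (mem_zpowers x)))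
  have e : (g * x * g⁻¹) ^ 3 = 1 := by rw [conj_pow, h1]; simp
  obtain ⟨n, hn⟩ := ex_evalC X.ex_ngens (cw3.getD i [])
  have e' : (n * (g * x * g⁻¹) * n⁻¹) ^ 3 = 1 := by rw [conj_pow, e]; simp
  rw [← isConj_cj g, ← isConj_cj n]
  rcases (by decide +kernel : ∀ i < 27, k3 i = cone ∨ cmul (evalC ngens (cw3.getD i [])) (k3 i) =
    cmul cO (evalC ngens (cw3.getD i [])) ∨ cmul (evalC ngens (cw3.getD i [])) (k3 i) =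
    cmul cA3 (evalC ngens (cw3.getD i []))) i hi with c | c | c
  · exact (h2 (conj_eq_one_iff.1 ((c ▸ b).eq3 X.rc_one e (one_pow _)))).elim
  · rw [(hn.conj b ⟨_, X.rc_ρ⟩ c).eq3 X.rc_ρ e' X.ρ_cube]
  · rw [(hn.conj b ⟨_, X.rc_a3⟩ c).eq3 X.rc_a3 e' X.heis.a3]; exact X.conj_a3

theorem rc_norm_ρ {g : G} (h : g ∈ 𝒩(zpowers X.ρ)) : ∃ c, X.RC g c := by
  refine exists_rc (mem_cent_iff.1 (X.norm_ρ h)).symm ?_
  obtain ⟨k, e⟩ := mem_powers_iff_mem_zpowers.2 (conj_mem_of_mem_norm h (mem_zpowers X.ρ))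
  simp only at e
  rw [← e, pow_eq_pow_mod k X.ρ_cube]
  have := Nat.mod_lt k (show 0 < 3 by norm_num)
  rw [pow_eq_pow_mod k X.ρ_cube] at e
  interval_cases k % 3
  · exact (X.ρ_ne (conj_eq_one_iff.1 (e.symm.trans (pow_zero _)))).elim
  exacts [.inl (pow_one _), .inr rfl]

theorem im_norm_le : X.im 𝒩(X.R3) ≤ ND := fun p hp => by
  obtain ⟨g, hg, hz, rfl⟩ := X.mem_im.1 hp
  have k : ∀ i, ∃ j < 27, (sn (k3 j) = pone → sn (k3 i) = pone) ∧ ∀ u, dig (sn (k3 i)) (idx (X.π g u)) = idx (X.π g u) ↔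
      dig (sn (k3 j)) (idx u) = idx u := fun i => by
    have a := X.rc_k3 i
    obtain ⟨j, hj, b⟩ := X.rc_R3 (conj_mem_of_mem_norm' hg (show _ ∈ X.R3 from ⟨i % 3, i / 3 % 3, i / 9, rfl⟩))
    refine ⟨j, hj, ?_, fun u => ?_⟩ <;> rw [← a.code_π, ← b.code_π, X.π_mul _ _ (hz.inv_right.mul_right a.zc) hz,
      X.π_mul _ _ hz.inv_right a.zc, X.π_inv hz]
    · rw [← code_one, code_inj.eq_iff, code_inj.eq_iff, mul_assoc, inv_mul_eq_one, right_eq_mul]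
      exact id
    · rw [dig_code_idx, dig_code_idx, idx_inj.eq_iff, idx_inj.eq_iff, Perm.mul_apply, Perm.mul_apply, Perm.inv_eq_iff_eq]
  have hD := X.π_mem g hz
  refine ⟨⟨hD, ?_⟩, ?_⟩
  · obtain ⟨i, hi, -, a⟩ := k 1
    obtain ⟨j, hj, -, b⟩ := k 3
    have f := (by decide +kernel : ∀ i < 27, dig (sn (k3 i)) (idx (pt 4)) = idx (pt 4))
    have := (by decide +kernel : ∀ u < 24, dig (sn (k3 1)) u = u → dig (sn (k3 3)) u = u →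
      u = idx (pt 23) ∨ u = idx (pt 0) ∨ u = idx (pt 4)) _ (idx_lt _) ((a _).2 (f i hi)) ((b _).2 (f j hj))
    simp only [idx_inj.eq_iff] at this
    change X.π g • unmask 16 = unmask 16
    rw [show unmask 16 = {pt 4} by decide +kernel, Finset.smul_finset_singleton, Finset.singleton_inj, Perm.smul_def]
    rcases (mem_DD.1 hD).2 with ⟨c, d⟩ | ⟨d, c⟩ <;> rcases this with e | e | e
    exacts [absurd ((X.π g).injective (e.trans c.symm)) (by decide), absurd ((X.π g).injective (e.trans d.symm)) (by decide),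
      e, absurd ((X.π g).injective (e.trans c.symm)) (by decide), absurd ((X.π g).injective (e.trans d.symm)) (by decide), e]
  · refine Finset.eq_of_subset_of_card_le (fun v hv => ?_) (by simp)
    obtain ⟨u, hu, rfl⟩ := Finset.mem_smul_finset.1 hv
    by_contra c
    rw [mem_unmask] at hu c
    obtain ⟨i, -, d, e⟩ := (by decide +kernel : ∀ v < 24, ¬ Nat.testBit 1678912 v = true → ∃ i < 9, sn (k3 i) ≠ pone ∧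
      dig (sn (k3 i)) v = v) _ (idx_lt _) c
    obtain ⟨j, hj, a, b⟩ := k i
    exact d (a ((by decide +kernel : ∀ j < 27, ∀ u < 24, Nat.testBit 1678912 u = true → dig (sn (k3 j)) u = u →
      sn (k3 j) = pone) j hj _ (idx_lt u) hu ((b u).1 e)))

theorem card_norm_R3 : Nat.card 𝒩(X.R3) = 864 := by
  have a := X.card_im X.norm_R3
  have b : 𝒩(X.R3) ⊓ X.pre ⊥ = X.Z6 := le_antisymm (fun g hg => (X.rc_norm_ρ (X.heis.norm_le hg.1)).choose_spec.mem_Z6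
    hg.2.2) (le_inf (zpowers_le.2 (mul_mem (le_normalizer X.heis.r_mem) (cent_le_norm _ (mem_cent_subgroup_iff.2
      fun _ h => (mem_cent_iff.1 (X.R3_le h)).symm)))) (zpowers_le.2 (mul_mem ⟨X.zρ, X.π_ρ⟩ (X.EE_le_pre _ X.z_mem))))
  have c := (card_le_of_le X.im_norm_le).trans card_ND
  have d := chainLB_le ncert (H := X.im 𝒩(X.R3)) (gens := ngens.map sn) fun c hc => by
    obtain ⟨d, hd, rfl⟩ := List.mem_map.1 hc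
    obtain ⟨n, hn⟩ := X.ex_ngens d hd
    exact ⟨_, X.mem_im.2 ⟨n, X.norm_of_ngens hd hn, hn.zc, rfl⟩, hn.code_π⟩
  rw [show chainLB ncert (ngens.map sn) = 144 by decide +kernel] at d
  rw [b, X.card_Z6] at a
  omega

theorem s5565 (R : Sylow 3 G) (hR : (R : Subgroup G) ≤ 𝒞[X.z]) : IsExtraspecial 3 (R : Subgroup G) ∧
    Nat.card (R : Subgroup G) = 27 ∧ Monoid.exponent (R : Subgroup G) = 3 ∧ 𝒩((R : Subgroup G)) ≤ 𝒞[X.z] ∧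
    Nat.card 𝒩((R : Subgroup G)) = 864 := by
  have hS := sylow_top Nat.prime_three R
  obtain ⟨g, hg, a⟩ := sylow_Jsub Nat.prime_three X.R3_sylH hS.pGrp hR
  obtain ⟨k, -, b⟩ := sylow_Jsub Nat.prime_three hS X.R3_syl.pGrp le_top
  have e : (R : Subgroup G) = X.R3 :^ g⁻¹ := conjg_eq_iff.1 (eq_of_le_of_card_ge a (by simpa using card_le_of_le b))
  have i := (MulAut.conj g⁻¹).subgroupMap X.R3
  rw [e, ← conjg_norm, card_conjg, card_conjg]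
  refine ⟨extraspecial_congr i.symm X.heis.special.1, X.heis.card, (Monoid.exponent_eq_of_mulEquiv i).symm.trans X.heis.special.2,
    conjg_le_of_mem X.norm_R3 (inv_mem hg), X.card_norm_R3⟩

end HM

end

end CA.J4

theorem CA.J4.realizeEqnsJ4Syl3 : True := by
  have := @CA.J4.cA3.eq_1
  have := @CA.J4.cA3.eq_def
  have := @CA.J4.cA3.congr_simp
  have := @CA.J4.ND.eq_1
  have := @CA.J4.ND.eq_def
  have := @CA.J4.ND.congr_simp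
  have := @CA.J4.o22.eq_1
  have := @CA.J4.o22.eq_def
  have := @CA.J4.o22.congr_simp
  have := @CA.J4.nw2.eq_1
  have := @CA.J4.nw2.eq_def
  have := @CA.J4.nw2.congr_simp
  have := @CA.J4.ngens.eq_1
  have := @CA.J4.ngens.eq_def
  have := @CA.J4.ngens.congr_simp
  have := @CA.J4.sg21.eq_1
  have := @CA.J4.sg21.eq_def
  have := @CA.J4.sg21.congr_simp
  have := @CA.J4.cw3.eq_1
  have := @CA.J4.cw3.eq_def
  have := @CA.J4.cw3.congr_simp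
  have := @CA.J4.HM.R3.eq_1.{0}
  have := @CA.J4.HM.R3.eq_def.{0}
  have := @CA.J4.HM.R3.congr_simp.{0}
  have := @CA.J4.kA3.eq_1
  have := @CA.J4.kA3.eq_def
  have := @CA.J4.kA3.congr_simp
  have := @CA.J4.HM.a3.eq_1.{0}
  have := @CA.J4.HM.a3.eq_def.{0}
  have := @CA.J4.HM.a3.congr_simp.{0}
  have := @CA.J4.nw1.eq_1
  have := @CA.J4.nw1.eq_def
  have := @CA.J4.nw1.congr_simp
  have := @CA.J4.o280.eq_1
  have := @CA.J4.o280.eq_def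
  have := @CA.J4.o280.congr_simp
  have := @CA.J4.wb3.eq_1
  have := @CA.J4.wb3.eq_def
  have := @CA.J4.wb3.congr_simp
  have := @CA.J4.ncert.eq_1
  have := @CA.J4.ncert.eq_def
  have := @CA.J4.ncert.congr_simp
  have := @CA.J4.HM.b3.eq_1.{0}
  have := @CA.J4.HM.b3.eq_def.{0}
  have := @CA.J4.HM.b3.congr_simp.{0}
  have := @CA.J4.k3.eq_1
  have := @CA.J4.k3.eq_def
  have := @CA.J4.k3.congr_simp
  have := @CA.J4.wa3.eq_1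
  have := @CA.J4.wa3.eq_def
  have := @CA.J4.wa3.congr_simp
  have := @CA.J4.cB3.eq_1
  have := @CA.J4.cB3.eq_def
  have := @CA.J4.cB3.congr_simp
  trivial
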