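import Cfsg.Agent.J4.Ten

/-! The normaliser of the elementary abelian subgroup of order 1024. -/

set_option autoImplicit false
set_option maxRecDepth 100000
set_option linter.unusedSectionVars false

namespace CA.J4

open CA.M24 CA.Fi CA.FG Cfsg Subgroup Equiv
open scoped commutatorElement Pointwise

noncomputable section

variable {G : Type*} [Group G]

theorem two_mul_card_le [Finite G] {H K : Subgroup G} (h : H < K) : 2 * Nat.card H ≤ Nat.card K := by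
  obtain ⟨k, e⟩ := card_dvd_of_le h.le
  have := card_lt_of_lt h
  rcases k with _ | _ | k <;> nlinarith [Nat.card_pos (α := K)]

namespace HM

variable [Finite G] (X : HM G)

/-- `A` covers the vectors of the mask `m` -/
def Full (A : Subgroup G) (m : ℕ) : Prop := ∀ v < 4096, m.testBit v = true → ∃ k : ℕ, X.s v * X.z ^ k ∈ A

variable {X} in
theorem full_of {A : Subgroup G} {m : ℕ} (h : few 64 m = true) (h1 : 64 ≤ (X.SF A).card)
    (h2 : ∀ v ∈ X.SF A, m.testBit v = true) : X.Full A m := fun v hv e => by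
  by_contra c
  have n : v ∉ X.SF A := fun a => c (X.mem_SF.1 a).2
  have := card_le_of_few h (S := insert v (X.SF A)) fun w hw => by
    rcases Finset.mem_insert.1 hw with rfl | a
    exacts [e, h2 w a]
  rw [Finset.card_insert_of_notMem n] at this
  omega

variable [hF : Fact X.Fu]

theorem card_cent_V {a : G} (h : a ∈ 𝒩(X.V)) (h1 : a ∉ X.V) (h2 : a * a = 1) : Nat.card ↥(X.V ⊓ 𝒞[a]) ≤ 128 := by
  obtain ⟨p, hp⟩ := X.exists_TH h
  obtain ⟨k, hk, e⟩ := conj_qAB hp.inM (hp.sq h2) fun e => h1 (e ▸ hp).mem_V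
  obtain ⟨m, hm⟩ := X.TH_surj hk
  have c := hp.conj hm
  rw [← card_conjg _ m, conjg_inf, conjg_of_mem_norm hm.mem, conjg_cent1, ← SetLike.coe_sort_coe, Nat.card_coe_set_eq,
    ncard_sumR (fun _ a _ b => X.ev_inj a b) _ (fun x => Nat.beq (act (code (k * p * k⁻¹)) x) x) (fun _ a => a.1)
      fun n hn => by rw [beq_iff, ← c.fix hn]; exact ⟨fun a => (mem_cent_iff.1 a.2).symm,
        fun a => ⟨X.ev_mem hn, mem_cent_iff.2 a.symm⟩⟩]
  rcases e with e | e <;> rw [e]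
  · rw [qA_in.code_perm]; decide +kernel
  · rw [qB_in.code_perm]; decide +kernel

theorem le_V_of_W {A : Subgroup G} (hA : A ≤ X.T) (h : IsElementaryAbelian 2 A) (hc : 1024 ≤ Nat.card A)
    (h1 : ∀ c ∈ X.SR A, c ∈ ucL) (h2 : ∀ v ∈ X.SF A, FM0.testBit v = true) (h3 : 64 ≤ Nat.card ↥(A ⊓ X.EE)) :
    A ≤ X.V := by
  have c1 : ∀ a ∈ A, ∀ b ∈ A, Commute a b := fun a ha b hb => congrArg Subtype.val (h.1.1.1 ⟨a, ha⟩ ⟨b, hb⟩)
  have hz : ∀ a ∈ A, Commute X.z a := fun a ha => (mem_cent_iff.1 (X.T_le (hA ha))).symm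
  have l : A ⊓ X.EE ≤ X.V ⊓ X.EE := fun g hg => by
    obtain ⟨v, hv, k, rfl⟩ := hg.2
    obtain ⟨x, -, rfl⟩ := FM0_spec hv (h2 v (X.mem_SF.2 ⟨hv, k, hg.1⟩))
    exact ⟨mul_mem (X.s_W x) (pow_mem X.z_mem_V _), hg.2⟩
  have w := X.abel_le (B := X.V ⊓ X.EE) inf_le_right fun a ha b hb => X.V_comm ha.1 hb.1
  have k : ∀ a ∈ A, a ∉ X.V → ∀ x, X.s (ap mW x) ∉ A →
      a * X.s (ap mW x) * a⁻¹ = X.s (ap mW x) * X.z := fun a ha n x hx => by
    have e : A ⊓ X.EE = X.V ⊓ X.EE ⊓ 𝒞[a] := by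
      refine eq_of_le_of_card_ge (le_inf l fun g hg => mem_cent_iff.2 (c1 g hg.1 a ha)) ?_
      have := two_mul_card_le (lt_of_le_of_ne (inf_le_left (a := X.V ⊓ X.EE) (b := 𝒞[a])) fun e => n (cent_W (hz a ha)
        fun x => (mem_cent_iff.1 (e.ge ⟨X.s_W x, X.s_mem (ap_lt _ _)⟩).2).symm))
      omega
    obtain ⟨v, c, r, t⟩ := X.rq_T (hA ha)
    obtain ⟨j, hj, rfl⟩ := (by decide +kernel : ∀ c ∈ ucL, ∃ j < 16, c = uc j) c (h1 c (X.mem_SR.2 ⟨t, a, ha, v, r⟩))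
    have f := r.act (ap_lt mW x)
    rw [uc_fix hj] at f
    rcases X.z_cases _ with g | g <;> rw [g] at f
    · exact (hx (e.ge ⟨⟨X.s_W x, X.s_mem (ap_lt _ _)⟩, mem_cent_iff.2
        (conj_eq_iff_commute.1 (f.trans (mul_one _))).symm⟩).1).elim
    · exact f
  intro a ha
  by_contra n
  have b := (card_le_of_le (show A ⊓ X.V ≤ X.V ⊓ 𝒞[a] from fun g hg => ⟨hg.2, mem_cent_iff.2 (c1 g hg.1 a ha)⟩)).trans
    (X.card_cent_V (X.T_le_norm (hA ha)) n (by rw [← pow_two, h.2 a ha]))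
  have d : A ≤ A ⊓ X.V ⊔ zpowers a := fun g hg => by
    by_cases m : g ∈ X.V
    · exact mem_sup_left ⟨hg, m⟩
    refine (mul_mem_cancel_left (mem_sup_right (mem_zpowers a))).1 (mem_sup_left ⟨mul_mem ha hg,
      cent_W ((hz a ha).mul_right (hz g hg)) fun x => ?_⟩)
    by_cases o : X.s (ap mW x) ∈ A
    · exact c1 _ (mul_mem ha hg) _ o
    · rw [← conj_eq_iff_commute, show ∀ u, a * g * u * (a * g)⁻¹ = a * (g * u * g⁻¹) * a⁻¹ from fun u => by group,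
        k g hg m x o, cjm, k a ha n x o, conj_eq_iff_commute.2 (hz a ha).symm, mul_assoc, X.z_sq, mul_one]
  have d1 := Nat.le_of_dvd (Nat.mul_pos Nat.card_pos Nat.card_pos) (card_sup_dvd (H := A ⊓ X.V) (K := zpowers a)
    (.inl (norm_zpowers_of_cent fun g hg => mem_cent_iff.2 (c1 g hg.1 a ha))))
  have d2 := card_le_of_le d
  have d3 : Nat.card (zpowers a) ≤ 2 := by rw [Nat.card_zpowers]; exact orderOf_le_of_pow_eq_one two_pos (h.2 a ha)
  nlinarith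

theorem cl10 {A : Subgroup G} (hA : A ≤ 𝒞[X.z]) (h : IsElementaryAbelian 2 A) (hc : 1024 ≤ Nat.card A) :
    ∃ g, Commute X.z g ∧ (A :^ g ≤ X.V ∨ X.Full (A :^ g) FM1) := by
  obtain ⟨g, hg, hA⟩ := sylow_Jsub Nat.prime_two X.T_sylH (elem_pGrp h) hA
  suffices A :^ g ≤ X.V ∨ X.Full (A :^ g) FM1 ∨ X.Full (A :^ g) FM2 by
    have hg := (mem_cent_iff.1 hg).symm
    rcases this with a | a | a
    exacts [⟨g, hg, .inl a⟩, ⟨g, hg, .inr a⟩, ⟨X.xu 0 * g, (X.rc_xu (by norm_num)).zc.mul_right hg, .inr fun v hv e => by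
      have c := allV (by decide +kernel : allP (fun v => bimp (tb FM1 v) (force (ap (fs (uc (2 ^ 0))) v) fun w =>
        band (tb FM2 w) (Nat.beq (ap (fs (uc (2 ^ 0))) w) v))) 12 0 = true) hv
      simp only [bimp_eq_true, tb_eq_true, force_eq, band_eq_true, beq_iff] at c
      obtain ⟨k, b⟩ := a _ (ap_lt _ _) (c e).1
      have := conj_mem_conjg (X.xu 0) b
      rw [← conjg_mul, cjm, (X.rc_xu (by norm_num)).act (ap_lt _ _), (c e).2, (X.rc_xu (by norm_num)).zk, mul_assoc,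
        ← pow_add] at this
      exact ⟨_, this⟩⟩]
  have h := elem_conjg h g
  rw [← card_conjg A g] at hc
  generalize A :^ g = A at *
  have c1 : ∀ a ∈ A, ∀ b ∈ A, Commute a b := fun a ha b hb => congrArg Subtype.val (h.1.1.1 ⟨a, ha⟩ ⟨b, hb⟩)
  have c2 := ci_SR (X := X) c1 fun a ha => by rw [← pow_two, h.2 a ha]
  have h1 := X.card_le_SR hA
  have h2 := X.card_le_SF A
  have h3 := X.abel_le (B := A ⊓ X.EE) inf_le_right fun a ha b hb => c1 a ha.1 b hb.1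
  have h4 := c2.card_le
  have h5 : 17 ≤ (X.SF A).card := by
    by_contra a
    have b := c2.five (by nlinarith)
    have := card_le_of_few (n := 2) (x := 2 ^ 2835 + 1) (by decide +kernel) (S := X.SF A) fun v hv => by
      obtain ⟨d, e⟩ := fix_SF c1 v hv
      have c := allV (by decide +kernel : allP (fun v => bimp (allL (fun d => Nat.beq (ap (fs d) v) v) G5)
        (tb (2 ^ 2835 + 1) v)) 12 0 = true) d
      simp only [bimp_eq_true, allL_eq_true, beq_iff, tb_eq_true] at c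
      exact c fun u hu => e u (b ▸ List.mem_toFinset.2 ((by decide +kernel : ∀ d ∈ G5, d ∈ cone :: B5) u hu))
    nlinarith
  obtain ⟨p, hp, a, b⟩ := c2.pair (fix_SF c1) h5 (by nlinarith)
  have h6 : (X.SR A).card ≤ p.1.length :=
    (Finset.card_le_card fun c hc => List.mem_toFinset.2 (a c hc)).trans (List.toFinset_card_le _)
  simp only [List.mem_cons, List.not_mem_nil, or_false] at hp
  rcases hp with rfl | rfl | rfl
  · change _ ≤ 16 at h6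
    exact .inl (X.le_V_of_W hA h hc a b (by nlinarith))
  · change _ ≤ 8 at h6
    exact .inr (.inl (full_of (by decide +kernel) (by nlinarith) b))
  · change _ ≤ 8 at h6
    exact .inr (.inr (full_of (by decide +kernel) (by nlinarith) b))

theorem A0_le : X.A0 ≤ 𝒞[X.z] := fun _ h => mem_cent_iff.2 (X.A0_comm h X.z_A0)

/-- conjugacy of the self-centralising elementary abelian subgroups inside the centraliser -/
theorem conj10 {A : Subgroup G} (hA : A ≤ 𝒞[X.z]) (h : IsElementaryAbelian 2 A) (hc : 1024 ≤ Nat.card A)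
    (hc' : Nat.card 𝒞(A) ≤ 1024) : ∃ g, Commute X.z g ∧ A = X.A0 :^ g := by
  have k : ∀ {A : Subgroup G} {g}, Nat.card 𝒞(A) ≤ 1024 → ¬ A :^ g ≤ X.V := fun {A g} a b => by
    have := card_le_of_le (X.cent_V.ge.trans (cent_anti b))
    rw [← conjg_cent, card_conjg, X.card_V] at this
    omega
  obtain ⟨g, hg, a⟩ := X.cl10 hA h hc
  obtain ⟨u, hu, b⟩ := X.cl10 X.A0_le X.A0_elem X.card_A0.ge
  have a := a.resolve_left (k hc')
  have b := b.resolve_left (k (by rw [X.cent_A0, X.card_A0]))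
  have c : ∀ {A : Subgroup G} {g}, IsElementaryAbelian 2 A → ∀ a ∈ A :^ g, ∀ b ∈ A :^ g, Commute a b :=
    fun {A g} h a ha b hb => congrArg Subtype.val ((elem_conjg h g).1.1.1 ⟨a, ha⟩ ⟨b, hb⟩)
  refine ⟨g⁻¹ * u, hg.inv_right.mul_right hu, ?_⟩
  rw [conjg_mul, ← conjg_eq_iff]
  refine eq_of_le_of_card_ge (le_trans (fun y hy => mem_cent_subgroup_iff.2 ?_)
    (conjg_cent _ u ▸ conjg_mono u X.cent_A0E)) (by simpa [X.card_A0] using hc)
  rw [conjg_inf, conjg_of_mem_norm (X.norm_EE hu)]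
  rintro _ ⟨d, w, hw, j, rfl⟩
  have e := allV (by decide +kernel : allP (fun w => bimp (allL (fun v => Nat.beq (bb w v) 0)
    [53, 74, 394, 648, 1029, 2065]) (tb FM1 w)) 12 0 = true) hw
  simp only [bimp_eq_true, allL_eq_true, beq_iff, tb_eq_true] at e
  obtain ⟨i, f⟩ := a w hw (e fun v hv => by
    obtain ⟨v1, v2⟩ := (by decide +kernel : ∀ v ∈ [53, 74, 394, 648, 1029, 2065], v < 4096 ∧ FM1.testBit v = true) v hv
    obtain ⟨i, f⟩ := b v v1 v2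
    exact (X.sz_comm hw v1 _ _).1 (c X.A0_elem _ d _ f))
  have z := (mem_cent_iff.1 (conjg_le_of_mem hA (mem_cent_iff.2 hg.symm) hy))
  simpa [mul_assoc] using ((c h _ hy _ f).mul_right (z.pow_right i).inv_right).mul_right (z.pow_right j)

theorem conj10' {A : Subgroup G} (h : IsElementaryAbelian 2 A) (hc : Nat.card A = 2 ^ 10) (hc' : 𝒞(A) = A) :
    ∃ g, A = X.A0 :^ g := by
  obtain ⟨g, -, e⟩ := sylow_Jsub Nat.prime_two X.T_syl (elem_pGrp h) le_top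
  obtain ⟨u, -, a⟩ := X.conj10 (e.trans X.T_le) (elem_conjg h g) (by simp [hc]) (by simp [← conjg_cent, hc', hc])
  exact ⟨g⁻¹ * u, by rw [conjg_mul, ← a, conjg_inv_cancel]⟩

theorem orbit_A0 : {y | ∃ c ∈ 𝒩(X.A0), c * X.z * c⁻¹ = y} = {y | y ∈ X.A0 ∧ IsConj X.z y} :=
  Set.ext fun _ => ⟨fun ⟨c, hc, e⟩ => e ▸ ⟨conj_mem_of_mem_norm hc X.z_A0, isConj_iff.2 ⟨c, rfl⟩⟩, fun H => by
    obtain ⟨g, rfl⟩ := isConj_iff.1 H.2
    obtain ⟨u, hu, e⟩ := X.conj10 (A := X.A0 :^ g⁻¹) (fun y hy => mem_cent_iff.2 (by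
      have := X.A0_comm (mem_conjg.1 hy) H.1
      rwa [inv_inv, commute_conj_iff] at this)) (elem_conjg X.A0_elem _) (by simp [X.card_A0])
      (by simp [← conjg_cent, X.cent_A0, X.card_A0])
    refine ⟨g * u, conjg_eq_self_iff.1 (by rw [conjg_mul, ← e, conjg_cancel_inv]), ?_⟩
    rw [show g * u * X.z * (g * u)⁻¹ = g * (u * X.z * u⁻¹) * g⁻¹ by group, conj_eq_iff_commute.2 hu.symm]⟩

theorem ncard_orbit_A0 : {y | ∃ c ∈ 𝒩(X.A0), c * X.z * c⁻¹ = y}.ncard = 155 := by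
  rw [X.orbit_A0, ncard_sumR (fun _ a _ b => X.α_inj a b) _ Dc (fun _ a => a.1) fun n hn =>
    (and_iff_right (X.α_mem hn)).trans (X.Dc_iff hn)]
  decide +kernel

theorem card_P5 : Nat.card ↥(X.A0 ⊔ X.CP) = 1024 * 322560 := by
  rw [card_sup_of_inf_eq_bot (.inr X.CP_le) X.A0_inf_CP, X.card_A0, X.card_CP]

open Matrix in
theorem exists_θ5 : Nat.card 𝒩(X.A0) = 1024 * 9999360 ∧ ∃ θ : 𝒩(X.A0) →* SL5, Function.Surjective θ ∧
    θ.ker = X.A0.subgroupOf _ ∧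
    ∀ (n : 𝒩(X.A0)) u v, n * X.α (wv u v) * (n : G)⁻¹ = X.α (wv ((θ n).1 *ᵥ u) ((θ n).1 *ᵥ v)) := by
  obtain ⟨θ, h1, h2⟩ := exists_SL5 (A := X.A0) (fun _ => Iff.rfl) (fun _ a _ b => X.α_xor a b)
    (fun _ a _ b => X.α_inj a b) fun x hx y hy e => Bool.eq_iff_iff.2 (by
      rw [← X.Dc_iff hx, ← X.Dc_iff hy]; exact ⟨fun a => a.trans e.symm, fun a => a.trans e⟩)
  rw [X.cent_A0] at h2
  have h3 := θ.ker.card_mul_index
  rw [index_ker, h2, card_subgroupOf le_normalizer, X.card_A0] at h3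
  have h4 := ncard_conj 𝒩(X.A0) X.z
  have h5 := card_dvd_of_le (sup_le le_normalizer X.CP_le)
  have h6 := card_le_card_group θ.range
  rw [X.ncard_orbit_A0] at h4
  rw [X.card_P5, ← h3, Nat.mul_dvd_mul_iff_left (by norm_num)] at h5
  rw [card_SL5] at h6
  have h7 := Nat.le_of_dvd Nat.card_pos (Nat.Coprime.mul_dvd_of_dvd_of_dvd (by norm_num) h5
    (show 31 ∣ Nat.card θ.range by omega))
  exact ⟨by omega, θ, MonoidHom.range_eq_top.1 (eq_top_of_le_card _ (card_SL5.trans_le h7)), h2, h1⟩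

theorem trans_A0 {x : ℕ} (hx : x < 1024) (h : ¬ Dc x = true) (h0 : x ≠ 0) :
    ∃ g ∈ 𝒩(X.A0), g * X.α x * g⁻¹ = X.α 33 := by
  obtain ⟨θ, h1, -, h2⟩ := X.exists_θ5.2
  obtain ⟨n, e⟩ := h1 (Matrix.SpecialLinearGroup.transvection (show (4 : Fin 5) ≠ 3 by decide) 1)
  have k : ∀ x < 1024, aroot x = 194 → ∃ g ∈ 𝒩(X.A0), g * X.α x * g⁻¹ = X.α 194 := fun x hx a => a ▸ X.acls hx
  obtain ⟨u, hu, a⟩ := k (wv (cv 1) (cv 2) ^^^ wv (cv 4) (cv 24)) (by decide +kernel) (by decide +kernel)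
  have l : ∀ u v, wv u v < 1024 := fun _ _ => wc_lt _ _
  have b : n * X.α 33 * (n : G)⁻¹ = X.α (wv (cv 1) (cv 2) ^^^ wv (cv 4) (cv 24)) := by
    rw [show 33 = wv (cv 1) (cv 2) ^^^ wv (cv 4) (cv 8) by decide +kernel, X.α_xor (l _ _) (l _ _),
      X.α_xor (l _ _) (l _ _), cjm, h2, h2, e]
    congr 3 <;> decide +kernel
  obtain ⟨g, hg, c⟩ := X.acls hx
  simp only [aroot, bif'_eq, beq_iff, h, h0, if_false, Bool.false_eq_true] at c
  split_ifs at c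
  · exact ⟨g, hg, c⟩
  · refine ⟨(u * n)⁻¹ * g, mul_mem (inv_mem (mul_mem hu n.2)) hg, ?_⟩
    rw [show ∀ y, (u * n)⁻¹ * g * y * ((u * n)⁻¹ * g)⁻¹ = (u * n)⁻¹ * (g * y * g⁻¹) * (u * n) from fun y => by group, c,
      ← a, ← b]
    group

theorem ncard_orbit_A0' : {y | ∃ c ∈ 𝒩(X.A0), c * X.α 33 * c⁻¹ = y}.ncard = 868 := by
  have t3 := (X.cls_A0 (x := 33) (by norm_num)).2 (by decide +kernel) (by norm_num)
  rw [ncard_sumR (fun _ a _ b => X.α_inj a b) _ (fun x => band (bnot (Dc x)) (bne' x 0))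
    (fun _ a => by obtain ⟨c, hc, rfl⟩ := a; exact conj_mem_of_mem_norm hc (X.α_mem (by norm_num))) fun n hn => ?_]
  · decide +kernel
  rw [band_eq_true, bnot_eq_true, bne'_eq_true]
  refine ⟨fun ⟨c, _, e⟩ => ?_, fun a => ?_⟩
  · have := e ▸ (isConj_cj c).2 t3
    exact ⟨fun b => X.not_conj_t (((X.Dc_iff hn).2 b).trans this.symm), fun b => X.t_ne (by simpa [b, X.α_zero] using this)⟩
  · obtain ⟨g, hg, e⟩ := X.trans_A0 hn a.1 a.2
    exact ⟨g⁻¹, inv_mem hg, by rw [← e]; group⟩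

theorem irr_A0 {W : Subgroup G} (h : W ≤ X.A0) (hn : 𝒩(X.A0) ≤ 𝒩(W)) : W = ⊥ ∨ W = X.A0 := by
  refine or_iff_not_imp_left.2 fun h0 => le_antisymm h ?_
  obtain ⟨w, hw, w1⟩ := exists_mem_ne_one h0
  obtain ⟨x, hx, rfl⟩ := h hw
  have k : ∀ y < 1024, Dc y = true → X.α y ∈ W := by
    by_cases d : Dc x = true
    · intro y hy e
      obtain ⟨a, ha, b⟩ := X.orbit_A0.ge ⟨X.α_mem hx, (X.Dc_iff hx).2 d⟩
      obtain ⟨c, hc, f⟩ := X.orbit_A0.ge ⟨X.α_mem hy, (X.Dc_iff hy).2 e⟩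
      exact f ▸ conj_mem_of_mem_norm (hn hc) (conj_mem_conjg_iff.1 ((conjg_of_mem_norm (hn ha)).ge (b ▸ hw)))
    · obtain ⟨a, ha, b⟩ := X.trans_A0 hx d fun e => w1 (e ▸ X.α_zero)
      have m : ∀ y < 1024, ¬ Dc y = true → X.α y ∈ W := fun y hy e => by
        rcases eq_or_ne y 0 with rfl | y0
        · exact X.α_zero ▸ one_mem _
        obtain ⟨c, hc, f⟩ := X.trans_A0 hy e y0
        exact conj_mem_conjg_iff.1 ((conjg_of_mem_norm (hn hc)).ge (f ▸ b ▸ conj_mem_of_mem_norm (hn ha) hw))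
      intro y hy e
      have c := all10 (by decide +kernel : allP (fun y => anyL (fun u => band (bnot (Dc u)) (bnot (Dc (Nat.xor y u))))
        [33, 194, 18, 12]) 10 0 = true) hy
      simp only [anyL_eq_true, band_eq_true, bnot_eq_true] at c
      obtain ⟨u, hu, c1, c2⟩ := c
      have hu : u < 1024 := (by decide : ∀ u ∈ [33, 194, 18, 12], u < 1024) u hu
      rw [← Nat.xor_xor_cancel_right y u, X.α_xor (xor_lt10 hy hu) hu]
      exact mul_mem (m _ (xor_lt10 hy hu) c2) (m u hu c1)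
  rintro _ ⟨y, hy, rfl⟩
  exact xor_induction (n := 10) (fun y => X.α y ∈ W) (X.α_zero ▸ one_mem _) (fun a b ha hb h1 h2 =>
    X.α_xor ha hb ▸ mul_mem h1 h2) (fun i hi => k _ (Nat.pow_lt_pow_right (by norm_num) hi : _ < 2 ^ 10)
      ((by decide +kernel : ∀ i < 10, Dc (2 ^ i) = true) i hi)) y hy

theorem split_A0 : ∃ B ≤ 𝒩(X.A0), B ⊓ X.A0 = ⊥ ∧ B ⊔ X.A0 = 𝒩(X.A0) ∧ Nonempty (B ≃* SL5) := by
  obtain ⟨c, θ, h1, h2, -⟩ := X.exists_θ5
  obtain ⟨K, a, b, d⟩ := gaschutz le_rfl X.A0_elem.1 le_sup_left (sup_le le_normalizer X.CP_le) le_sup_right X.A0_inf_CP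
    (fun t ht => by
      obtain ⟨v, hv, c, hc, rfl⟩ := (mem_sup_of_right_le_norm X.CP_le).1 ht
      exact ⟨c, hc, by simpa using hv⟩) fun v hv => by
      have := card_mul_relIndex (sup_le le_normalizer X.CP_le)
      rw [X.card_P5, c] at this
      rw [show (X.A0 ⊔ X.CP).relIndex 𝒩(X.A0) = 2 * 15 + 1 by omega, pow_succ, pow_mul, X.A0_elem.2 v hv, one_pow, one_mul]
  refine ⟨K, a, b, d, ⟨MulEquiv.ofBijective (θ.comp (inclusion a)) ((Nat.bijective_iff_injective_and_card _).2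
    ⟨(injective_iff_map_eq_one _).2 fun k e => Subtype.ext (mem_bot.1 (b.le ⟨k.2, h2.le e⟩)), ?_⟩)⟩⟩
  have := card_sup_of_inf_eq_bot (.inl a) b
  rw [d, c, X.card_A0] at this
  rw [card_SL5]
  omega

include hF in
theorem s5570 : (∃ A : Subgroup G, IsElementaryAbelian 2 A ∧ Nat.card A = 2 ^ 10 ∧ 𝒞(A) = A) ∧
    (∀ A A' : Subgroup G, IsElementaryAbelian 2 A → Nat.card A = 2 ^ 10 → 𝒞(A) = A → IsElementaryAbelian 2 A' →
      Nat.card A' = 2 ^ 10 → 𝒞(A') = A' → ∃ g : G, A' = A :^ g) ∧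
    ∀ A : Subgroup G, IsElementaryAbelian 2 A → Nat.card A = 2 ^ 10 → 𝒞(A) = A →
      (∃ B : Subgroup G, B ≤ 𝒩(A) ∧ B ⊓ A = ⊥ ∧ B ⊔ A = 𝒩(A) ∧ Nonempty (B ≃* SL5)) ∧
      ∀ W : Subgroup G, W ≤ A → 𝒩(A) ≤ 𝒩(W) → W = ⊥ ∨ W = A := by
  refine ⟨⟨_, X.A0_elem, X.card_A0, X.cent_A0⟩, fun A A' a b c d e f => ?_, fun A a b c => ?_⟩
  · obtain ⟨g, rfl⟩ := X.conj10' a b c
    obtain ⟨k, rfl⟩ := X.conj10' d e f
    exact ⟨k * g⁻¹, by rw [← conjg_mul, inv_mul_cancel_right]⟩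
  obtain ⟨g, rfl⟩ := X.conj10' a b c
  obtain ⟨B, h1, h2, h3, ⟨e⟩⟩ := X.split_A0
  refine ⟨⟨B :^ g, conjg_norm _ g ▸ conjg_mono g h1, by rw [← conjg_inf, h2, conjg_bot], by rw [← conjg_sup, h3, conjg_norm],
    ⟨((MulAut.conj g).subgroupMap B).symm.trans e⟩⟩, fun W h hn => ?_⟩
  obtain ⟨W, rfl⟩ : ∃ U, W = U :^ g := ⟨W :^ g⁻¹, (conjg_cancel_inv _ _).symm⟩
  rw [← conjg_norm, ← conjg_norm, conjg_le_conjg] at hn
  rcases X.irr_A0 (conjg_le_conjg.1 h) hn with rfl | rfl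
  exacts [.inl (conjg_bot _), .inr rfl]

include hF in
theorem s5571 {A : Subgroup G} (h : IsElementaryAbelian 2 A) (hc : Nat.card A = 2 ^ 10) (hc' : 𝒞(A) = A) :
    ∃ a b : G, a ∈ A ∧ b ∈ A ∧ Set.ncard {v : G | ∃ n ∈ 𝒩(A), n * a * n⁻¹ = v} = 155 ∧
    Set.ncard {v : G | ∃ n ∈ 𝒩(A), n * b * n⁻¹ = v} = 868 := by
  obtain ⟨g, rfl⟩ := X.conj10' h hc hc'
  rw [← conjg_norm]
  exact ⟨_, _, conj_mem_conjg g X.z_A0, conj_mem_conjg g (X.α_mem (by norm_num)),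
    (ncard_orb_conjg _ _ _).trans X.ncard_orbit_A0, (ncard_orb_conjg _ _ _).trans X.ncard_orbit_A0'⟩

end HM

end

end CA.J4

theorem CA.J4.realizeEqnsJ4Ten2 : True := by
  have := @CA.J4.HM.Full.eq_1.{0}
  have := @CA.J4.HM.Full.eq_def.{0}
  have := @CA.J4.HM.Full.congr_simp.{0}
  trivial
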