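import Cfsg.Agent.J4.Ten2
import Cfsg.Agent.J4.Syl3

/-! The normaliser of the pure eight-group. -/

set_option autoImplicit false
set_option maxRecDepth 100000
set_option linter.unusedSectionVars false

namespace CA.J4

open CA.M24 CA.Fi CA.FG Cfsg Subgroup Equiv
open scoped commutatorElement Pointwise

noncomputable section

def ZV : List ℕ := [0, 1544, 2723, 3243]
def aB : List ℕ := [1, 2, 20, 32, 68, 128, 260, 524, 1028, 2060]
def c5L : List ℕ := [nat_lit 984818244535754528103549039458486304, nat_lit 979195862507891866293590871258532032, nat_lit 963457096096553444398940006424610944, nat_lit 981633780026632481370269506751007040, nat_lit 957358197851292270490534270266869984]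
def O5 : List ℕ := [8536111, 9506893, 10486557, 13370381, 8431757]
def c7 : ℕ := nat_lit 718138775691198088200526146966716535
def lW : List (List ℕ) := [[], [1, 0, 0, 0, 2, 1, 0, 1, 0, 2, 1, 0, 2, 1, 0, 0, 0, 2, 1], [2, 1, 1, 1, 0, 2, 1, 1, 0, 1], [1, 0, 0, 1, 1, 1, 0, 0, 0, 2, 1, 0, 0, 0, 2, 1, 1, 0, 3, 3], [0, 0, 2, 1, 1, 0, 1, 0, 0, 1, 1, 1, 0, 0, 0, 2, 1, 0, 3], [0, 1, 1, 1, 0, 2, 1, 1, 0, 1, 0, 2], [0, 1, 0, 1, 0, 1, 1, 0, 1, 0, 0, 0, 0, 1, 0, 1, 0, 3, 3], [2, 0, 0, 1, 0, 1, 1, 0, 1, 1, 0, 0, 0, 2, 1, 0, 1, 1, 3, 3], [1, 0, 0, 0, 0, 0, 1, 1, 0, 1, 1, 0, 0, 1], [2, 0, 2, 1, 0, 0, 0, 1, 0, 0, 1, 0, 0, 0, 1, 1, 3, 3], [2, 1, 1, 0, 1, 0, 0, 0, 0, 1, 0, 2, 1, 0, 1, 1, 0, 0, 3], [0, 2, 1, 0, 0, 0, 0, 2, 1, 0, 0, 1, 1, 1, 0, 1, 0, 3, 3], [0, 0, 0, 1, 0, 0, 1, 0, 0, 0, 2, 1, 1, 0, 2, 1, 3, 3], [1, 0, 0, 0, 2, 1, 0, 0, 1, 0, 0, 2, 1, 0], [1, 0, 0, 0, 0, 0, 1, 1, 0, 1, 1, 0, 1, 1, 0, 1], [0, 0, 0, 1, 0, 0, 1, 1, 0, 0,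 0, 1, 0, 1, 1, 0, 0, 0, 3]]
def L16 : List ℕ := [nat_lit 14823196894653652415146669414780848695537838543044284345601110906110107797522464, nat_lit 1694233875095833654088941769267591754270024968794186724899670410586393324652704, nat_lit 1340031221031163272101198419306598087579145655177084256658015046803352619944480, nat_lit 15425296736297773650648944410242306447779208169239405221886798537450346403432896, nat_lit 17632043471721155818361428012151329197573674839131888166864514055742034035181728, nat_lit 6397892745957963825276840252487121972427394314849232883490359086602592826001952, nat_lit 21967295849074271092989763157629239846175901832853479962410509954658164524812736, nat_lit 2295671637410279476384988035211250744288885103384459452938355092376152586684864, nat_lit 2165548156960506192716119740740632284333296666498653122527883643996254182148128, nat_lit 21865835138324949039201165182570038878812901221363252093166640955497077625948192,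 nat_lit 1267518421298430912258151639373990267229815206233336128183928642538488396351648, nat_lit 1824359149784425531438424731188621336488303353191327968466400760856211452168736, nat_lit 5370736143259407570608041661266230198212690179105395185194814931053619566446624, nat_lit 18073542575809210158694812647664857573154943994228425454475531538905519835154592, nat_lit 5914072785462908960760817298554352944679520103950918784560341801881389923142176, nat_lit 5016531584715670289499669699364329562434525214978977748730600556224608696633792]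

open Matrix Multiplicative

abbrev SL3 : Type := SpecialLinearGroup (Fin 3) (ZMod 2)
abbrev F53 : Type := Perm (Fin 5) × SL3

theorem card_SL3 : Nat.card SL3 = 168 :=
  (one_mul _).symm.trans ((Cfsg.Agent.Lin.card_SL (ZMod.card 2) 3 (by norm_num)).trans (by decide +kernel))

theorem card_S5 : Nat.card (Perm (Fin 5)) = 120 := by rw [Nat.card_perm, Nat.card_fin]; rfl

theorem card_F53 : Nat.card F53 = 20160 := by rw [Nat.card_prod, card_SL3, card_S5]

theorem SL3_two {N : Subgroup SL3} (hn : N.Normal) (h : IsPGroup 2 N) : N = ⊥ := by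
  have h3 : center SL3 = ⊥ := card_eq_one.1 (Cfsg.Agent.Lin.card_center_SL_fin (ZMod.card 2) 3 (by norm_num))
  have := ((QuotientGroup.quotientMulEquivOfEq h3).trans QuotientGroup.quotientBot).isSimpleGroup_congr.1
    (Cfsg.Agent.Lin.isSimpleGroup_PSL (by simp))
  refine (hn.eq_bot_or_eq_top).resolve_right fun e => ?_
  have := Fact.mk Nat.prime_two
  obtain ⟨n, e'⟩ := IsPGroup.iff_card.1 h
  rw [e, card_top, card_SL3] at e'
  exact absurd (Nat.prime_three.dvd_of_dvd_pow (e' ▸ (by norm_num : 3 ∣ 168))) (by norm_num)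

/-- the block embedding of matrices -/
def emb35 (M : Matrix (Fin 3) (Fin 3) (ZMod 2)) : Matrix (Fin (3 + 2)) (Fin (3 + 2)) (ZMod 2) :=
  reindex finSumFinEquiv finSumFinEquiv (fromBlocks M 0 0 1)

theorem emb35_mul (M N) : emb35 (M * N) = emb35 M * emb35 N := by
  rw [emb35, emb35, emb35, reindex_apply, reindex_apply, reindex_apply, submatrix_mul_equiv, fromBlocks_multiply]
  simp

theorem emb35_fix (M) (u : V5) (i : Fin 2) : (emb35 M *ᵥ u) (Fin.natAdd 3 i) = u (Fin.natAdd 3 i) := by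
  rw [emb35, reindex_apply, submatrix_mulVec_equiv, fromBlocks_mulVec, Function.comp_apply,
    finSumFinEquiv_symm_apply_natAdd]
  simp only [zero_mulVec, one_mulVec, zero_add, Sum.elim_inr]
  rfl

/-- the block embedding -/
def ι35 : SL3 →* SL5 := MonoidHom.mk' (fun M => ⟨emb35 M.1, by
  rw [emb35, det_reindex_self, det_fromBlocks_zero₂₁, M.2, det_one, mul_one]⟩) fun M N => Subtype.ext (emb35_mul M.1 N.1)

theorem ι35_inj : Function.Injective ι35 := fun M N e => by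
  have : emb35 M.1 = emb35 N.1 := congrArg Subtype.val e
  exact Subtype.ext (fromBlocks_inj.1 ((reindex _ _).injective this)).1

variable {G : Type*} [Group G]

theorem exists_SL3 (ε : Multiplicative (Fin 3 → ZMod 2) →* G) (hε : Function.Injective ε) :
    ∃ α : 𝒩(ε.range) →* SL3, α.ker = (𝒞(ε.range)).subgroupOf _ := by
  choose f hf using fun (l : 𝒩(ε.range)) (a : Fin 3 → ZMod 2) =>
    conj_mem_of_mem_norm l.2 (show ε (ofAdd a) ∈ ε.range from ⟨_, rfl⟩)
  let F (l) := (AddMonoidHom.mk' (fun a => toAdd (f l a)) fun a b => congrArg toAdd (hε (by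
    rw [hf, ofAdd_add, map_mul, ← conj_mul, ← hf, ← hf, ← map_mul]; rfl))).toZModLinearMap 2
  have h1 : ∀ (l : 𝒩(ε.range)) a, l * ε (ofAdd a) * (l : G)⁻¹ = ε (ofAdd (LinearMap.toMatrix' (F l) *ᵥ a)) := fun l a => by
    rw [LinearMap.toMatrix'_mulVec, ← hf]; rfl
  let β : 𝒩(ε.range) →* Matrix (Fin 3) (Fin 3) (ZMod 2) :=
    { toFun := fun l => LinearMap.toMatrix' (F l)
      map_one' := mulVec_injective (funext fun a => ofAdd.injective (hε (by rw [← h1]; simp)))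
      map_mul' := fun l m => mulVec_injective (funext fun a => ofAdd.injective (hε (by
        rw [← h1, ← mulVec_mulVec, ← h1, ← h1]
        erw [coe_mul]
        group))) }
  refine ⟨MonoidHom.mk' (fun l => ⟨β l, ((by decide : ∀ c : ZMod 2, c = 0 ∨ c = 1) _).resolve_left
    ((isUnit_iff_isUnit_det _).1 ((Group.isUnit l).map β)).ne_zero⟩) fun l m => Subtype.ext (map_mul β l m),
    Subgroup.ext fun l => ⟨fun H => mem_cent_subgroup_iff.2 ?_, fun H => Subtype.ext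
      (mulVec_injective (funext fun a => ofAdd.injective (hε ?_)))⟩⟩
  · rintro _ ⟨a, rfl⟩
    have := h1 l (toAdd a)
    rw [show LinearMap.toMatrix' (F l) = 1 from congrArg Subtype.val H] at this
    exact conj_eq_iff_commute.1 (this.trans (by simp))
  · exact (h1 l a).symm.trans ((conj_eq_iff_commute.2 (mem_cent_subgroup_iff.1 H _ ⟨_, rfl⟩)).trans (by simp))

theorem card_norm_ge [Finite G] {F : Type*} [Group F] {φ : G →* F} (h : Function.Surjective φ) {p : ℕ} (hp : p.Prime)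
    {P : Subgroup G} (hP : IsSylowOf p P ⊤) :
    Nat.card 𝒩(P.map φ) * Nat.card ↥(φ.ker ⊓ 𝒩(P)) ≤ Nat.card 𝒩(P) := by
  have := Finite.of_surjective φ h
  rw [← card_map_mul_card_inf_ker 𝒩(P) φ]
  refine Nat.mul_le_mul_right _ (card_le_of_le fun f hf => ?_)
  obtain ⟨m, rfl⟩ := h f
  obtain ⟨x, hx, n, hn, rfl⟩ := frattini_arg_mem hp (K := (P.map φ).comap φ) (hP.of_le (le_comap_map _ _) le_top)
    (mem_norm_of_forall fun x hx => by simpa using conj_mem_of_mem_norm hf hx : m ∈ _)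
  rw [map_mul]
  exact mul_mem (map_mono le_normalizer hx) (mem_map_of_mem _ hn)

theorem norm_F53 {p : ℕ} (hp : p = 5 ∨ p = 7) {P : Subgroup F53} (h : Nat.card P = p) :
    (if p = 5 then 3360 else 2520) ≤ Nat.card 𝒩(P) := by
  have pp : p.Prime := by rcases hp with rfl | rfl <;> norm_num
  have h0 := card_mul_relIndex (le_top (a := P))
  have h1 := sylow_count pp (sylow_mk le_top (pGrp_of_card_eq_pow (k := 1) pp (by rw [h, pow_one])) (by
    rw [card_top, card_F53, h] at h0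
    rcases hp with rfl | rfl <;> omega))
  have h2 := card_mul_relIndex (le_top (a := 𝒩(P)))
  have h3 := card_dvd_of_le (le_normalizer (H := P))
  have k : ∀ x ∈ P, x.1 ^ p = 1 ∧ x.2 ^ p = 1 := fun x hx => Prod.ext_iff.1 (congrArg Subtype.val
    (h ▸ pow_card_eq_one' (x := (⟨x, hx⟩ : P))))
  rw [card_top, card_F53] at h2
  rw [h] at h3
  have : 840 ∣ Nat.card 𝒩(P) := by
    rcases hp with rfl | rfl
    · have := card_dvd_of_le (show (MonoidHom.inr (Perm (Fin 5)) SL3).range ≤ 𝒩(P) from norm_of_cent (by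
        rintro _ ⟨b, rfl⟩ x hx
        have := pow_gcd_eq_one.2 ⟨(k x hx).2, card_SL3 ▸ pow_card_eq_one'⟩
        exact Prod.ext (by simp) (by simp [show x.2 = 1 by simpa using this])))
      rw [← Nat.card_congr (MonoidHom.ofInjective fun _ _ e => (Prod.ext_iff.1 e).2).toEquiv, card_SL3] at this
      exact Nat.Coprime.mul_dvd_of_dvd_of_dvd (by norm_num) h3 this
    · have := card_dvd_of_le (show (MonoidHom.inl (Perm (Fin 5)) SL3).range ≤ 𝒩(P) from norm_of_cent (by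
        rintro _ ⟨b, rfl⟩ x hx
        have := pow_gcd_eq_one.2 ⟨(k x hx).1, card_S5 ▸ pow_card_eq_one'⟩
        exact Prod.ext (by simp [show x.1 = 1 by simpa using this]) (by simp)))
      rw [← Nat.card_congr (MonoidHom.ofInjective fun _ _ e => (Prod.ext_iff.1 e).1).toEquiv, card_S5] at this
      exact Nat.Coprime.mul_dvd_of_dvd_of_dvd (by norm_num) h3 this
  obtain ⟨n, e⟩ := this
  rw [e] at h2 ⊢
  generalize (𝒩(P)).relIndex ⊤ = i at *
  have h4 : n * i = 24 := by nlinarith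
  have h5 := Nat.le_of_dvd (by norm_num) (Dvd.intro_left _ h4)
  unfold Nat.ModEq at h1
  rcases hp with rfl | rfl <;> interval_cases i <;> simp_all <;> omega

/-- the coordinates of the members of the eight-group -/
def c3 (a : Fin 3 → ZMod 2) : ℕ := (a 0).val + 2 * (a 1).val + 8 * (a 2).val

theorem c3_lt : ∀ a, c3 a < 64 ∧ ap m6 (c3 a) < 128 ∧ ap mW (ap m6 (c3 a)) ∈ ZV := by decide +kernel
theorem ZV_lt : ∀ v ∈ ZV, v < 4096 ∧ qq v = 0 := by decide +kernel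

theorem subset_of_land {a b : ℕ} (h : Nat.land a b = a) : unmask a ⊆ unmask b := fun x hx => by
  rw [mem_unmask, ← h] at hx
  exact mem_unmask.2 (Bool.and_eq_true_iff.1 ((Nat.testBit_and _ _ _).symm.trans hx)).2

/-- the stabiliser of the two pairs -/
def SD : Subgroup (Perm Pt) := DD ⊓ MulAction.stabilizer (Perm Pt) (unmask 12)

theorem card_SD : 3840 ≤ Nat.card SD := by
  have h := card_eq_orb_mul DD (unmask 12)
  have := Set.ncard_le_ncard (show orb DD (unmask 12) ⊆ (Finset.powersetCard 2 (unmask 8388609)ᶜ : Finset _) by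
    rintro _ ⟨g, hg, rfl⟩
    refine Finset.mem_coe.2 (Finset.mem_powersetCard.2 ⟨?_, by rw [Finset.card_smul_finset]; decide +kernel⟩)
    rw [← show g • unmask 8388609 = unmask 8388609 from hg.2, Finset.subset_compl_iff_disjoint_right,
      Finset.disjoint_iff_inter_eq_empty, ← Finset.smul_finset_inter,
      show unmask 12 ∩ unmask 8388609 = ∅ by decide +kernel, Finset.smul_finset_empty])
  rw [Set.ncard_coe_finset, Finset.card_powersetCard, Finset.card_compl, card_Pt,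
    show (unmask 8388609).card = 2 by decide +kernel] at this
  rw [card_DD] at h
  unfold SD
  change _ ≤ 231 at this
  nlinarith

theorem c5L_in {i : ℕ} (hi : i < 5) : InH SD (getL c5L 0 i) ∧ mapp (getL c5L 0 i) O0 = getL O5 0 i := by
  obtain ⟨a, b, c⟩ := (by decide +kernel : ∀ i < 5, chkD (getL c5L 0 i) = true ∧ mapp (getL c5L 0 i) 12 = 12 ∧
    mapp (getL c5L 0 i) O0 = getL O5 0 i) i hi
  refine ⟨inH_inf_stab setC (inD_of_chk a) trivial ?_, c⟩
  change mapp _ (mask (unmask 12)) = mask (unmask 12)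
  rwa [mask_unmask (by norm_num)]

theorem tb_dig {p : Perm Pt} {m i : ℕ} (hm : m < 2 ^ 24) (hi : i < 24) (h : mapp (code p) m = m)
    (e : m.testBit i = true) : m.testBit (dig (code p) i) = true := by
  rw [← mask_unmask hm, mapp_code, mask_inj.eq_iff] at h
  rw [dig_code p hi, ← mem_unmask, ← h]
  exact Finset.smul_mem_smul_finset (mem_unmask.2 (by rwa [idx_pt hi]))

theorem mem_L16 {p : Perm Pt} (hp : p ∈ Spor.M22) (h1 : mapp (code p) 12 = 12) (h2 : ∀ o ∈ O5, mapp (code p) o = o) :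
    ∃ d ∈ L16, sn d = code p := by
  obtain ⟨a, b, c⟩ := mem_M22'.1 hp
  have b := dig_of_apply (by norm_num) (by norm_num) b
  have c := dig_of_apply (by norm_num) (by norm_num) c
  have k := (by decide +kernel : allR (fun a => bimp (tb 12 a) (allR (fun b => bimp (tb 12 b) (allR (fun x => bimp (tb O0 x)
    (enumG 23 0 2 3 1 23 0 a b x fun p => bimp (Nat.beq (dig p 23) 23) (bimp (Nat.beq (dig p 0) 0)
      (bimp (Nat.beq (mapp p 12) 12) (bimp (allL (fun o => Nat.beq (mapp p o) o) O5)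
        (anyL (fun d => Nat.beq (sn d) p) L16)))))) 24)) 24)) 24 = true)
  simp only [allR_eq_true, bimp_eq_true, tb_eq_true] at k
  simpa [b, c, h1] using bimp_eq_true.1 (bimp_eq_true.1 (bimp_eq_true.1 (bimp_eq_true.1 (enumG_spec
    (k _ (dig_code_lt p (i := 2) (by norm_num)) (tb_dig (by norm_num) (by norm_num) h1 rfl)
      _ (dig_code_lt p (i := 3) (by norm_num)) (tb_dig (by norm_num) (by norm_num) h1 rfl)
      _ (dig_code_lt p (i := 1) (by norm_num)) (tb_dig (by decide) (by norm_num) (h2 _ (by decide)) (by decide)))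
    (by decide) (by decide) a b c rfl rfl rfl) (beq_iff.2 b)) (beq_iff.2 c)) (beq_iff.2 h1))
    (allL_eq_true.2 fun o ho => beq_iff.2 (h2 o ho))

theorem L16_spec {c : ℕ} (h : c ∈ L16) : cmul c c = cone ∧ ((∀ a ∈ aB, ap (fs c) a = a) → c = cone) ∧
    (∀ i < 3, ap (fs (cmul (cpow cO i) c)) 1544 = 1544 → cmul (cpow cO i) c = c) ∧
    ∀ v < 4096, (∀ w ∈ ZV, bb v w = 0) → v ^^^ ap (fs c) v ∈ ZV := by
  have k := allL_eq_true.1 (by decide +kernel : allL (fun c => band (Nat.beq (cmul c c) cone)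
    (band (bimp (allL (fun a => Nat.beq (ap (fs c) a) a) aB) (Nat.beq c cone))
    (band (allR (fun i => force (cmul (cpow cO i) c) fun d => bimp (Nat.beq (ap (fs d) 1544) 1544) (Nat.beq d c)) 3)
    (force (fs c) fun m => allP (fun v => bimp (allL (fun w => Nat.beq (bb v w) 0) ZV)
      (memL (Nat.xor v (ap m v)) ZV)) 12 0)))) L16 = true) c h
  simp only [band_eq_true, beq_iff, bimp_eq_true, allL_eq_true, allR_eq_true, force_eq] at k
  refine ⟨k.1, k.2.1, k.2.2.1, fun v hv e => ?_⟩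
  have := allV k.2.2.2 hv
  simp only [beq_iff, bimp_eq_true, allL_eq_true, memL_eq_true] at this
  exact this e

namespace HM

variable [Finite G] (X : HM G) [hF : Fact X.Fu]

/-- the parametrisation of the eight-group -/
def ε : Multiplicative (Fin 3 → ZMod 2) →* G := MonoidHom.mk' (fun a => X.α (c3 (toAdd a))) fun a b => by
  rw [← X.α_xor ((c3_lt _).1.trans (by norm_num)) ((c3_lt _).1.trans (by norm_num))]
  exact congrArg X.α ((by decide +kernel : ∀ a b, c3 (a + b) = c3 a ^^^ c3 b) _ _)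

theorem ε_inj : Function.Injective X.ε := fun a b e => toAdd.injective ((by decide +kernel : ∀ a b, c3 a = c3 b → a = b)
  _ _ (X.α_inj ((c3_lt _).1.trans (by norm_num)) ((c3_lt _).1.trans (by norm_num)) e))

/-- the eight-group -/
abbrev ZZ : Subgroup G := X.ε.range

theorem card_ZZ : Nat.card X.ZZ = 8 := by
  rw [← Nat.card_congr (MonoidHom.ofInjective X.ε_inj).toEquiv]; simp

theorem ε_eq (a) : X.ε a = X.ev (ap m6 (c3 (toAdd a))) := X.α_low (c3_lt _).1

theorem mem_ZZ {g : G} : g ∈ X.ZZ ↔ ∃ v ∈ ZV, ∃ k : ℕ, g = X.s v * X.z ^ k := by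
  refine ⟨fun ⟨a, e⟩ => ⟨_, (c3_lt (toAdd a)).2.2, _, by rw [← e, X.ε_eq, X.ev_W (c3_lt _).2.1]⟩, ?_⟩
  rintro ⟨v, hv, k, rfl⟩
  obtain ⟨a, b, c⟩ := (by decide +kernel : ∀ v ∈ ZV, ∀ j < 2, ∃ a, ap mW (ap m6 (c3 a)) = v ∧ b6 (ap m6 (c3 a)) = j)
    v hv (k % 2) (Nat.mod_lt _ (by norm_num))
  exact ⟨ofAdd a, by rw [X.ε_eq, toAdd_ofAdd, X.ev_W (c3_lt _).2.1, b, c, X.zmod (Nat.mod_mod _ _)]⟩

theorem s_ZZ {v : ℕ} (h : v ∈ ZV) : X.s v ∈ X.ZZ := X.mem_ZZ.2 ⟨v, h, 0, by simp⟩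
theorem z_ZZ : X.z ∈ X.ZZ := X.mem_ZZ.2 ⟨0, by decide, 1, by simp [X.s_zero]⟩
theorem ZZ_le_V : X.ZZ ≤ X.V := fun _ ⟨_, e⟩ => e ▸ X.ε_eq _ ▸ X.ev_mem (m6_lt _)
theorem ZZ_le_EE : X.ZZ ≤ X.EE := fun _ h => by
  obtain ⟨v, hv, e⟩ := X.mem_ZZ.1 h
  exact ⟨v, (ZV_lt v hv).1, e⟩
theorem zc_ZZ {g : G} (h : g ∈ 𝒞(X.ZZ)) : Commute X.z g := (mem_cent_subgroup_iff.1 h _ X.z_ZZ).symm

theorem pre_SD : X.pre SD ≤ 𝒩(X.ZZ) := fun g hg => mem_norm_of_forall fun x hx => by
  obtain ⟨w, hw, k, rfl⟩ := X.mem_ZZ.1 hx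
  obtain ⟨v, c, h⟩ := exists_rq hg.1
  have l := (ZV_lt w hw).1
  rw [cjm, h.act l, conj_eq_iff_commute.2 (hg.1.pow_left k).symm, mul_assoc, ← pow_add]
  refine X.mem_ZZ.2 ⟨_, ?_, _, rfl⟩
  rcases (by decide +kernel : ∀ w ∈ ZV, w = 0 ∨ gm w = mask (unmask 12)) w hw with rfl | e
  · rw [ap_zero]; exact hw
  have a := h.ex.gm_ap l
  rw [e, ← h.code_π, mapp_code, show X.π g • unmask 12 = unmask 12 from hg.2.2, mask_unmask (by norm_num)] at a
  simpa [a] using allV (by decide +kernel : allP (fun v => bimp (Nat.beq (gm v) 12) (memL v ZV)) 12 0 = true)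
    (ap_lt (fs c) w)

theorem trans_ZZ {y : G} (hy : y ∈ X.ZZ) (h1 : y ≠ 1) : ∃ c ∈ 𝒩(X.ZZ), c * X.z * c⁻¹ = y := by
  have i := inM_of_chk (show chk c7 = true by decide +kernel)
  obtain ⟨g, hg⟩ := X.TH_surj i.perm_mem
  have n : g ∈ 𝒩(X.ZZ) := mem_norm_of_forall fun _ ⟨a, e⟩ => by
    obtain ⟨b, f⟩ := (by decide +kernel : ∀ a, ∃ b, ap m6 (c3 b) = act c7 (ap m6 (c3 a))) (toAdd a)
    exact ⟨ofAdd b, by rw [← e, X.ε_eq, X.ε_eq, hg.act (m6_lt _), i.code_perm, toAdd_ofAdd, f]⟩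
  have k : ∀ j, (act c7)^[j] 64 < 2048 ∧ ∃ c ∈ 𝒩(X.ZZ), c * X.z * c⁻¹ = X.ev ((act c7)^[j] 64) := fun j => by
    induction j with
    | zero => exact ⟨by norm_num, 1, one_mem _, by simp [X.ev_64]⟩
    | succ j ih =>
      obtain ⟨l, c, hc, e⟩ := ih
      rw [Function.iterate_succ_apply']
      exact ⟨act_lt _ _, g * c, mul_mem n hc, by
        have := hg.act l
        rw [i.code_perm] at this
        rw [← this, ← e]; group⟩
  obtain ⟨a, rfl⟩ := hy
  rcases (by decide +kernel : ∀ a, a = 0 ∨ ∃ j < 7, (act c7)^[j] 64 = ap m6 (c3 a)) (toAdd a) with e | ⟨j, -, e⟩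
  · exact (h1 (by rw [show a = 1 from e, map_one])).elim
  · exact X.ε_eq a ▸ e ▸ (k j).2

theorem card_N_ge : 32768 * 20160 ≤ Nat.card 𝒩(X.ZZ) := by
  have h1 := ncard_conj 𝒩(X.ZZ) X.z
  have h2 := Set.ncard_le_ncard (show (X.ZZ : Set G) \ {1} ⊆ {y | ∃ c ∈ 𝒩(X.ZZ), c * X.z * c⁻¹ = y} from
    fun y hy => X.trans_ZZ hy.1 hy.2)
  have h3 := card_le_of_le (le_inf X.pre_SD ((X.pre_mono inf_le_left).trans X.pre_DD.le))
  rw [Set.ncard_diff_singleton_of_mem (one_mem _), ← Nat.card_coe_set_eq, SetLike.coe_sort_coe, X.card_ZZ] at h2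
  rw [X.card_pre (K := SD) inf_le_left] at h3
  nlinarith [card_SD]

theorem five : ∃ h : ℕ → G, (∀ i < 5, h i ∈ X.pre SD ∧ X.π (h i) • unmask O0 = unmask (getL O5 0 i)) ∧
    ∀ A, X.IsV A → X.ZZ ≤ A → ∃ i < 5, A = X.V :^ h i := by
  choose! h c h1 h2 using fun i (hi : i < 5) => exists_lift (X := X) (c5L_in hi).1.perm_mem.1
  have h3 : ∀ i < 5, X.π (h i) • unmask O0 = unmask (getL O5 0 i) := fun i hi => by
    rw [← (c5L_in hi).2, ← (c5L_in hi).1.code_perm, ← h2 i hi, ← mask_O0, mapp_code, unmask_mask, unmask_mask]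
  refine ⟨h, fun i hi => ⟨⟨(h1 i hi).zc, h2 i hi ▸ (c5L_in hi).1.perm_mem⟩, h3 i hi⟩, fun A hA a => ?_⟩
  obtain ⟨g, hg, rfl⟩ := X.conj_V_H (fun u hu => mem_cent_iff.2 (hA.comm hu (a X.z_ZZ))) hA.elem hA.card.ge
  obtain ⟨v, d, b⟩ := exists_rq hg.inv_right
  obtain ⟨x, hx, e⟩ := mem_conjg.1 (a (X.s_ZZ (v := 1544) (by decide)))
  have e1 := b.act (w := 1544) (by norm_num)
  rw [inv_inv, ← e] at e1
  have e2 := b.ex.gm_ap (v := 1544) (by norm_num)
  rw [← (Rq.unique (w := ap (fs d) 1544) (X.vv_ev hx) (e1 ▸ (X.rq_s (ap_lt _ _)).mulz _)).1, show gm 1544 = mask (unmask 12) by decide +kernel,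
    ← b.code_π, mapp_code, X.π_inv hg, mW_mod] at e2
  have e3 := subset_of_land ((by decide +kernel : ∀ x < 64, Nat.land (gm (ap mW x)) O0 = gm (ap mW x)) _
    (Nat.mod_lt x (by norm_num)))
  rw [e2, unmask_mask, ← Finset.subset_smul_finset_iff] at e3
  have e4 : unmask 8388609 ⊆ X.π g • unmask O0 := (show X.π g • unmask 8388609 = unmask 8388609 from
    (X.π_mem g hg).2) ▸ Finset.smul_finset_subset_smul_finset (by decide +kernel)
  have e5 := forall_octads (by decide +kernel : octT.all (fun o => bimp (Nat.beq (Nat.land 8388621 o) 8388621)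
    (anyR (fun i => Nat.beq o (getL O5 0 i)) 5)) = true) (smul_mem_octads (DD_le (X.π_mem g hg)) O0_mem)
  simp only [bimp_eq_true, beq_iff, anyR_eq_true] at e5
  obtain ⟨i, hi, e5⟩ := e5 (by
    rw [show 8388621 = mask (unmask 8388609 ∪ unmask 12) by decide +kernel, ← mask_inter,
      Finset.inter_eq_left.2 (Finset.union_subset e4 e3)])
  have z := (h1 i hi).zc
  refine ⟨i, hi, conjg_eq_conjg_iff.2 (X.Y_le_norm ⟨z.inv_right.mul_right hg, X.π_mem _ (z.inv_right.mul_right hg), ?_⟩)⟩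
  change X.π _ • unmask O0 = unmask O0
  rw [X.π_mul _ _ z.inv_right hg, X.π_inv z, mul_smul, inv_smul_eq_iff, h3 i hi, ← e5, unmask_mask]

/-- the special subgroup -/
def LL : Subgroup G := 𝒞(X.ZZ) ⊓ ⨅ A : {A // X.IsV A ∧ X.ZZ ≤ A}, 𝒩(A.1)

theorem mem_LL {g : G} : g ∈ X.LL ↔ g ∈ 𝒞(X.ZZ) ∧ ∀ A, X.IsV A → X.ZZ ≤ A → g ∈ 𝒩(A) := by
  rw [LL, mem_inf, mem_iInf, Subtype.forall]; simp only [and_imp]

theorem EE_LL : X.EE ⊓ 𝒞(X.ZZ) ≤ X.LL := fun g hg => X.mem_LL.2 ⟨hg.2, fun A hA a => by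
  obtain ⟨h, h1, h2⟩ := X.five
  obtain ⟨i, hi, rfl⟩ := h2 A hA a
  rw [← conjg_norm, mem_conjg]
  exact X.Y_le_norm (X.EE_le_pre _ (conj_mem_of_mem_norm' (X.norm_EE (h1 i hi).1.1) hg.1))⟩

theorem s_LL {v : ℕ} (h : v ∈ aB) : X.s v ∈ X.LL := by
  obtain ⟨a, b⟩ := (by decide +kernel : ∀ v ∈ aB, v < 4096 ∧ ∀ w ∈ ZV, bb v w = 0) v h
  refine X.EE_LL ⟨X.s_mem a, mem_cent_subgroup_iff.2 fun y hy => ?_⟩
  obtain ⟨w, hw, k, rfl⟩ := X.mem_ZZ.1 hy
  simpa using (X.sz_comm a (ZV_lt w hw).1 0 k).2 (b w hw)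

theorem rq_LL {g : G} (hg : g ∈ X.LL) : ∃ v c, X.Rq g v c ∧ c ∈ L16 ∧ ∀ w ∈ ZV, bb v w = 0 := by
  obtain ⟨g1, g2⟩ := X.mem_LL.1 hg
  have z := X.zc_ZZ g1
  obtain ⟨v, c, h⟩ := exists_rq z
  have f : ∀ w ∈ ZV, ap (fs c) w = w ∧ bb v w = 0 := fun w hw => by
    obtain ⟨a, b⟩ := h.fix (k := 0) (ZV_lt w hw).1 (by simpa using mem_cent_subgroup_iff.1 g1 _ (X.s_ZZ hw))
    have := bb_lt v w
    rw [(ZV_lt w hw).2] at b
    exact ⟨a, by omega⟩
  have s : sg (code (X.π g)) = 0 := by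
    obtain ⟨n, hn⟩ := h.ex
    have e := congrArg (fun d => ap (fs d) 1544) ((hn.mul X.rc_ρ).unique
      (mul_inv_eq_iff_eq_mul.1 hn.ρc ▸ (X.rc_ρ.pow _).mul hn))
    simp only [RC.fs_cmul _ _ hn X.rc_ρ, RC.fs_cmul _ _ (X.rc_ρ.pow _) hn, ap_mm _ _ (show 1544 < 4096 by norm_num),
      show ap (fs cO) 1544 = 2723 by decide +kernel, (f 1544 (by decide)).1, (f 2723 (by decide)).1] at e
    exact h.code_π ▸ (by decide +kernel : ∀ j < 2, 2723 = ap (fs (cpow cO (1 + j))) 1544 → j = 0) _ (sg_lt _) e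
  have b := (sg_code _).1 s
  obtain ⟨k, h1, -⟩ := X.five
  obtain ⟨d, hd, e⟩ := mem_L16 (p := X.π g) (by
    obtain ⟨a, ⟨-, d1⟩ | ⟨d1, -⟩⟩ := mem_DD.1 (X.π_mem g z)
    exacts [mem_M22'.2 ⟨a, b, d1⟩, absurd (b.symm.trans d1) (by decide)]) (by
    have := h.ex.gm_ap (v := 1544) (by norm_num)
    rw [(f 1544 (by decide)).1, show gm 1544 = 12 by decide +kernel] at this
    rw [h.code_π, ← this]) fun o ho => by
    obtain ⟨i, hi, rfl, l⟩ := (by decide : ∀ o ∈ O5, ∃ i < 5, o = getL O5 0 i ∧ o < 2 ^ 24) o ho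
    obtain ⟨a1, a2⟩ := h1 i hi
    have a3 := g2 _ (X.isV.conjg (k i)) (conjg_of_mem_norm (X.pre_SD a1) ▸ conjg_mono _ X.ZZ_le_V)
    rw [← conjg_norm, mem_conjg] at a3
    have a4 : X.π _ • unmask O0 = unmask O0 := (X.norm_inf_le ((a1.1.inv_right.mul_right z).mul_right a1.1) a3).2.2
    rw [X.π_mul _ _ (a1.1.inv_right.mul_right z) a1.1, X.π_mul _ _ a1.1.inv_right z, X.π_inv a1.1, mul_smul, mul_smul,
      inv_smul_eq_iff, a2] at a4
    rw [← mask_unmask l, mapp_code, a4]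
  obtain ⟨w, -, rfl⟩ := List.mem_map.1 ((by decide +kernel : L16 = lW.map (evalC cgens)) ▸ hd)
  obtain ⟨i, hi, e⟩ := h.ex.eq_of_sn (X.ex_of_word w rfl) (h.code_π.symm.trans e.symm)
  exact ⟨v, c, h, by rwa [e, (L16_spec hd).2.2.1 i hi (e ▸ (f 1544 (by decide)).1)], fun w hw => (f w hw).2⟩

theorem sq_LL {g : G} (hg : g ∈ X.LL) : g * g ∈ X.ZZ := by
  obtain ⟨v, c, h, a, b⟩ := X.rq_LL hg
  obtain ⟨k, e⟩ := Rq.eq_of_cone ((L16_spec a).1 ▸ h.mul h)
  exact X.mem_ZZ.2 ⟨_, (L16_spec a).2.2.2 v h.lt b, k, e⟩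

theorem norm_LL : 𝒩(X.ZZ) ≤ 𝒩(X.LL) := fun n hn => mem_norm_of_forall fun g hg => by
  obtain ⟨g1, g2⟩ := X.mem_LL.1 hg
  refine X.mem_LL.2 ⟨conj_mem_of_mem_norm (norm_cent le_rfl hn) g1, fun A hA a => ?_⟩
  rw [← mem_conjg_inv, conjg_norm]
  exact g2 _ (hA.conjg _) (conjg_of_mem_norm (inv_mem hn) ▸ conjg_mono _ a)

theorem der_LL : ⁅X.LL, X.LL⁆ = X.ZZ := by
  refine le_antisymm (commutator_le.2 fun a ha b hb => ?_) fun y hy => ?_
  · rw [show ⁅a, b⁆ = a * a * (a⁻¹ * b * (a⁻¹ * b)) * (b * b)⁻¹ by rw [commutatorElement_def]; group]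
    exact mul_mem (mul_mem (X.sq_LL ha) (X.sq_LL (mul_mem (inv_mem ha) hb))) (inv_mem (X.sq_LL hb))
  rcases eq_or_ne y 1 with rfl | h
  · exact one_mem _
  obtain ⟨c, hc, rfl⟩ := X.trans_ZZ hy h
  refine conj_mem_of_mem_norm (norm_comm X.norm_LL X.norm_LL hc) ?_
  have := commutator_mem_commutator (X.s_LL (v := 1) (by decide)) (X.s_LL (v := 2) (by decide))
  rwa [commutatorElement_def, X.s_conj (by norm_num) (by norm_num), ← X.sz, mul_inv_cancel_right,
    show bb 1 2 = 1 by decide +kernel, pow_one] at this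

theorem cen_LL {r : G} (hr : r ∈ X.LL) : (∀ q ∈ X.LL, Commute r q) ↔ r ∈ X.ZZ := by
  refine ⟨fun H => ?_, fun H q hq => (mem_cent_subgroup_iff.1 (X.mem_LL.1 hq).1 r H).symm⟩
  obtain ⟨v, c, h, a, -⟩ := X.rq_LL hr
  have f := fun w hw => h.fix (k := 0) ((by decide : ∀ v ∈ aB, v < 4096) w hw) (by simpa using H _ (X.s_LL hw))
  obtain rfl := (L16_spec a).2.1 fun w hw => (f w hw).1
  obtain ⟨k, e⟩ := h.eq_of_cone
  have c := allV (by decide +kernel : allP (fun v => bimp (allL (fun w => Nat.beq (bb v w) 0) aB) (memL v ZV)) 12 0 = true)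
    h.lt
  simp only [beq_iff, bimp_eq_true, allL_eq_true, memL_eq_true] at c
  refine X.mem_ZZ.2 ⟨v, c fun w hw => ?_, k, e⟩
  have := (f w hw).2
  have := bb_lt v w
  rw [sn_cone, sg_pone] at *
  omega

theorem LL_four {g : G} (hg : g ∈ X.LL) : g ^ 2 ^ 2 = 1 := by
  rw [pow_two, pow_mul, pow_two, pow_two, X.V_sq (X.ZZ_le_V (X.sq_LL hg))]

theorem card_LL_le : Nat.card X.LL ≤ 32768 := by
  have h1 := X.card_im (K := X.LL) fun g hg => mem_cent_iff.2 (X.zc_ZZ (X.mem_LL.1 hg).1).symm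
  have h2 := X.es.card_mul_card_cent X.ZZ_le_EE X.z_ZZ
  have h3 := card_le_of_le (show X.LL ⊓ X.pre ⊥ ≤ X.EE ⊓ 𝒞(X.ZZ) from fun g hg =>
    ⟨X.mem_EE_of_pow hg.2.1 hg.2.2 (X.LL_four hg.1), (X.mem_LL.1 hg.1).1⟩)
  have h4 : Nat.card (X.im X.LL) ≤ 16 := by
    classical
    rw [← SetLike.coe_sort_coe, Nat.card_coe_set_eq]
    refine (Set.ncard_le_ncard (t := (L16.map fun c => perm (sn c)).toFinset) fun p hp => ?_).trans ?_
    · obtain ⟨g, hg, -, rfl⟩ := X.mem_im.1 hp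
      obtain ⟨v, c, h, a, -⟩ := X.rq_LL hg
      exact Finset.mem_coe.2 (List.mem_toFinset.2 (List.mem_map.2 ⟨c, a, (perm_eq h.code_π).symm⟩))
    · rw [Set.ncard_coe_finset]; exact List.toFinset_card_le _
  rw [X.card_ZZ, X.card_EE] at h2
  nlinarith

theorem exists_φ : Nat.card X.LL = 32768 ∧ ∃ φ : 𝒩(X.ZZ) →* F53, Function.Surjective φ ∧ φ.ker = X.LL.subgroupOf _ ∧
    ∀ n, (φ n).2 = 1 → n.1 ∈ 𝒞(X.ZZ) := by
  obtain ⟨α, h1⟩ := exists_SL3 X.ε X.ε_inj
  obtain ⟨k, -, h2⟩ := X.five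
  choose f f1 f2 using fun A : {A // X.IsV A ∧ X.ZZ ≤ A} => h2 A.1 A.2.1 A.2.2
  let β : 𝒩(X.ZZ) →* Perm {A // X.IsV A ∧ X.ZZ ≤ A} := MonoidHom.toHomPerm
    { toFun := fun n A => ⟨A.1 :^ n, A.2.1.conjg _, (conjg_of_mem_norm n.2).ge.trans (conjg_mono _ A.2.2)⟩
      map_one' := funext fun A => Subtype.ext (conjg_one _)
      map_mul' := fun m n => funext fun A => Subtype.ext (conjg_mul _ _ _) }
  let φ := ((Perm.viaEmbeddingHom ⟨fun A => (⟨f A, f1 A⟩ : Fin 5), fun A B e =>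
    Subtype.ext (by rw [f2 A, f2 B, Fin.mk.inj e])⟩).comp β).prod α
  have h3 : φ.ker = X.LL.subgroupOf _ := Subgroup.ext fun n => by
    rw [MonoidHom.ker_prod, mem_inf, h1, MonoidHom.mem_ker, MonoidHom.comp_apply,
      map_eq_one_iff _ (Perm.viaEmbeddingHom_injective _), mem_subgroupOf, mem_subgroupOf, X.mem_LL, and_comm]
    exact and_congr_right fun _ => ⟨fun e A a b => conjg_eq_self_iff.1 (congrArg Subtype.val (Perm.ext_iff.1 e ⟨A, a, b⟩)),
      fun e => Perm.ext fun A => Subtype.ext (conjg_eq_self_iff.2 (e _ A.2.1 A.2.2))⟩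
  have h4 := φ.ker.card_mul_index
  have h5 := card_le_card_group φ.range
  have h6 := X.card_N_ge
  have h7 := X.card_LL_le
  rw [index_ker, h3, card_subgroupOf (show X.LL ≤ _ from inf_le_left.trans (cent_le_norm _))] at h4
  rw [card_F53] at h5
  exact ⟨by nlinarith, φ, MonoidHom.range_eq_top.1 (eq_top_of_le_card _ (by rw [card_F53]; nlinarith)), h3,
    fun n e => h1.le e⟩

end HM

end

end CA.J4

theorem CA.J4.realizeEqnsJ4Tri : True := by
  have := @CA.J4.L16.eq_1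
  have := @CA.J4.L16.eq_def
  have := @CA.J4.L16.congr_simp
  have := @CA.J4.SD.eq_1
  have := @CA.J4.SD.eq_def
  have := @CA.J4.SD.congr_simp
  have := @CA.J4.c5L.eq_1
  have := @CA.J4.c5L.eq_def
  have := @CA.J4.c5L.congr_simp
  have := @CA.J4.c7.eq_1
  have := @CA.J4.c7.eq_def
  have := @CA.J4.c7.congr_simp
  have := @CA.J4.lW.eq_1
  have := @CA.J4.lW.eq_def
  have := @CA.J4.lW.congr_simp
  have := @CA.J4.ZV.eq_1
  have := @CA.J4.ZV.eq_def
  have := @CA.J4.ZV.congr_simp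
  have := @CA.J4.HM.LL.eq_1.{0}
  have := @CA.J4.HM.LL.eq_def.{0}
  have := @CA.J4.HM.LL.congr_simp.{0}
  have := @CA.J4.aB.eq_1
  have := @CA.J4.aB.eq_def
  have := @CA.J4.aB.congr_simp
  have := @CA.J4.c3.eq_1
  have := @CA.J4.c3.eq_def
  have := @CA.J4.c3.congr_simp
  have := @CA.J4.ι35.eq_1
  have := @CA.J4.ι35.eq_def
  have := @CA.J4.ι35.congr_simp
  have := @CA.J4.emb35.eq_1
  have := @CA.J4.emb35.eq_def
  have := @CA.J4.emb35.congr_simp
  have := @CA.J4.HM.ZZ.eq_1.{0}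
  have := @CA.J4.HM.ZZ.eq_def.{0}
  have := @CA.J4.HM.ZZ.congr_simp.{0}
  have := @CA.J4.O5.eq_1
  have := @CA.J4.O5.eq_def
  have := @CA.J4.O5.congr_simp
  have := @CA.J4.SL3.eq_1
  have := @CA.J4.SL3.eq_def
  have := @CA.J4.SL3.congr_simp
  have := @CA.J4.F53.eq_1
  have := @CA.J4.F53.eq_def
  have := @CA.J4.F53.congr_simp
  have := @CA.J4.HM.ε.eq_1.{0}
  have := @CA.J4.HM.ε.eq_def.{0}
  have := @CA.J4.HM.ε.congr_simp.{0}
  trivial
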