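import Cfsg.Agent.J4.Tri

/-! The structure of the normaliser of the special subgroup. -/

set_option autoImplicit false
set_option maxRecDepth 100000
set_option linter.unusedSectionVars false

namespace CA.J4

open CA.M24 CA.Fi CA.FG Cfsg Subgroup Equiv
open scoped commutatorElement Pointwise

noncomputable section

open Matrix

variable {G : Type*} [Group G]

theorem snd_five {x : F53} (h : x ^ 5 = 1) : x.2 = 1 := by
  have := pow_gcd_eq_one.2 ⟨(Prod.ext_iff.1 h).2, card_SL3 ▸ pow_card_eq_one'⟩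
  simpa using this

namespace HM

variable [Finite G] (X : HM G) [hF : Fact X.Fu]

theorem exists_σ : ∃ σ : SL5 →* G, Function.Injective σ ∧
    ∀ M u v, σ M * X.α (wv u v) * (σ M)⁻¹ = X.α (wv (M.1 *ᵥ u) (M.1 *ᵥ v)) := by
  obtain ⟨c, θ, h1, h2, h3⟩ := X.exists_θ5
  obtain ⟨K, a, b, d, ⟨e⟩⟩ := X.split_A0
  let f := MulEquiv.ofBijective (θ.comp (inclusion a)) ((Nat.bijective_iff_injective_and_card _).2
    ⟨(injective_iff_map_eq_one _).2 fun k e => Subtype.ext (mem_bot.1 (b.le ⟨k.2, h2.le e⟩)), Nat.card_congr e.toEquiv⟩)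
  refine ⟨K.subtype.comp f.symm, Subtype.val_injective.comp f.symm.injective, fun M u v => ?_⟩
  have := h3 (inclusion a (f.symm M)) u v
  rwa [show θ (inclusion a (f.symm M)) = M from f.apply_symm_apply M] at this

theorem exists_K2 : ∃ K ≤ 𝒩(X.ZZ), Nonempty (K ≃* SL3) := by
  obtain ⟨σ, h1, h2⟩ := X.exists_σ
  refine ⟨(σ.comp ι35).range, ?_, ⟨(MonoidHom.ofInjective (f := σ.comp ι35) (h1.comp ι35_inj)).symm⟩⟩
  rintro _ ⟨M, rfl⟩
  refine mem_norm_of_forall fun _ ⟨a, e⟩ => ?_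
  obtain ⟨u, hu, v, hv, f⟩ := (by decide +kernel : ∀ a, ∃ u < 8, ∃ v < 8, c3 a = wv (cv u) (cv v)) a.toAdd
  have k := (by decide +kernel : ∀ u < 8, ∀ i : Fin 2, cv u (Fin.natAdd 3 i) = 0)
  obtain ⟨b, g⟩ := (by decide +kernel : ∀ u : V5, (∀ i : Fin 2, u (Fin.natAdd 3 i) = 0) → ∀ v : V5,
    (∀ i : Fin 2, v (Fin.natAdd 3 i) = 0) → ∃ a, c3 a = wv u v) _ (fun i => (emb35_fix M.1 _ i).trans (k u hu i))
      _ fun i => (emb35_fix M.1 _ i).trans (k v hv i)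
  exact ⟨.ofAdd b, (congrArg X.α g).trans ((h2 (ι35 M) _ _).symm.trans (by rw [← f, ← e]; rfl))⟩

theorem ZZ_le_LL : X.ZZ ≤ X.LL := X.der_LL ▸ der_le _

theorem norm_LL_eq : 𝒩(X.LL) = 𝒩(X.ZZ) := le_antisymm (X.der_LL ▸ norm_comm le_rfl le_rfl) X.norm_LL

theorem syl_N {p : ℕ} (hp : p = 5 ∨ p = 7) : ∃ P : Subgroup G, Nat.card P = p ∧ (p = 5 → P ≤ 𝒞[X.z]) ∧
    (Nat.card 𝒩(P) ≤ (if p = 5 then 26880 else 2520) → 𝒩(P) ≤ 𝒩(X.ZZ)) := by
  have pp : p.Prime := by rcases hp with rfl | rfl <;> norm_num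
  have := Fact.mk pp
  obtain ⟨c, φ, h1, h2, h3⟩ := X.exists_φ
  have k : Nat.card φ.ker = 32768 := by rw [h2, card_subgroupOf (X.norm_LL_eq ▸ le_normalizer), c]
  have n := φ.ker.card_mul_index
  rw [index_ker, MonoidHom.range_eq_top.2 h1, card_top, card_F53, k] at n
  obtain ⟨x, hx⟩ := exists_prime_orderOf_dvd_card' (G := 𝒩(X.ZZ)) p (by rcases hp with rfl | rfl <;> omega)
  have c1 := (Nat.card_zpowers x).trans hx
  have c2 := card_map_mul_card_inf_ker (zpowers x) φ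
  rw [c1, Nat.eq_one_of_dvd_coprimes (k := Nat.card ↥(φ.ker ⊓ zpowers x)) (show p.Coprime 32768 by rcases hp with rfl | rfl <;> norm_num)
    (c1 ▸ card_dvd_of_le inf_le_right) (k ▸ card_dvd_of_le inf_le_left), mul_one] at c2
  have c3 := card_mul_relIndex (le_top (a := zpowers x))
  rw [c1, card_top, ← n] at c3
  have c4 := card_norm_ge h1 pp (sylow_mk le_top (pGrp_of_card_eq_pow (k := 1) pp (by rw [c1, pow_one]))
    (by rcases hp with rfl | rfl <;> omega))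
  have c5 := norm_F53 hp c2
  have c6 : p = 5 → x.1 ∈ 𝒞(X.ZZ) := fun e => h3 x (snd_five (by
    rw [← map_pow, show x ^ 5 = 1 from e ▸ hx ▸ pow_orderOf_eq_one x, map_one]))
  refine ⟨(zpowers x).map (Subgroup.subtype _), (card_map_of_injective (subtype_injective _)).trans c1, fun e => ?_, fun e => ?_⟩
  · rw [MonoidHom.map_zpowers]
    exact zpowers_le.2 (mem_cent_iff.2 (X.zc_ZZ (c6 e)).symm)
  refine (eq_of_le_of_card_ge (le_normalizer_map _) (e.trans ?_)).ge.trans (map_subtype_le _)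
  rw [card_map_of_injective (subtype_injective _)]
  split_ifs at c5 ⊢ with f
  · have := card_le_of_le (show X.ZZ.subgroupOf _ ≤ φ.ker ⊓ 𝒩(zpowers x) from fun y hy => ⟨h2.ge (X.ZZ_le_LL hy),
      norm_zpowers_of_cent le_rfl (mem_cent_iff.2 (Subtype.ext (mem_cent_subgroup_iff.1 (c6 f) _ hy).symm.eq))⟩)
    rw [card_subgroupOf le_normalizer, X.card_ZZ] at this
    nlinarith
  · nlinarith [Nat.card_pos (α := ↥(φ.ker ⊓ 𝒩(zpowers x)))]

theorem s5574 (h72 : ∀ Q : Subgroup G, Nat.card Q = 5 → Q ≤ 𝒞[X.z] → ¬ 25 ∣ Nat.card G ∧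
      (∃ J : Subgroup G, IsInternalDirectProduct Q J 𝒞(Q) ∧ ∃ (E : Subgroup J) (_ : E.Normal),
        IsElementaryAbelian 2 E ∧ Nat.card E = 8 ∧ Nonempty (J ⧸ E ≃* SL3) ∧ ∀ K : Subgroup J, ¬ E.IsComplement' K) ∧
      Nat.card 𝒩(Q) = 2 ^ 8 * 3 * 5 * 7)
    (h73 : ∀ S : Subgroup G, Nat.card S = 7 → S ≤ 𝒞[X.z] → ¬ 49 ∣ Nat.card G ∧
      (∃ I : Subgroup G, IsInternalDirectProduct S I 𝒞(S) ∧ Nonempty (I ≃* Perm (Fin 5))) ∧
      Nat.card 𝒩(S) = 2 ^ 3 * 3 ^ 2 * 5 * 7) :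
    ∃ L : Subgroup G, IsSpecial 2 L ∧ Nat.card L = 2 ^ 15 ∧ Nat.card (center L) = 8 ∧
    Nonempty (𝒩(L) ⧸ L.subgroupOf 𝒩(L) ≃* F53) ∧ (∀ K : Subgroup 𝒩(L), ¬ (L.subgroupOf 𝒩(L)).IsComplement' K) ∧
    (∃ K₁ : Subgroup G, K₁ ≤ 𝒩(L) ∧ Nonempty (K₁ ≃* Perm (Fin 5))) ∧
    (∃ K₂ : Subgroup G, K₂ ≤ 𝒩(L) ∧ Nonempty (K₂ ≃* SL3)) ∧
    (∃ Q : Sylow 5 G, 𝒩((Q : Subgroup G)) ≤ 𝒩(L)) ∧ ∃ S : Sylow 7 G, 𝒩((S : Subgroup G)) ≤ 𝒩(L) := by
  obtain ⟨c, φ, h1, h2, h3⟩ := X.exists_φ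
  obtain ⟨a, b⟩ := special_of' Nat.prime_two (pGrp_of_card_eq_pow (k := 15) Nat.prime_two c)
    (fun r hr => pow_two r ▸ X.sq_LL hr) X.der_LL fun _ => X.cen_LL
  have sy : ∀ {p} {P : Subgroup G}, p.Prime → Nat.card P = p → ¬ p * p ∣ Nat.card G → IsSylowOf p P ⊤ :=
    fun {p P} pp e f => sylow_mk le_top (pGrp_of_card_eq_pow (k := 1) pp (by rw [e, pow_one])) fun g => f (by
      rw [← card_top (G := G), ← card_mul_relIndex (le_top (a := P)), e]; exact Nat.mul_dvd_mul_left p g)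
  obtain ⟨Q, q1, q2, q3⟩ := X.syl_N (.inl rfl)
  obtain ⟨q4, -, q5⟩ := h72 Q q1 (q2 rfl)
  obtain ⟨Q, rfl⟩ := (sy Nat.prime_five q1 q4).exists_sylow_top Nat.prime_five
  obtain ⟨S, s1, -, s3⟩ := X.syl_N (.inr rfl)
  have := Fact.mk Nat.prime_seven
  obtain ⟨y, hy⟩ := exists_prime_orderOf_dvd_card' (G := 𝒞[X.z]) 7 (by rw [X.card_H]; norm_num)
  have s2 : Nat.card (zpowers y.1) = 7 := by rw [Nat.card_zpowers, orderOf_coe, hy]
  obtain ⟨s4, ⟨I, i1, ⟨i2⟩⟩, s5⟩ := h73 _ s2 (zpowers_le.2 y.2)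
  obtain ⟨g, -, e⟩ := sylow_trans Nat.prime_seven (sy Nat.prime_seven s2 s4) (sy Nat.prime_seven s1 s4)
  have s6 := s3 (by rw [e, ← conjg_norm, card_conjg, s5]; norm_num)
  obtain ⟨S, rfl⟩ := (sy Nat.prime_seven s1 s4).exists_sylow_top Nat.prime_seven
  have n := X.norm_LL_eq
  let ψ := φ.comp (inclusion n.le)
  have h4 : Function.Surjective ψ := fun y => by
    obtain ⟨x, e⟩ := h1 y
    exact ⟨⟨x, n.ge x.2⟩, e⟩
  have h5 : ψ.ker = X.LL.subgroupOf _ := Subgroup.ext fun x => SetLike.ext_iff.1 h2 (inclusion n.le x)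
  refine ⟨X.LL, a, c, by rw [b, card_subgroupOf X.ZZ_le_LL, X.card_ZZ], ⟨(QuotientGroup.quotientMulEquivOfEq h5.symm).trans
    (QuotientGroup.quotientKerEquivOfSurjective ψ h4)⟩, fun K hK => ?_, ⟨I :^ g, n ▸ le_trans ?_ s6,
      ⟨((MulAut.conj g).subgroupMap I).symm.trans i2⟩⟩, n ▸ X.exists_K2, ⟨Q, n ▸ q3 (by rw [q5]; norm_num)⟩, S, n ▸ s6⟩
  swap
  · rw [e, ← conjg_norm]; exact conjg_mono g (i1.2.1.trans (cent_le_norm _))
  let f := MulEquiv.ofBijective (ψ.comp K.subtype) ⟨(injective_iff_map_eq_one _).2 fun k e =>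
    Subtype.ext (mem_bot.1 (hK.disjoint.le_bot ⟨h5.le e, k.2⟩)), fun y => by
      obtain ⟨x, rfl⟩ := h4 y
      obtain ⟨⟨l, k⟩, rfl⟩ := hK.2 x
      exact ⟨k, ((map_mul ψ l.1 k.1).trans (by rw [show ψ l = 1 from h5.ge l.2, one_mul]; rfl)).symm⟩⟩
  let σ : F53 →* G := ((Subgroup.subtype _).comp K.subtype).comp f.symm
  have σi : Function.Injective σ := (Subtype.val_injective.comp Subtype.val_injective).comp f.symm.injective
  have := Fact.mk Nat.prime_five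
  obtain ⟨x, hx⟩ := exists_prime_orderOf_dvd_card' (G := F53) 5 (by rw [card_F53]; norm_num)
  have x2 := snd_five (hx ▸ pow_orderOf_eq_one x)
  have c1 : Nat.card (zpowers (σ x)) = 5 := by rw [Nat.card_zpowers, orderOf_injective σ σi, hx]
  obtain ⟨-, ⟨J, j1, E, _, j2, j3, ⟨j4⟩, j5⟩, -⟩ := h72 _ c1 (zpowers_le.2 (mem_cent_iff.2 (X.zc_ZZ
    (h3 (inclusion n.le (f.symm x)) ((congrArg Prod.snd (f.apply_symm_apply x)).trans x2))).symm))
  have m : ∀ b, σ (1, b) ∈ J := fun b => by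
    obtain ⟨q, hq, j, hj, e⟩ := (mem_sup_of_left_le_norm (norm_of_cent fun q hq j hj => (j1.2.2.1 q hq j hj).symm)).1
      (j1.2.2.2.2.ge (show σ (1, b) ∈ _ by
        rw [cent_zpowers, mem_cent_iff]
        exact Commute.map (Prod.ext (by simp) (by simp [x2]) : Commute (1, b) x) σ))
    have e1 : q ^ 168 * j ^ 168 = 1 := by
      rw [← (show Commute q j from j1.2.2.1 q hq j hj).mul_pow, e, ← map_pow, ← map_one σ, ← card_SL3]
      exact congrArg σ (Prod.ext (one_pow _) pow_card_eq_one')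
    have e2 := pow_gcd_eq_one.2 ⟨mem_bot.1 (j1.2.2.2.1.le ⟨pow_mem hq _, eq_inv_of_mul_eq_one_left e1 ▸ inv_mem (pow_mem hj _)⟩),
      congrArg Subtype.val (c1 ▸ pow_card_eq_one' (x := (⟨q, hq⟩ : zpowers (σ x))))⟩
    rwa [← e, show q = 1 by simpa using e2, one_mul]
  let τ : SL3 →* J := (σ.comp (MonoidHom.inr _ _)).codRestrict J m
  have τi : Function.Injective τ := fun a b e => (Prod.ext_iff.1 (σi (a₁ := (1, a)) (a₂ := (1, b))
    (congrArg (Subtype.val (p := (· ∈ J))) e))).2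
  have := SL3_two (N := E.comap τ) inferInstance (((elem_pGrp j2).isPGroup Nat.prime_two).comap_of_injective τ τi)
  refine j5 τ.range (isComplement'_of_card_mul_and_disjoint ?_ (disjoint_def.2 ?_))
  · rw [card_eq_card_quotient_mul_card_subgroup E, Nat.card_congr j4.toEquiv,
      ← Nat.card_congr (MonoidHom.ofInjective τi).toEquiv, mul_comm]
  · rintro _ h ⟨b, rfl⟩
    rw [mem_bot.1 (this.le h), map_one]

end HM

end

end CA.J4
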