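import Cfsg.Agent.J4.Base

/-! The elementary abelian subgroup of order `2 ^ 11` and its normaliser in the centraliser of the involution. -/

set_option autoImplicit false
set_option maxRecDepth 100000

namespace CA.J4

open CA.M24 CA.Fi CA.FG Cfsg Subgroup Equiv
open scoped commutatorElement Pointwise

noncomputable section

def cC : ℕ := nat_lit 12287308103878488253215372939593033402173483899109460303984996961612757213547584
def cT3 : ℕ := nat_lit 6738975518432950585673569663453109535602405996975042033657404415153757027928119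
def cX : ℕ := nat_lit 5370735891352410835932996573372185748290280711945442233516635795107095248996384
def ucL : List ℕ := [nat_lit 14823196894653652415146669414780848695537838543044284345601110906110107797522464, nat_lit 5370735891352410835932996573372185748290280711945442233516635795107095248996384, nat_lit 5833827825264378968128876744886231872339546202623599211182316846727305776695328, nat_lit 18065469498609945739365868435542208831813329957538869368001778558319741350545440, nat_lit 1702303628934876147648483191974364872185954089616172530555699210198615320528928, nat_lit 18623750744991533722763997352177672355207653347762112828504092983626174653630496, nat_lit 21865835138324949039201165182570038878812901221363252093166640955497077625948192, nat_lit 2165548408921439275771284531650281719053600262542801270763329502113543120586784, nat_lit 2165548156960506192716119740740632284333296666498653122527883643996254182148128,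 nat_lit 21865835328075805187806228563475736706557659005794277446371551899479608079255584, nat_lit 18623750934742389871368815605632560297403797539178903268627539699504659928549408, nat_lit 1702303376973943064593563672186982279888237537152450397253527588872543993432096, nat_lit 18065469308805186152472076903403015256791625519290577660604741877414309946034208, nat_lit 5833828077171375702804166960231086207810569259139113476869202246606294321563680, nat_lit 5370736143259407570608041661266230198212690179105395185194814931053619566446624, nat_lit 14823196704848892828253123153763921962938721140705753463919460323571568161687584]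
def mW : ℕ := nat_lit 3195035192782306934837
def mWi : ℕ := nat_lit 125306324787297687195209510250451472408592
def mP : ℕ := nat_lit 2860687388961116880903
def LR : ℕ := nat_lit 1361295641468112754354656734009102446594
def LC : ℕ := nat_lit 2552450099475755974702352644264121581608
def LTL : List ℕ := [nat_lit 1361420327603434123687282557165707993091, nat_lit 1361420327604672063726567937440607117315, nat_lit 1361420332674036524600200163152520814595, nat_lit 1361420332675274464639485543427419938819, nat_lit 1361441096790868262997796679151024873475, nat_lit 1361441096792106203037082059425923997699, nat_lit 1361441101861470663910714285137837694979, nat_lit 1361441101862708603949999665412736819203, nat_lit 1446490919333668739553126209023650045955, nat_lit 1446490919334906679592411589298549170179, nat_lit 1446490924404271140466043815010462867459, nat_lit 1446490924405509080505329195285361991683, nat_lit 1446511688521102878863640331008966926339,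 nat_lit 1446511688522340818902925711283866050563, nat_lit 1446511693591705279776557936995779747843, nat_lit 1446511693592943219815843317270678872067]
def wCw : List ℕ := [2, 0, 2, 1, 0, 0, 1, 0, 2, 1, 0, 0, 1, 0, 1, 0, 2, 1, 3, 3]
def wT3w : List ℕ := [2, 0, 0, 1, 0, 1, 0, 0, 1, 0, 0, 0, 0, 1, 0]
def wXw : List ℕ := [2, 1, 1, 1, 0, 2, 1, 0, 1, 0, 0, 0, 0, 3]
def ucW : List (ℕ × List ℕ × List ℕ) := [(0, [], []), (1, [3], []), (2, [0, 3, 0, 0, 0, 0], [0]), (3, [3, 0, 3, 0, 0, 0, 0], [0, 0, 1, 0, 0]), (4, [0, 0, 3, 0, 0, 0], [0, 0]), (5, [3, 0, 0, 3, 0, 0, 0], [0, 0, 1, 0]), (6, [0, 3, 0, 3, 0, 0, 0], [1, 0, 1, 0, 0]), (7, [0, 0, 0, 3, 0, 3, 0], [1, 0, 0]), (8, [0, 0, 0, 3, 0, 0], [0, 0, 0]), (9, [3, 0, 0, 0, 3, 0, 0], [1, 0]), (10, [1, 3, 1], [1]), (11, [3, 1, 3, 1], [0, 1]), (12, [0, 0, 3, 0, 3, 0, 0], [1, 0, 0, 0, 0]), (13, [0, 3, 0, 0, 0, 3, 0], [0, 1, 0]), (14, [3, 0, 0, 0, 0, 3, 0], [0, 1, 0, 0]), (15,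 [0, 0, 0, 0, 3, 0], [0, 0, 0, 0])]
def o77 : List (List ℕ) := [[0, 0, 1, 1, 0, 1, 0], [2, 0, 1, 0, 1, 0], [1, 0, 1, 1, 0, 0, 0], [1, 0, 1, 0, 1, 0], [2, 0, 2, 1, 1, 0], [2, 0], [2, 0, 1, 1, 0], [1, 0], [2, 1, 0, 1, 0], [], [2, 1, 1, 0], [1, 0, 2, 1, 1, 0], [0, 1, 0, 2, 1, 0], [2, 1, 0, 1, 0, 1, 0], [0, 2, 1, 0, 0], [2, 0, 1, 0, 0], [1, 0, 0, 2, 1, 0], [2, 0, 0, 1, 0, 1, 0], [0, 2, 1, 0], [2, 1, 0, 0], [0, 0], [0, 0, 0, 2, 1, 0], [0, 0, 0, 2, 1, 1, 0], [2], [0, 0, 0, 1, 0, 1, 0], [0, 0, 0, 0, 2, 1, 0], [2, 1, 0], [0, 1, 1, 0, 1, 0], [0, 1, 0], [1, 0, 1, 1, 0, 1, 0], [1, 1, 0, 0, 0], [0, 2, 1, 1, 0, 1, 0], [1, 0, 1, 0, 0], [1, 0, 0, 0, 0], [2, 0, 1, 1, 0, 1, 0], [2, 0, 0, 0, 0], [0, 2, 1, 1, 0], [1, 1, 0], [0, 0, 0, 0, 1, 0, 1, 0], [2, 0, 1, 0, 0, 1, 0], [1, 1, 0, 1, 0], [0, 0, 0], [0, 0, 0, 0, 2, 1, 1, 0], [1, 1, 0, 2, 1, 1, 0], [0, 0, 2, 1, 0], [1, 1, 1, 0, 1, 0, 0], [0, 0, 2, 1, 0, 0], [1, 1, 1, 0, 0,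 0, 0], [0, 1, 0, 1, 0, 1, 0], [0], [2, 0, 0, 2, 1, 0, 0], [0, 1, 0, 0, 1, 0], [1, 1, 0, 0, 0, 0], [0, 0, 0, 0], [0, 1, 0, 1, 0], [0, 0, 0, 1, 1, 0, 1, 0], [1, 0, 0, 1, 0], [1, 0, 0, 0, 1, 0, 1, 0], [0, 0, 0, 0, 1, 1, 0, 1, 0], [1, 0, 1, 0], [2, 0, 1, 0], [2, 1, 1, 0, 1, 0], [0, 0, 1, 0, 1, 0], [0, 0, 0, 0, 0], [2, 0, 0], [0, 1, 1, 0, 0, 0], [0, 0, 2, 1, 1, 0, 1, 0], [0, 0, 2, 1, 1, 0], [2, 0, 0, 0], [0, 0, 1, 0], [0, 1, 1, 0], [0, 1, 0, 0], [1, 0, 0, 0], [0, 0, 1, 1, 0], [1, 0, 2, 1, 0], [1, 1, 0, 1, 0, 0], [1, 0, 0]]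

def ygens : List ℕ := [cC, cT3, cO, cX]
/-- code of an element of the group of order sixteen -/
def uc (k : ℕ) : ℕ := getL ucL cone k
def LT (e : ℕ) : ℕ := getL LTL (nat_lit 0) e
def sh7 (x : ℕ) : ℕ := Nat.shiftRight x (nat_lit 7)
def b6 (x : ℕ) : ℕ := bit x (nat_lit 6)

/-- action of an element of the extraspecial group -/
def LS (e : ℕ) : ℕ := bl fun i => bif' (blt' i 6) (Nat.add (Nat.pow 2 i) (Nat.mul 64 (bb e (col mW i))))
  (bif' (Nat.beq i 6) 64 (bif' (Nat.beq i 11) 0 (force (ap (fs (uc (Nat.pow 2 (Nat.sub i 7)))) e) fun y =>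
    Nat.add (Nat.add (ap mWi (Nat.xor e y)) (Nat.mul 64 (Nat.xor (bet e y) (qq e)))) (Nat.pow 2 i))))

def wchk (v c L : ℕ) : Bool := band (allR (fun i => blt' (col L i) 2048) 12) (band (Nat.beq (col L 6) 64)
  (allR (fun i => force (col L i) fun k => force (ap (fs c) (col mW i)) fun y => band (blt' k 128)
    (band (Nat.beq (ap mW k) y) (Nat.beq (b6 k) (bb v y)))) 6))

theorem sh7_xor (a b : ℕ) : sh7 (a ^^^ b) = sh7 a ^^^ sh7 b := Nat.shiftRight_xor_distrib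
theorem sh7_lt {x : ℕ} (h : x < 2048) : sh7 x < 16 := by
  change x >>> 7 < 16
  rw [Nat.shiftRight_eq_div_pow]; omega
theorem xor_lt11 {a b : ℕ} (ha : a < 2048) (hb : b < 2048) : a ^^^ b < 2048 := Nat.xor_lt_two_pow (n := 11) ha hb
theorem pow_lt11 {i : ℕ} (h : i < 11) : 2 ^ i < 2048 := (Nat.pow_lt_pow_right (by norm_num) h : 2 ^ i < 2 ^ 11)
theorem all11 {f : ℕ → Bool} (h : allP f 11 0 = true) {v : ℕ} (hv : v < 2048) : f v = true := allP_zero h v hv

theorem ap_lt11 {L : ℕ} (h : ∀ i < 12, col L i < 2048) (x : ℕ) : ap L x < 2048 := by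
  rw [ap_eq]
  refine xorSel_ind (· < 2048) (by norm_num) (fun _ _ => xor_lt11) _ ?_ _ _
  simp [cols, h]

theorem uc_mul : ∀ k < 16, ∀ l < 16, cmul (uc k) (uc l) = uc (k ^^^ l) := by decide +kernel
theorem uc_sg : ∀ k < 16, sg (sn (uc k)) = 0 := by decide +kernel
theorem uc_zero : uc 0 = cone := by decide +kernel
theorem uc_fix {k : ℕ} (hk : k < 16) (x : ℕ) : ap (fs (uc k)) (ap mW x) = ap mW x := by
  rw [ap_eq mW x]
  refine xorSel_ind (fun w => ap (fs (uc k)) w = w) (ap_zero _) (fun a b ha hb => by rw [ap_xor, ha, hb]) _ ?_ _ _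
  exact (by decide +kernel : ∀ k < 16, ∀ w ∈ cols mW, ap (fs (uc k)) w = w) k hk

theorem mW_mod (x : ℕ) : ap mW x = ap mW (x % 64) := by
  have e : ∀ i < 6, (x % 64) >>> i &&& 1 = x >>> i &&& 1 := fun i hi => by
    rw [bit_eq, bit_eq, show 64 = 2 ^ 6 from rfl, Nat.testBit_mod_two_pow]; simp [hi]
  rw [ap_eq, ap_eq, show cols mW = [53, 448, 69, 957, 1029, 2771, 0, 0, 0, 0, 0, 0] by decide +kernel]
  simp only [xorSel, mul_zero, Nat.xor_zero, zero_add, Nat.reduceAdd, e 0 (by norm_num), e 1 (by norm_num),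
    e 2 (by norm_num), e 3 (by norm_num), e 4 (by norm_num), e 5 (by norm_num)]

theorem bet_W (x y : ℕ) : bet (ap mW x) (ap mW y) = 0 := by
  rw [mW_mod x, mW_mod y]
  exact (by decide +kernel : ∀ x < 64, ∀ y < 64, bet (ap mW x) (ap mW y) = 0) _ (Nat.mod_lt _ (by norm_num)) _
    (Nat.mod_lt _ (by norm_num))

theorem qq_W (x : ℕ) : qq (ap mW x) = 0 := by rw [← bet_self _ (ap_lt _ _), bet_W]

theorem card_stab_mul_le {H : Subgroup (Perm Pt)} {gens : List ℕ} (h : ∀ c ∈ gens, InH H c) {m : ℕ}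
    (hm : m < 2 ^ 24) (ws : List (List ℕ))
    (hw : evalL gens ws (fun l => incL (l.map fun c => mapp c m) 0) = true) :
    ws.length * Nat.card ↥(H ⊓ MulAction.stabilizer (Perm Pt) (unmask m)) ≤ Nat.card H := by
  rw [card_eq_orb_mul H (unmask m)]
  refine Nat.mul_le_mul_right _ ?_
  rw [evalL_eq] at hw
  have h1 := incL_nodup hw
  have h2 := Set.ncard_le_ncard (s := ((ws.map (evalW gens)).map fun c => mapp c m).toFinset)
    (t := mask '' orb H (unmask m)) ?_ (Set.toFinite _)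
  · rwa [Set.ncard_coe_finset, List.toFinset_card_of_nodup h1, List.length_map, List.length_map,
      Set.ncard_image_of_injective _ mask_inj] at h2
  · intro x hx
    simp only [List.coe_toFinset, List.mem_map, Set.mem_ofPred_eq] at hx
    obtain ⟨_, ⟨w, -, rfl⟩, rfl⟩ := hx
    obtain ⟨g, hg, e⟩ := inH_evalW h w
    exact ⟨_, ⟨g, hg, rfl⟩, by rw [← e, ← mapp_code, mask_unmask hm]⟩

/-- the stabiliser of the pair and the octad -/
def YD : Subgroup (Perm Pt) := DD ⊓ MulAction.stabilizer (Perm Pt) (unmask O0)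

theorem YD_le : YD ≤ DD := inf_le_left

theorem inYD_of_chk {c : ℕ} (h : band (chkD c) (Nat.beq (mapp c O0) O0) = true) : InH YD c := by
  simp only [band_eq_true, beq_iff] at h
  refine inH_inf_stab setC (inD_of_chk h.1) trivial ?_
  change mapp c (mask (unmask O0)) = mask (unmask O0)
  rw [mask_O0]; exact h.2

theorem ygens_in : ∀ c ∈ ygens.map sn, InH YD c := fun c hc =>
  inYD_of_chk (allL_eq_true.1 (by decide +kernel :
    allL (fun c => band (chkD c) (Nat.beq (mapp c O0) O0)) (ygens.map sn) = true) c hc)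

theorem card_YD_le : Nat.card YD ≤ 11520 := by
  have := card_stab_mul_le (H := DD) (gens := [ca, ct, cu]) (by
    simp [ca_in.mono M22_le_DD, ct_in.mono M22_le_DD, cu_in]) (m := O0) (by decide) o77 (by decide +kernel)
  rw [card_DD, show o77.length = 77 from rfl] at this
  unfold YD
  omega

def ycert : List (ℕ × ℕ × List (List ℕ)) := [(1, 5, [[0, 0, 0, 1, 0, 2, 2, 3, 0], [0, 0, 1, 0, 0, 0, 2, 3], [0, 0, 0, 0, 1, 0], [1, 2], [3], [0, 0, 0, 0, 2, 0, 2]]), (2, 2, [[2, 0, 1, 1], [5, 5, 2, 4, 3, 2]]), (3, 2, [[0, 1, 0, 1, 1, 0], [0, 1, 0, 1, 1, 0, 1]]), (5, 1, [[1, 0, 1, 1, 1, 1, 0], [1, 0, 0, 1, 1], [1, 0, 1]]), (14, 1, [[2, 2, 0], [1], [2, 0, 2, 1, 1, 2, 2], [0]]), (4, 1, [])]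

theorem YD_le_gen : YD ≤ gen (ygens.map sn) :=
  le_gen_of_chainLB ycert ygens_in (card_YD_le.trans (by decide +kernel))

theorem card_YD : Nat.card YD = 11520 :=
  le_antisymm card_YD_le (le_trans (by decide +kernel) (chainLB_le ycert ygens_in))

variable {G : Type*} [Group G]

/-- the product of the members of `l` selected by the bits `i, i + 1, …` of `k` -/
def pl : List G → ℕ → ℕ → G
  | [], _, _ => 1
  | a :: l, k, i => a ^ ((k >>> i) &&& 1) * pl l k (i + 1)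

theorem pl_mem {K : Subgroup G} {l : List G} (h : ∀ a ∈ l, a ∈ K) (k i : ℕ) : pl l k i ∈ K := by
  induction l generalizing i with
  | nil => exact one_mem _
  | cons a l ih => exact mul_mem (pow_mem (h a (by simp)) _) (ih (fun b hb => h b (by simp [hb])) _)

theorem pl_xor {l : List G} (hc : ∀ a ∈ l, ∀ b ∈ l, Commute a b) (h2 : ∀ a ∈ l, a * a = 1) (a b i : ℕ) :
    pl l (a ^^^ b) i = pl l a i * pl l b i := by
  induction l generalizing i with
  | nil => simp [pl]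
  | cons c l ih =>
    have h3 : Commute (pl l a (i + 1)) c :=
      mem_cent_iff.1 (pl_mem (fun d hd => mem_cent_iff.2 (hc d (by simp [hd]) c (by simp))) _ _)
    simp only [pl, ih (fun x hx y hy => hc x (by simp [hx]) y (by simp [hy])) (fun x hx => h2 x (by simp [hx])),
      bit_eq, Nat.testBit_xor]
    cases a.testBit i <;> cases b.testBit i <;> simp [mul_assoc]
    · rw [← mul_assoc, ← h3.eq, mul_assoc]
    · rw [← mul_assoc _ c, h3.eq, ← mul_assoc, ← mul_assoc, h2 c (by simp), one_mul]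

@[simp] theorem pl_zero (l : List G) (i : ℕ) : pl l 0 i = 1 := by
  induction l generalizing i with
  | nil => rfl
  | cons c l ih => simp [pl, ih]

namespace HM

variable (X : HM G)

open Classical in
/-- a lift of a code -/
def lf (c : ℕ) : G := if h : X.Ex c then h.choose else 1

variable {X} in
theorem Ex.rc {c : ℕ} (h : X.Ex c) : X.RC (X.lf c) c := by
  rw [lf, dif_pos h]; exact h.choose_spec

theorem ex_ygens : ∀ c ∈ ygens, X.Ex c := by
  simp only [ygens, List.mem_cons, List.not_mem_nil, or_false, forall_eq_or_imp, forall_eq]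
  exact ⟨X.ex_of_word wCw (by decide +kernel), X.ex_of_word wT3w (by decide +kernel), ⟨_, X.rc_ρ⟩,
    X.ex_of_word wXw (by decide +kernel)⟩

theorem ucW_chk : ∀ k < 16, ∃ r ∈ ucW, evalC ygens r.2.1 = uc k ∧
    (k = 0 ∨ cmul (evalC ygens r.2.2) cX = cmul (uc k) (evalC ygens r.2.2)) := by decide +kernel

theorem ex_uc {k : ℕ} (hk : k < 16) : X.Ex (uc k) := by
  obtain ⟨r, -, h, -⟩ := ucW_chk k hk
  exact h ▸ ex_evalC X.ex_ygens _

variable [Finite G]

variable {X} in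
theorem RC.conj {k x : G} {a c d : ℕ} (hk : X.RC k a) (hx : X.RC x c) (hd : X.Ex d) (e : cmul a c = cmul d a) :
    X.RC (k * x * k⁻¹) d := by
  obtain ⟨y, hy⟩ := hd
  obtain ⟨j, e'⟩ := (hy.mul hk).eq (e ▸ hk.mul hx)
  rw [e', mul_assoc, mul_assoc, (hk.zc.pow_left j).inv_right.eq, mul_inv_cancel_left]
  exact hy.mulz j

theorem sq_uc {k : ℕ} (hk : k < 16) {y : G} (hy : X.RC y (uc k)) : y * y = 1 := by
  have hx := (X.ex_ygens cX (by simp [ygens])).rc
  obtain ⟨j, e⟩ := RC.eq_of_cone (X := X) (n := X.lf cX * X.lf cX)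
    ((by decide +kernel : cmul cX cX = cone) ▸ hx.mul hx)
  have key : ∀ k < 16, k ≠ 0 → ∀ y, X.RC y (uc k) → y * y = X.z ^ j := by
    intro k hk h0 y hy
    obtain ⟨r, -, -, h⟩ := ucW_chk k hk
    obtain ⟨n, hn⟩ := ex_evalC X.ex_ygens r.2.2
    obtain ⟨i, rfl⟩ := (hn.conj hx (X.ex_uc hk) (h.resolve_left h0)).eq hy
    have c := ((hn.mul hx).zc.mul_right hn.zc.inv_right).pow_left i
    rw [mul_assoc, ← mul_assoc (X.z ^ i), c.eq, mul_assoc _ (X.z ^ i), X.zz, mul_one, ← cjm, e, hn.zk]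
  rcases Nat.eq_zero_or_pos k with rfl | h0
  · obtain ⟨i, rfl⟩ := RC.eq_of_cone (uc_zero ▸ hy)
    exact X.zz i
  rw [key k hk h0.ne' y hy]
  refine (X.z_cases j).resolve_right fun h => X.z_ne ?_
  rw [h] at key
  have m : ∀ k < 16, ∀ l < 16, k ≠ 0 → l ≠ 0 → k ^^^ l ≠ 0 → ∀ a b, X.RC a (uc k) → X.RC b (uc l) →
      b * a = a * b * X.z := by
    intro k hk l hl h1 h2 h3 a b ha hb
    have e1 := key k hk h1 a ha
    have e2 := key l hl h2 b hb
    have e3 := key _ (Nat.xor_lt_two_pow (n := 4) hk hl) h3 _ (uc_mul k hk l hl ▸ ha.mul hb)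
    have e4 : b * a = a⁻¹ * X.z * b⁻¹ := by rw [← e3]; group
    rw [e4, inv_eq_of_mul_eq_one_right (show a * (a * X.z) = 1 by rw [← mul_assoc, e1, X.z_sq]),
      inv_eq_of_mul_eq_one_right (show b * (b * X.z) = 1 by rw [← mul_assoc, e2, X.z_sq]), mul_assoc a, X.z_sq,
      mul_one, mul_assoc]
  have ha := (X.ex_uc (k := 1) (by norm_num)).rc
  have hb := (X.ex_uc (k := 2) (by norm_num)).rc
  have hc := (X.ex_uc (k := 4) (by norm_num)).rc
  have e1 := m 1 (by norm_num) 2 (by norm_num) (by norm_num) (by norm_num) (by decide) _ _ ha hb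
  have e2 := m 1 (by norm_num) 4 (by norm_num) (by norm_num) (by norm_num) (by decide) _ _ ha hc
  have e3 := m 1 (by norm_num) 6 (by norm_num) (by norm_num) (by norm_num) (by decide) _ _ ha
    (uc_mul 2 (by norm_num) 4 (by norm_num) ▸ hb.mul hc)
  rw [mul_assoc, e2, ← mul_assoc, ← mul_assoc, e1, mul_assoc _ X.z, hc.zc.eq, ← mul_assoc, mul_assoc _ X.z, X.z_sq,
    mul_one, mul_assoc, eq_comm, mul_eq_left] at e3
  exact e3

/-- the element of order five -/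
def c5 : G := X.lf cC ^ 6
/-- the outer involution -/
def t3 : G := X.lf cT3

omit [Finite G] in
theorem rc_c5 : X.RC X.c5 cC :=
  (by decide +kernel : cpow cC 6 = cC) ▸ (X.ex_ygens cC (by simp [ygens])).rc.pow 6

omit [Finite G] in
theorem rc_t3 : X.RC X.t3 cT3 := (X.ex_ygens cT3 (by simp [ygens])).rc

omit [Finite G] in
theorem c5_pow : X.c5 ^ 5 = 1 := by
  obtain ⟨k, e⟩ := RC.eq_of_cone ((by decide +kernel : cpow cC 5 = cone) ▸
    (X.ex_ygens cC (by simp [ygens])).rc.pow 5)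
  rw [c5, ← pow_mul, mul_comm, pow_mul, e, ← pow_mul, X.zmod (b := 0) (by omega), pow_zero]

/-- conjugates under the element of order five -/
def cj (x : G) (i : ℕ) : G := X.c5 ^ i * x * (X.c5 ^ i)⁻¹
/-- the basis of the group of order sixteen -/
def xu (i : ℕ) : G := X.cj (X.lf cX * (X.cj (X.lf cX) 0 * X.cj (X.lf cX) 1 * X.cj (X.lf cX) 2 * X.cj (X.lf cX) 3 *
  X.cj (X.lf cX) 4)) i

omit [Finite G] in
theorem cj_succ (x : G) (i : ℕ) : X.c5 * X.cj x i * X.c5⁻¹ = X.cj x (i + 1) := by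
  simp only [cj, pow_succ']; group

theorem rc_cj {x : G} (h : X.RC x cX) {i : ℕ} (hi : i < 5) : X.RC (X.cj x i) (uc (getL [1, 2, 4, 8, 15] 0 i)) :=
  (X.rc_c5.pow i).conj h (X.ex_uc ((by decide : ∀ i < 5, getL [1, 2, 4, 8, 15] 0 i < 16) i hi))
    ((by decide +kernel : ∀ i < 5, cmul (cpow cC i) cX = cmul (uc (getL [1, 2, 4, 8, 15] 0 i)) (cpow cC i)) i hi)

theorem xu_spec : (∀ i < 5, X.RC (X.xu i) (uc (getL [1, 2, 4, 8, 15] 0 i))) ∧
    X.xu 0 * X.xu 1 * X.xu 2 * X.xu 3 * X.xu 4 = 1 := by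
  have hx := (X.ex_ygens cX (by simp [ygens])).rc
  have h := ((((X.rc_cj hx (i := 0) (by norm_num)).mul (X.rc_cj hx (i := 1) (by norm_num))).mul
    (X.rc_cj hx (i := 2) (by norm_num))).mul (X.rc_cj hx (i := 3) (by norm_num))).mul
    (X.rc_cj hx (i := 4) (by norm_num))
  rw [show cmul _ _ = cone by decide +kernel] at h
  obtain ⟨k, e⟩ := h.eq_of_cone
  unfold xu
  rw [e]
  refine ⟨fun i hi => X.rc_cj (hx.mulz k) hi, ?_⟩
  have a : ∀ i, X.cj (X.lf cX * X.z ^ k) i = X.cj (X.lf cX) i * X.z ^ k := fun i => by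
    rw [cj, cjm, (X.rc_c5.pow i).zk]; rfl
  have b : ∀ i < 5, ∀ y, X.z ^ k * (X.cj (X.lf cX) i * y) = X.cj (X.lf cX) i * (X.z ^ k * y) := fun i hi y => by
    rw [← mul_assoc, ((X.rc_cj hx hi).zc.pow_left k).eq, mul_assoc]
  simp only [a, mul_assoc, b 1 (by norm_num), b 2 (by norm_num), b 3 (by norm_num), b 4 (by norm_num)]
  simp only [← mul_assoc, e, X.zz, one_mul]

/-- `g` has coordinates `x` modulo the involution -/
def VV (g : G) (x : ℕ) : Prop := X.Rq g (ap mW x) (uc (sh7 x))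

variable {X} in
omit [Finite G] in
theorem VV.mul {g h : G} {x y : ℕ} (hx : x < 2048) (hy : y < 2048) (a : X.VV g x) (b : X.VV h y) :
    X.VV (g * h) (x ^^^ y) := by
  have := Rq.mul a b
  rwa [uc_fix (sh7_lt hx), ← ap_xor, uc_mul _ (sh7_lt hx) _ (sh7_lt hy), ← sh7_xor] at this

variable {X} in
theorem VV.sq {g : G} {x : ℕ} (hx : x < 2048) (a : X.VV g x) : g * g = 1 := by
  obtain ⟨hv, n, h, rfl⟩ := a
  have := h.act hv
  rw [uc_fix (sh7_lt hx), uc_sg _ (sh7_lt hx), zero_mul, pow_zero, mul_one, conj_eq_iff_commute] at this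
  rw [mul_assoc, ← mul_assoc n, this.eq, mul_assoc, X.sq_uc (sh7_lt hx) h, mul_one, X.s_sq hv, qq_W, pow_zero]

variable {X} in
theorem VV.comm {g h : G} {x y : ℕ} (hx : x < 2048) (hy : y < 2048) (a : X.VV g x) (b : X.VV h y) :
    Commute g h := by
  have := (a.mul hx hy b).sq (xor_lt11 hx hy)
  rw [commute_iff_eq, ← inv_eq_of_mul_eq_one_right this, mul_inv_rev, inv_eq_of_mul_eq_one_right (a.sq hx),
    inv_eq_of_mul_eq_one_right (b.sq hy)]

/-- the basis -/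
def bs (i : ℕ) : G := if i < 6 then X.s (col mW i) else if i = 6 then X.z else X.xu (i - 7)
/-- the element with given coordinates -/
def ev (x : ℕ) : G := pl [X.bs 0, X.bs 1, X.bs 2, X.bs 3, X.bs 4, X.bs 5, X.bs 6, X.bs 7, X.bs 8, X.bs 9, X.bs 10] x 0

theorem vv_bs {i : ℕ} (hi : i < 11) : X.VV (X.bs i) (2 ^ i) := by
  unfold VV bs
  split_ifs with h1 h2
  · rw [ap_two_pow _ (by omega), (by decide +kernel : ∀ i < 6, uc (sh7 (2 ^ i)) = cone) i h1]
    exact X.rq_s (col_lt _ _)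
  · subst h2
    rw [show ap mW (2 ^ 6) = 0 by decide +kernel, show uc (sh7 (2 ^ 6)) = cone by decide +kernel]
    exact X.rc_z.rq
  · obtain ⟨a, b⟩ := (by decide +kernel : ∀ i < 11, ¬ i < 6 → i ≠ 6 → ap mW (2 ^ i) = 0 ∧
      sh7 (2 ^ i) = getL [1, 2, 4, 8, 15] 0 (i - 7)) i hi h1 h2
    rw [a, b]
    exact (X.xu_spec.1 _ (by omega)).rq

theorem ev_xor (a b : ℕ) : X.ev (a ^^^ b) = X.ev a * X.ev b := by
  have : ∀ g ∈ [X.bs 0, X.bs 1, X.bs 2, X.bs 3, X.bs 4, X.bs 5, X.bs 6, X.bs 7, X.bs 8, X.bs 9, X.bs 10],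
      ∃ x < 2048, X.VV g x := by
    simp only [List.mem_cons, List.not_mem_nil, or_false, forall_eq_or_imp, forall_eq]
    refine ⟨?_, ?_, ?_, ?_, ?_, ?_, ?_, ?_, ?_, ?_, ?_⟩ <;> exact ⟨_, pow_lt11 (by norm_num), X.vv_bs (by norm_num)⟩
  refine pl_xor (fun g hg h hh => ?_) (fun g hg => ?_) a b 0
  · obtain ⟨x, hx, a⟩ := this g hg
    obtain ⟨y, hy, b⟩ := this h hh
    exact a.comm hx hy b
  · obtain ⟨x, hx, a⟩ := this g hg
    exact a.sq hx

omit [Finite G] in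
@[simp] theorem ev_zero : X.ev 0 = 1 := pl_zero _ _

omit [Finite G] in
theorem ev_pow {i : ℕ} (hi : i < 11) : X.ev (2 ^ i) = X.bs i := by
  interval_cases i <;> simp [ev, pl, Nat.shiftRight_eq_div_pow]

omit [Finite G] in
theorem ev_64 : X.ev 64 = X.z := X.ev_pow (i := 6) (by norm_num)

theorem ev_sq (x : ℕ) : X.ev x * X.ev x = 1 := by rw [← X.ev_xor, Nat.xor_self, X.ev_zero]
theorem ev_inv (x : ℕ) : (X.ev x)⁻¹ = X.ev x := inv_eq_of_mul_eq_one_right (X.ev_sq x)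
theorem ev_comm (x y : ℕ) : Commute (X.ev x) (X.ev y) := by
  rw [commute_iff_eq, ← X.ev_xor, ← X.ev_xor, Nat.xor_comm]

theorem vv_ev {x : ℕ} (hx : x < 2048) : X.VV (X.ev x) x := by
  refine xor_induction (n := 11) (fun x => X.VV (X.ev x) x) ?_ (fun a b ha hb h1 h2 => ?_) (fun i hi => ?_) x hx
  · unfold VV
    rw [X.ev_zero, ap_zero, show uc (sh7 0) = cone from uc_zero]; exact X.rq_one
  · rw [X.ev_xor]; exact h1.mul ha hb h2
  · rw [X.ev_pow hi]; exact X.vv_bs hi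

theorem ev_eq_one {x : ℕ} (hx : x < 2048) (h : X.ev x = 1) : x = 0 := by
  obtain ⟨a, b⟩ := Rq.unique (X.vv_ev hx) (h ▸ X.rq_one)
  have c := all11 (by decide +kernel : allP (fun x => bimp (Nat.beq (ap mW x) 0) (bimp (Nat.beq (uc (sh7 x)) cone)
    (bor (Nat.beq x 0) (Nat.beq x 64)))) 11 0 = true) hx
  simp only [bimp_eq_true, beq_iff, bor_eq_true] at c
  refine (c a b).resolve_right fun e => X.z_ne ?_
  rw [← X.ev_64, ← e, h]

theorem ev_inj {x y : ℕ} (hx : x < 2048) (hy : y < 2048) (h : X.ev x = X.ev y) : x = y :=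
  Nat.eq_of_xor_eq_zero (X.ev_eq_one (xor_lt11 hx hy) (by rw [X.ev_xor, h, X.ev_sq]))

omit [Finite G] in
theorem ev_z (k : ℕ) : X.ev (64 * (k % 2)) = X.z ^ k := by
  rcases Nat.mod_two_eq_zero_or_one k with h | h <;> rw [h]
  · rw [X.zmod (b := 0) h, pow_zero]; exact X.ev_zero
  · rw [X.zmod (b := 1) h, pow_one]; exact X.ev_64

theorem ev_W {x : ℕ} (hx : x < 128) : X.ev x = X.s (ap mW x) * X.z ^ b6 x := by
  refine xor_induction (n := 7) (fun x => X.ev x = X.s (ap mW x) * X.z ^ b6 x) ?_ (fun a b ha hb h1 h2 => ?_)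
    (fun i hi => ?_) x hx
  · simp [X.s_zero, b6, bit]
  · rw [X.ev_xor, h1, h2, mul_assoc, X.sz', ← mul_assoc, X.s_mul _ (ap_lt _ _) _ (ap_lt _ _), bet_W, pow_zero,
      mul_one, ← pow_add, ap_xor, X.zmod ((by decide +kernel : ∀ a < 2 ^ 7, ∀ b < 2 ^ 7,
        (b6 a + b6 b) % 2 = b6 (a ^^^ b) % 2) a ha b hb)]
  · rw [X.ev_pow (by omega), bs]
    split_ifs with h1 h2
    · rw [ap_two_pow _ (by omega), (by decide +kernel : ∀ i < 6, b6 (2 ^ i) = 0) i h1, pow_zero, mul_one]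
    · subst h2
      rw [show ap mW (2 ^ 6) = 0 by decide +kernel, X.s_zero, one_mul]; exact (pow_one _).symm
    · omega

/-- the elementary abelian group of order `2 ^ 11` -/
def V : Subgroup G where
  carrier := {g | ∃ x < 2048, X.ev x = g}
  one_mem' := ⟨0, by norm_num, X.ev_zero⟩
  mul_mem' := by
    rintro _ _ ⟨x, hx, rfl⟩ ⟨y, hy, rfl⟩
    exact ⟨_, xor_lt11 hx hy, X.ev_xor x y⟩
  inv_mem' := by
    rintro _ ⟨x, hx, rfl⟩
    exact ⟨x, hx, (X.ev_inv x).symm⟩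

theorem mem_V {g : G} : g ∈ X.V ↔ ∃ x < 2048, X.ev x = g := Iff.rfl
theorem ev_mem {x : ℕ} (hx : x < 2048) : X.ev x ∈ X.V := ⟨x, hx, rfl⟩
theorem z_mem_V : X.z ∈ X.V := ⟨64, by norm_num, X.ev_64⟩
theorem card_V : Nat.card X.V = 2048 := card_of_param X.ev (fun _ hi _ hj => X.ev_inj hi hj) fun _ => Iff.rfl
theorem V_sq {g : G} (h : g ∈ X.V) : g * g = 1 := by obtain ⟨x, -, rfl⟩ := h; exact X.ev_sq x
theorem V_comm {g h : G} (a : g ∈ X.V) (b : h ∈ X.V) : Commute g h := by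
  obtain ⟨x, -, rfl⟩ := a
  obtain ⟨y, -, rfl⟩ := b
  exact X.ev_comm x y
theorem V_elem : IsElementaryAbelian 2 X.V :=
  ⟨⟨⟨fun a b => Subtype.ext (X.V_comm a.2 b.2).eq⟩⟩, fun a ha => by rw [pow_two, X.V_sq ha]⟩

variable {X} in
theorem VV.eq {g : G} {x : ℕ} (hx : x < 2048) (h : X.VV g x) : ∃ e < 2, g = X.ev (x ^^^ 64 * e) := by
  obtain ⟨k, rfl⟩ := Rq.eq (X.vv_ev hx) h
  exact ⟨k % 2, Nat.mod_lt _ (by norm_num), by rw [X.ev_xor, X.ev_z]⟩

variable {X} in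
theorem VV.mem {g : G} {x : ℕ} (hx : x < 2048) (h : X.VV g x) : g ∈ X.V := by
  obtain ⟨e, he, rfl⟩ := h.eq hx
  exact X.ev_mem (xor_lt11 hx (by omega))

/-- `g` acts on the coordinates with matrix `L` -/
def AV (g : G) (L : ℕ) : Prop := (∀ x, ap L x < 2048) ∧ ∀ x < 2048, g * X.ev x * g⁻¹ = X.ev (ap L x)

variable {X}

theorem AV.mk' {g : G} {v c L : ℕ} (h : X.Rq g v c) (h1 : wchk v c L = true)
    (h2 : ∀ i < 4, g * X.xu i * g⁻¹ = X.ev (col L (7 + i))) : X.AV g L := by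
  simp only [wchk, band_eq_true, allR_eq_true, blt'_eq_true, beq_iff, force_eq] at h1
  refine ⟨ap_lt11 h1.1, xor_induction (n := 11) _ (by simp) (fun a b _ _ h1 h2 => ?_) (fun i hi => ?_)⟩
  · rw [X.ev_xor, cjm, h1, h2, ap_xor, X.ev_xor]
  · rw [X.ev_pow hi, ap_two_pow _ (by omega), bs]
    split_ifs with a b
    · obtain ⟨c1, c2, c3⟩ := h1.2.2 i a
      rw [h.act (col_lt _ _), X.ev_W c1, c2, c3, ← ap_two_pow _ (show i < 12 by omega), qq_W, mul_zero, zero_add]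
    · rw [b, h1.2.1, X.ev_64, conj_eq_iff_commute.2 h.zc.symm]
    · rw [h2 _ (by omega), show 7 + (i - 7) = i by omega]

theorem AV.norm {g : G} {L : ℕ} (h : X.AV g L) : g ∈ 𝒩(X.V) :=
  mem_norm_of_forall fun _ ⟨x, hx, e⟩ => ⟨_, h.1 x, e ▸ (h.2 x hx).symm⟩

omit [Finite G] in
theorem AV.mul {g h : G} {L M : ℕ} (a : X.AV g L) (b : X.AV h M) : X.AV (g * h) (mm L M) := by
  have e : ∀ x, ap (mm L M) x < 2048 :=
    ap_lt11 fun i hi => by rw [mm_eq, col_bl (fun _ _ => ap_lt _ _) hi]; exact a.1 _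
  refine ⟨e, fun x hx => ?_⟩
  rw [ap_mm _ _ (by omega), ← a.2 _ (b.1 x), ← b.2 x hx]; group

variable (X)

omit [Finite G] in
theorem ev_xu {i : ℕ} (hi : i < 4) : X.ev (2 ^ (7 + i)) = X.xu i := by
  rw [X.ev_pow (by omega), bs, if_neg (by omega), if_neg (by omega), Nat.add_sub_cancel_left]

theorem rc_xu {i : ℕ} (hi : i < 4) : X.RC (X.xu i) (uc (2 ^ i)) :=
  (by decide : ∀ i < 4, getL [1, 2, 4, 8, 15] 0 i = 2 ^ i) i hi ▸ X.xu_spec.1 i (by omega)

theorem av_ρ : X.AV X.ρ LR := AV.mk' X.rc_ρ.rq (by decide +kernel) fun i hi => by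
  have := (X.rc_xu hi).ρc
  rw [uc_sg _ (Nat.pow_lt_pow_right (by norm_num) hi : 2 ^ i < 2 ^ 4), add_zero, pow_one, conj_eq_iff_commute] at this
  rw [conj_eq_iff_commute.2 this.symm, (by decide +kernel : ∀ i < 4, col LR (7 + i) = 2 ^ (7 + i)) i hi, X.ev_xu hi]

theorem av_c5 : X.AV X.c5 LC := AV.mk' X.rc_c5.rq (by decide +kernel) fun i hi => by
  rw [xu, X.cj_succ]
  rcases Nat.lt_or_ge i 3 with h | h
  · rw [(by decide +kernel : ∀ i < 3, col LC (7 + i) = 2 ^ (7 + (i + 1))) i h, X.ev_xu (by omega)]; rfl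
  · obtain rfl : i = 3 := by omega
    rw [show col LC (7 + 3) = 2 ^ (7 + 0) ^^^ 2 ^ (7 + 1) ^^^ 2 ^ (7 + 2) ^^^ 2 ^ (7 + 3) by decide +kernel,
      ← X.ev_inv, X.ev_xor, X.ev_xor, X.ev_xor, X.ev_xu (by norm_num), X.ev_xu (by norm_num),
      X.ev_xu (by norm_num), X.ev_xu (by norm_num), eq_comm]
    exact inv_eq_of_mul_eq_one_right X.xu_spec.2

theorem LS_chk : allP (fun e => force (LS e) fun L => band (wchk e cone L) (allR (fun i =>
    force (Nat.xor (col L (7 + i)) (2 ^ (7 + i))) fun k => force (ap (fs (uc (2 ^ i))) e) fun y =>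
      band (blt' k 128) (band (Nat.beq (ap mW k) (Nat.xor e y))
        (Nat.beq (b6 k) (Nat.xor (bet e y) (qq e))))) 4)) 12 0 = true := by decide +kernel

theorem av_s {e : ℕ} (he : e < 4096) : X.AV (X.s e) (LS e) := by
  have c := allV LS_chk he
  simp only [force_eq, band_eq_true, allR_eq_true, blt'_eq_true, beq_iff] at c
  refine AV.mk' (X.rq_s he) c.1 fun i hi => ?_
  obtain ⟨c1, c2, c3⟩ := c.2 i hi
  have h := (X.rc_xu hi).act he
  rw [uc_sg _ (Nat.pow_lt_pow_right (by norm_num) hi : 2 ^ i < 2 ^ 4), zero_mul, pow_zero, mul_one] at h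
  rw [show col (LS e) (7 + i) = Nat.xor (col (LS e) (7 + i)) (2 ^ (7 + i)) ^^^ 2 ^ (7 + i) from
    (Nat.xor_xor_cancel_right _ _).symm, X.ev_xor, X.ev_xu hi, X.ev_W c1, c2, c3, X.s_inv he,
    show X.s e * X.xu i * (X.s e * X.z ^ qq e) = X.s e * (X.xu i * X.s e * (X.xu i)⁻¹) *
      (X.xu i * X.z ^ qq e * (X.xu i)⁻¹) * X.xu i by group, h, (X.rc_xu hi).zk, X.s_mul _ he _ (ap_lt _ _),
    mul_assoc (X.s _), ← pow_add]
  congr 2
  refine X.zmod ?_
  have h1 := qq_lt e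
  have h2 : bet e (ap (fs (uc (2 ^ i))) e) < 2 := by rw [bet_eq]; exact bb_lt _ _
  generalize qq e = a at *
  generalize bet e _ = b at *
  interval_cases a <;> interval_cases b <;> rfl

set_option synthInstance.maxSize 2000 in
theorem av_t3 : ∃ e < 16, X.AV X.t3 (LT e) := by
  have a : ∀ i < 4, ∃ e < 2, X.t3 * X.xu i * X.t3⁻¹ = X.ev (128 * getL [10, 9, 7, 8] 0 i ^^^ 64 * e) := by
    intro i hi
    obtain ⟨c1, c2, c3, c4⟩ := (by decide +kernel : ∀ i < 4, getL [10, 9, 7, 8] 0 i < 16 ∧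
      cmul cT3 (uc (2 ^ i)) = cmul (uc (getL [10, 9, 7, 8] 0 i)) cT3 ∧ ap mW (128 * getL [10, 9, 7, 8] 0 i) = 0 ∧
      sh7 (128 * getL [10, 9, 7, 8] 0 i) = getL [10, 9, 7, 8] 0 i) i hi
    refine VV.eq (by omega) ?_
    unfold VV
    rw [c3, c4]
    exact (X.rc_t3.conj (X.rc_xu hi) (X.ex_uc c1) c2).rq
  obtain ⟨e0, h0, a0⟩ := a 0 (by norm_num)
  obtain ⟨e1, h1, a1⟩ := a 1 (by norm_num)
  obtain ⟨e2, h2, a2⟩ := a 2 (by norm_num)
  obtain ⟨e3, h3, a3⟩ := a 3 (by norm_num)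
  obtain ⟨c0, c1, c2, c3, c4⟩ := (by decide +kernel : ∀ e0 < 2, ∀ e1 < 2, ∀ e2 < 2, ∀ e3 < 2,
    col (LT (e0 + 2 * e1 + 4 * e2 + 8 * e3)) (7 + 0) = 128 * getL [10, 9, 7, 8] 0 0 ^^^ 64 * e0 ∧
    col (LT (e0 + 2 * e1 + 4 * e2 + 8 * e3)) (7 + 1) = 128 * getL [10, 9, 7, 8] 0 1 ^^^ 64 * e1 ∧
    col (LT (e0 + 2 * e1 + 4 * e2 + 8 * e3)) (7 + 2) = 128 * getL [10, 9, 7, 8] 0 2 ^^^ 64 * e2 ∧
    col (LT (e0 + 2 * e1 + 4 * e2 + 8 * e3)) (7 + 3) = 128 * getL [10, 9, 7, 8] 0 3 ^^^ 64 * e3 ∧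
    wchk 0 cT3 (LT (e0 + 2 * e1 + 4 * e2 + 8 * e3)) = true) e0 h0 e1 h1 e2 h2 e3 h3
  refine ⟨_, by omega, AV.mk' X.rc_t3.rq c4 fun i hi => ?_⟩
  interval_cases i
  exacts [c0 ▸ a0, c1 ▸ a1, c2 ▸ a2, c3 ▸ a3]

omit [Finite G] in
theorem av_one {g : G} (h : ∀ x < 2048, Commute g (X.ev x)) {L : ℕ} (a : X.AV g L) {x : ℕ} (hx : x < 2048) :
    X.ev (ap L x) = X.ev x := by rw [← a.2 x hx, conj_eq_iff_commute.2 (h x hx)]

theorem zc_V {g : G} (h : g ∈ X.V) : Commute X.z g := X.V_comm X.z_mem_V h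

theorem av_t3' : X.AV X.t3 (LT 0) ∨ X.AV X.t3 (LT 7) := by
  obtain ⟨e, he, h⟩ := X.av_t3
  obtain ⟨i, a⟩ := RC.eq_of_cone ((by decide +kernel : cmul cT3 cT3 = cone) ▸ X.rc_t3.mul X.rc_t3)
  have h1 := X.rc_t3.mul X.rc_c5
  obtain ⟨j, b⟩ := RC.eq_of_cone ((by decide +kernel : cmul (cmul (cmul cT3 cC) (cmul (cmul cT3 cC) (cmul cT3 cC)))
    (cmul (cmul cT3 cC) (cmul (cmul cT3 cC) (cmul cT3 cC))) = cone) ▸ (h1.mul (h1.mul h1)).mul (h1.mul (h1.mul h1)))
  have h2 := h.mul X.av_c5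
  have k : ∀ {g L k}, X.AV g L → g = X.z ^ k → ∀ i < 11, ap L (2 ^ i) = 2 ^ i := fun {g L k} a e i hi =>
    X.ev_inj (a.1 _) (pow_lt11 hi) (X.av_one (fun x hx => e ▸ (X.zc_V (X.ev_mem hx)).pow_left k) a (pow_lt11 hi))
  rcases (by decide +kernel : ∀ e < 16, (∀ i < 11, ap (mm (LT e) (LT e)) (2 ^ i) = 2 ^ i) →
    (∀ i < 11, ap (mm (mm (mm (LT e) LC) (mm (mm (LT e) LC) (mm (LT e) LC)))
      (mm (mm (LT e) LC) (mm (mm (LT e) LC) (mm (LT e) LC)))) (2 ^ i) = 2 ^ i) → e = 0 ∨ e = 7) e he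
    (k (h.mul h) a) (k ((h2.mul (h2.mul h2)).mul (h2.mul (h2.mul h2))) b) with rfl | rfl
  exacts [Or.inl h, Or.inr h]

omit [Finite G] in
theorem EE_le {K : Subgroup G} (hz : X.z ∈ K) (h : ∀ i < 12, X.s (2 ^ i) ∈ K) : X.EE ≤ K := by
  rintro _ ⟨v, hv, k, rfl⟩
  refine mul_mem (vec_induction (fun v => X.s v ∈ K) (X.s_zero ▸ one_mem _) (fun a b ha hb h1 h2 => ?_) h v hv)
    (pow_mem hz _)
  rw [eq_mul_inv_iff_mul_eq.2 (X.s_mul a ha b hb).symm]
  exact mul_mem (mul_mem h1 h2) (inv_mem (pow_mem hz _))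

/-- the normaliser of `V` in the centraliser of the involution -/
abbrev Y : Subgroup G := X.pre YD

theorem card_Y : Nat.card X.Y = 283115520 := by rw [X.card_pre YD_le, card_YD]

theorem Y_le {K : Subgroup G} (hz : X.z ∈ K) (h : ∀ i < 12, X.s (2 ^ i) ∈ K) (hρ : X.ρ ∈ K) (hc : X.c5 ∈ K)
    (ht : X.t3 ∈ K) (hx : X.xu 0 ∈ K) : X.Y ≤ K := by
  refine (X.pre_mono YD_le_gen).trans (X.pre_le (X.EE_le hz h) hρ ?_)
  simp only [ygens, List.map_cons, List.map_nil, List.mem_cons, List.not_mem_nil, or_false, forall_eq_or_imp,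
    forall_eq]
  exact ⟨⟨_, hc, X.rc_c5.zc, X.rc_c5.code_π⟩, ⟨_, ht, X.rc_t3.zc, X.rc_t3.code_π⟩,
    ⟨_, hρ, X.zρ, X.rc_ρ.code_π⟩, ⟨_, hx, (X.rc_xu (by norm_num)).zc, (X.rc_xu (i := 0) (by norm_num)).code_π.trans
      (by decide +kernel)⟩⟩

theorem xu_mem {i : ℕ} (hi : i < 4) : X.xu i ∈ X.V := ⟨_, pow_lt11 (by omega), X.ev_xu hi⟩

theorem Y_le_norm : X.Y ≤ 𝒩(X.V) := by
  obtain ⟨e, -, h⟩ := X.av_t3
  exact X.Y_le (le_normalizer X.z_mem_V) (fun i hi => (X.av_s (Nat.pow_lt_pow_right (by norm_num) hi :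
    2 ^ i < 2 ^ 12)).norm) X.av_ρ.norm X.av_c5.norm h.norm (le_normalizer (X.xu_mem (by norm_num)))

theorem code_π_ev {x : ℕ} (hx : x < 2048) : code (X.π (X.ev x)) = sn (uc (sh7 x)) := Rq.code_π (X.vv_ev hx)

theorem fixS_code {g : Perm Pt} {m : ℕ} (h : pfix (code g) = m) : fixS g = unmask m := by
  rw [pfix_code] at h
  rw [← h, unmask_mask]

/-- an element moving an element of `V` outside the extraspecial group into `V` normalises `V` -/
theorem mem_Y_of_out {g : G} (hg : Commute X.z g) {x y : ℕ} (hx : x < 2048) (hy : y < 2048) (h0 : 128 ≤ x)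
    (e : g * X.ev x * g⁻¹ = X.ev y) : g ∈ X.Y := by
  refine ⟨hg, X.π_mem g hg, ?_⟩
  have a := X.zc_V (X.ev_mem hx)
  have e1 : X.π g * X.π (X.ev x) * (X.π g)⁻¹ = X.π (X.ev y) := by
    rw [← e, X.π_mul _ _ (hg.mul_right a) hg.inv_right, X.π_mul _ _ hg a, X.π_inv hg]
  have c := (by decide +kernel : ∀ k < 16, (k = 0 ∧ sn (uc k) = pone) ∨ pfix (sn (uc k)) = O0)
  have h1 : sh7 x ≠ 0 := by
    change x >>> 7 ≠ 0
    rw [Nat.shiftRight_eq_div_pow]; omega
  have f1 := fixS_code ((X.code_π_ev hx).symm ▸ (c _ (sh7_lt hx)).resolve_left fun h => h1 h.1)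
  rcases c _ (sh7_lt hy) with h | h
  · rw [code_inj ((X.code_π_ev hy).trans (h.2.trans code_one.symm)), conj_eq_one_iff] at e1
    rw [e1] at f1
    exact absurd f1 (by decide +kernel)
  · have f2 := fixS_code ((X.code_π_ev hy).symm ▸ h)
    rw [← e1, fixS_conj, f1] at f2
    exact f2

theorem norm_inf_le {g : G} (hg : Commute X.z g) (h : g ∈ 𝒩(X.V)) : g ∈ X.Y := by
  obtain ⟨y, hy, e⟩ := conj_mem_of_mem_norm h (X.ev_mem (x := 128) (by norm_num))
  exact X.mem_Y_of_out hg (by norm_num) hy le_rfl e.symm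

end HM

end

end CA.J4

theorem CA.J4.realizeEqnsJ4V : True := by
  have := @CA.J4.HM.lf.eq_1.{0}
  have := @CA.J4.HM.lf.eq_def.{0}
  have := @CA.J4.HM.lf.congr_simp.{0}
  have := @CA.J4.LC.eq_1
  have := @CA.J4.LC.eq_def
  have := @CA.J4.LC.congr_simp
  have := @CA.J4.HM.t3.eq_1.{0}
  have := @CA.J4.HM.t3.eq_def.{0}
  have := @CA.J4.HM.t3.congr_simp.{0}
  have := @CA.J4.ygens.eq_1
  have := @CA.J4.ygens.eq_def
  have := @CA.J4.ygens.congr_simp
  have := @CA.J4.HM.AV.eq_1.{0}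
  have := @CA.J4.HM.AV.eq_def.{0}
  have := @CA.J4.HM.AV.congr_simp.{0}
  have := @CA.J4.sh7.eq_1
  have := @CA.J4.sh7.eq_def
  have := @CA.J4.sh7.congr_simp
  have := @CA.J4.HM.c5.eq_1.{0}
  have := @CA.J4.HM.c5.eq_def.{0}
  have := @CA.J4.HM.c5.congr_simp.{0}
  have := @CA.J4.LS.eq_1
  have := @CA.J4.LS.eq_def
  have := @CA.J4.LS.congr_simp
  have := @CA.J4.cC.eq_1
  have := @CA.J4.cC.eq_def
  have := @CA.J4.cC.congr_simp
  have := @CA.J4.o77.eq_1
  have := @CA.J4.o77.eq_def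
  have := @CA.J4.o77.congr_simp
  have := @CA.J4.wT3w.eq_1
  have := @CA.J4.wT3w.eq_def
  have := @CA.J4.wT3w.congr_simp
  have := @CA.J4.LTL.eq_1
  have := @CA.J4.LTL.eq_def
  have := @CA.J4.LTL.congr_simp
  have := @CA.J4.HM.VV.eq_1.{0}
  have := @CA.J4.HM.VV.eq_def.{0}
  have := @CA.J4.HM.VV.congr_simp.{0}
  have := @CA.J4.HM.V.eq_1.{0}
  have := @CA.J4.HM.V.eq_def.{0}
  have := @CA.J4.HM.V.congr_simp.{0}
  have := @CA.J4.LR.eq_1
  have := @CA.J4.LR.eq_def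
  have := @CA.J4.LR.congr_simp
  have := @CA.J4.ycert.eq_1
  have := @CA.J4.ycert.eq_def
  have := @CA.J4.ycert.congr_simp
  have := @CA.J4.HM.xu.eq_1.{0}
  have := @CA.J4.HM.xu.eq_def.{0}
  have := @CA.J4.HM.xu.congr_simp.{0}
  have := @CA.J4.wCw.eq_1
  have := @CA.J4.wCw.eq_def
  have := @CA.J4.wCw.congr_simp
  have := @CA.J4.HM.Y.eq_1.{0}
  have := @CA.J4.HM.Y.eq_def.{0}
  have := @CA.J4.HM.Y.congr_simp.{0}
  have := @CA.J4.ucW.eq_1
  have := @CA.J4.ucW.eq_def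
  have := @CA.J4.ucW.congr_simp
  have := @CA.J4.mW.eq_1
  have := @CA.J4.mW.eq_def
  have := @CA.J4.mW.congr_simp
  have := @CA.J4.mP.eq_1
  have := @CA.J4.mP.eq_def
  have := @CA.J4.mP.congr_simp
  have := @CA.J4.HM.cj.eq_1.{0}
  have := @CA.J4.HM.cj.eq_def.{0}
  have := @CA.J4.HM.cj.congr_simp.{0}
  have := @CA.J4.mWi.eq_1
  have := @CA.J4.mWi.eq_def
  have := @CA.J4.mWi.congr_simp
  have := @CA.J4.cX.eq_1
  have := @CA.J4.cX.eq_def
  have := @CA.J4.cX.congr_simp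
  have := @CA.J4.cT3.eq_1
  have := @CA.J4.cT3.eq_def
  have := @CA.J4.cT3.congr_simp
  have := @CA.J4.b6.eq_1
  have := @CA.J4.b6.eq_def
  have := @CA.J4.b6.congr_simp
  have := @CA.J4.ucL.eq_1
  have := @CA.J4.ucL.eq_def
  have := @CA.J4.ucL.congr_simp
  have := @CA.J4.HM.bs.eq_1.{0}
  have := @CA.J4.HM.bs.eq_def.{0}
  have := @CA.J4.HM.bs.congr_simp.{0}
  have := @CA.J4.HM.ev.eq_1.{0}
  have := @CA.J4.HM.ev.eq_def.{0}
  have := @CA.J4.HM.ev.congr_simp.{0}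
  have := @CA.J4.LT.eq_1
  have := @CA.J4.LT.eq_def
  have := @CA.J4.LT.congr_simp
  have := @CA.J4.uc.eq_1
  have := @CA.J4.uc.eq_def
  have := @CA.J4.uc.congr_simp
  have := @CA.J4.wchk.eq_1
  have := @CA.J4.wchk.eq_def
  have := @CA.J4.wchk.congr_simp
  have := @CA.J4.wXw.eq_1
  have := @CA.J4.wXw.eq_def
  have := @CA.J4.wXw.congr_simp
  have := @CA.J4.pl.eq_1.{0}
  have := @CA.J4.pl.eq_2.{0}
  have := @CA.J4.pl.eq_def.{0}
  have := @CA.J4.pl.congr_simp.{0}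
  have := @CA.J4.YD.eq_1
  have := @CA.J4.YD.eq_def
  have := @CA.J4.YD.congr_simp
  trivial
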