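import Cfsg.Agent.M24.Misc

/-! Twelve-dimensional vectors and matrices over the field with two elements, coded by numbers. -/

set_option autoImplicit false
set_option maxRecDepth 100000

namespace CA.J4

open CA.M24

noncomputable section

/-- column `i` of a coded matrix -/
def col (m i : ℕ) : ℕ := Nat.land (Nat.shiftRight m (Nat.mul (nat_lit 12) i)) (nat_lit 4095)

/-- a coded matrix applied to a coded vector -/
def ap (m v : ℕ) : ℕ := (Nat.xor (Nat.mul (Nat.land (Nat.shiftRight v (nat_lit 0)) (nat_lit 1)) (Nat.land (Nat.shiftRight m (nat_lit 0)) (nat_lit 4095))) (Nat.xor (Nat.mul (Nat.land (Nat.shiftRight v (nat_lit 1)) (nat_lit 1)) (Nat.land (Nat.shiftRight m (nat_lit 12)) (nat_lit 4095))) (Nat.xor (Nat.mul (Nat.land (Nat.shiftRight v (nat_lit 2)) (nat_lit 1)) (Nat.land (Nat.shiftRight m (nat_lit 24)) (nat_lit 4095))) (Nat.xor (Nat.mul (Nat.land (Nat.shiftRight v (nat_lit 3)) (nat_lit 1)) (Nat.land (Nat.shiftRight m (nat_lit 36)) (nat_lit 4095))) (Nat.xor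 (Nat.mul (Nat.land (Nat.shiftRight v (nat_lit 4)) (nat_lit 1)) (Nat.land (Nat.shiftRight m (nat_lit 48)) (nat_lit 4095))) (Nat.xor (Nat.mul (Nat.land (Nat.shiftRight v (nat_lit 5)) (nat_lit 1)) (Nat.land (Nat.shiftRight m (nat_lit 60)) (nat_lit 4095))) (Nat.xor (Nat.mul (Nat.land (Nat.shiftRight v (nat_lit 6)) (nat_lit 1)) (Nat.land (Nat.shiftRight m (nat_lit 72)) (nat_lit 4095))) (Nat.xor (Nat.mul (Nat.land (Nat.shiftRight v (nat_lit 7)) (nat_lit 1)) (Nat.land (Nat.shiftRight m (nat_lit 84)) (nat_lit 4095))) (Nat.xor (Nat.mul (Nat.land (Nat.shiftRight v (nat_lit 8)) (nat_lit 1)) (Nat.land (Nat.shiftRight m (nat_lit 96)) (nat_lit 4095))) (Nat.xor (Nat.mul (Nat.land (Nat.shiftRight v (nat_lit 9)) (nat_lit 1)) (Nat.land (Nat.shiftRight m (nat_lit 108)) (nat_lit 4095))) (Nat.xor (Nat.mul (Nat.land (Nat.shiftRight v (nat_lit 10)) (nat_lit 1)) (Nat.land (Nat.shiftRight m (nat_lit 120)) (nat_lit 4095))) (Nat.xor (Nat.mul (Nat.land (Nat.shiftRight v (nat_lit 11)) (nat_lit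 1)) (Nat.land (Nat.shiftRight m (nat_lit 132)) (nat_lit 4095))) (nat_lit 0)))))))))))))

/-- product of coded matrices -/
def mm (a b : ℕ) : ℕ := (Nat.lor (Nat.lor (Nat.lor (Nat.lor (Nat.lor (Nat.lor (Nat.lor (Nat.lor (Nat.lor (Nat.lor (Nat.lor (Nat.shiftLeft (ap a (Nat.land (Nat.shiftRight b (nat_lit 0)) (nat_lit 4095))) (nat_lit 0)) (Nat.shiftLeft (ap a (Nat.land (Nat.shiftRight b (nat_lit 12)) (nat_lit 4095))) (nat_lit 12))) (Nat.shiftLeft (ap a (Nat.land (Nat.shiftRight b (nat_lit 24)) (nat_lit 4095))) (nat_lit 24))) (Nat.shiftLeft (ap a (Nat.land (Nat.shiftRight b (nat_lit 36)) (nat_lit 4095))) (nat_lit 36))) (Nat.shiftLeft (ap a (Nat.land (Nat.shiftRight b (nat_lit 48)) (nat_lit 4095))) (nat_lit 48))) (Nat.shiftLeft (ap a (Nat.land (Nat.shiftRight b (nat_lit 60)) (nat_lit 4095))) (nat_lit 60))) (Nat.shiftLeft (ap a (Nat.land (Nat.shiftRight b (nat_lit 72)) (nat_lit 4095))) (nat_lit 72))) (Nat.shiftLeft (ap a (Nat.land (Nat.shiftRight b (nat_lit 84)) (nat_lit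 4095))) (nat_lit 84))) (Nat.shiftLeft (ap a (Nat.land (Nat.shiftRight b (nat_lit 96)) (nat_lit 4095))) (nat_lit 96))) (Nat.shiftLeft (ap a (Nat.land (Nat.shiftRight b (nat_lit 108)) (nat_lit 4095))) (nat_lit 108))) (Nat.shiftLeft (ap a (Nat.land (Nat.shiftRight b (nat_lit 120)) (nat_lit 4095))) (nat_lit 120))) (Nat.shiftLeft (ap a (Nat.land (Nat.shiftRight b (nat_lit 132)) (nat_lit 4095))) (nat_lit 132)))

/-- the identity matrix -/
def mone : ℕ := nat_lit 11151733894906779683522195341810241573494785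

def cols (m : ℕ) : List ℕ := [col m 0, col m 1, col m 2, col m 3, col m 4, col m 5, col m 6, col m 7,
  col m 8, col m 9, col m 10, col m 11]

theorem ap_eq (m v : ℕ) : ap m v = xorSel (cols m) v 0 := rfl

theorem col_lt (m i : ℕ) : col m i < 4096 := Nat.lt_succ_of_le Nat.and_le_right

theorem xor_lt {a b : ℕ} (ha : a < 4096) (hb : b < 4096) : a ^^^ b < 4096 :=
  Nat.xor_lt_two_pow (n := 12) ha hb

theorem ap_lt (m v : ℕ) : ap m v < 4096 := by
  rw [ap_eq]
  refine xorSel_ind (· < 4096) (by norm_num) (fun _ _ => xor_lt) _ ?_ _ _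
  simp [cols, col_lt]

theorem ap_xor (m a b : ℕ) : ap m (a ^^^ b) = ap m a ^^^ ap m b := by
  rw [ap_eq, ap_eq, ap_eq, xorSel_xor]

@[simp] theorem ap_zero (m : ℕ) : ap m 0 = 0 := by simp [ap_eq, cols, xorSel]

theorem ap_two_pow (m : ℕ) {i : ℕ} (hi : i < 12) : ap m (2 ^ i) = col m i := by
  interval_cases i <;> simp [ap_eq, cols, xorSel, Nat.shiftRight_eq_div_pow]

theorem xor_induction {n : ℕ} (P : ℕ → Prop) (h0 : P 0)
    (hx : ∀ a b, a < 2 ^ n → b < 2 ^ n → P a → P b → P (a ^^^ b)) (hb : ∀ i < n, P (2 ^ i)) :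
    ∀ v < 2 ^ n, P v := by
  have key : ∀ k ≤ n, ∀ v < 2 ^ k, P v := by
    intro k
    induction k with
    | zero => intro _ v hv; obtain rfl : v = 0 := by omega
              exact h0
    | succ k ih =>
      intro hk v hv
      by_cases h : v < 2 ^ k
      · exact ih (by omega) v h
      · have h1 : v - 2 ^ k < 2 ^ k := by rw [pow_succ] at hv; omega
        have h2 : 2 ^ k < 2 ^ n := Nat.pow_lt_pow_right (by norm_num) hk
        have h3 : v = 2 ^ k ^^^ (v - 2 ^ k) := by
          have := Nat.two_pow_add_eq_or_of_lt h1 1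
          rw [mul_one, Nat.add_sub_cancel' (by omega)] at this
          conv_lhs => rw [this]
          apply Nat.eq_of_testBit_eq
          intro i
          rw [Nat.testBit_or, Nat.testBit_xor, Nat.testBit_two_pow]
          by_cases e : k = i
          · subst e; simp [Nat.testBit_lt_two_pow h1]
          · simp [e]
        rw [h3]
        exact hx _ _ h2 (by omega) (hb k hk) (ih (by omega) _ h1)
  exact key n le_rfl

theorem vec_induction (P : ℕ → Prop) (h0 : P 0)
    (hx : ∀ a b, a < 4096 → b < 4096 → P a → P b → P (a ^^^ b)) (hb : ∀ i < 12, P (2 ^ i)) :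
    ∀ v < 4096, P v := xor_induction (n := 12) P h0 hx hb

/-- pack twelve columns -/
def bl (f : ℕ → ℕ) : ℕ := orr (fun i => f i <<< (12 * i)) 12

theorem testBit_col (c i b : ℕ) : (col c i).testBit b = true ↔ b < 12 ∧ c.testBit (12 * i + b) = true := by
  change ((c >>> (12 * i)) &&& 4095).testBit b = true ↔ _
  rw [Nat.testBit_and, Nat.testBit_shiftRight, show (4095 : ℕ) = 2 ^ 12 - 1 by norm_num,
    Nat.testBit_two_pow_sub_one]
  simp [and_comm]

theorem testBit_bl {f : ℕ → ℕ} (hf : ∀ i < 12, f i < 4096) (b : ℕ) :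
    (bl f).testBit b = true ↔ b < 144 ∧ (f (b / 12)).testBit (b % 12) = true := by
  rw [bl, testBit_orr]
  constructor
  · rintro ⟨i, hi, h⟩
    rw [Nat.testBit_shiftLeft] at h
    simp only [ge_iff_le, Bool.and_eq_true, decide_eq_true_eq] at h
    have h5 : b - 12 * i < 12 := testBit_lt_of_lt (k := 12) (hf i hi) h.2
    have e1 : b / 12 = i := by omega
    have e2 : b % 12 = b - 12 * i := by omega
    rw [e1, e2]
    exact ⟨by omega, h.2⟩
  · rintro ⟨h1, h2⟩
    refine ⟨b / 12, by omega, ?_⟩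
    rw [Nat.testBit_shiftLeft]
    have e2 : b - 12 * (b / 12) = b % 12 := by omega
    simp only [ge_iff_le, Bool.and_eq_true, decide_eq_true_eq, e2]
    exact ⟨by omega, h2⟩

theorem col_bl {f : ℕ → ℕ} (hf : ∀ i < 12, f i < 4096) {i : ℕ} (hi : i < 12) : col (bl f) i = f i := by
  apply eq_of_testBit_iff
  intro b
  rw [testBit_col, testBit_bl hf]
  constructor
  · rintro ⟨h1, h2, h3⟩
    have e1 : (12 * i + b) / 12 = i := by omega
    have e2 : (12 * i + b) % 12 = b := by omega
    rwa [e1, e2] at h3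
  · intro h
    have h5 : b < 12 := testBit_lt_of_lt (k := 12) (hf i hi) h
    have e1 : (12 * i + b) / 12 = i := by omega
    have e2 : (12 * i + b) % 12 = b := by omega
    rw [e1, e2]
    exact ⟨h5, by omega, h⟩

theorem bl_lt {f : ℕ → ℕ} (hf : ∀ i < 12, f i < 4096) : bl f < 2 ^ 144 :=
  lt_two_pow_of_testBit fun b hb => ((testBit_bl hf b).1 hb).1

theorem bl_col {c : ℕ} (hc : c < 2 ^ 144) : bl (col c) = c := by
  apply eq_of_testBit_iff
  intro b
  rw [testBit_bl (fun i _ => col_lt c i), testBit_col]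
  have e : 12 * (b / 12) + b % 12 = b := by omega
  rw [e]
  constructor
  · exact fun h => h.2.2
  · exact fun h => ⟨testBit_lt_of_lt hc h, by omega, h⟩

theorem bl_congr {f g : ℕ → ℕ} (h : ∀ i < 12, f i = g i) : bl f = bl g :=
  orr_congr fun i hi => by rw [h i hi]

theorem mm_eq (a b : ℕ) : mm a b = bl fun i => ap a (col b i) := by
  simp only [bl, orr, Nat.zero_or]
  rfl

theorem mm_lt (a b : ℕ) : mm a b < 2 ^ 144 := by
  rw [mm_eq]; exact bl_lt fun _ _ => ap_lt _ _

theorem ap_mm (a b : ℕ) {v : ℕ} (hv : v < 4096) : ap (mm a b) v = ap a (ap b v) := by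
  refine vec_induction (fun v => ap (mm a b) v = ap a (ap b v)) (by simp) ?_ ?_ v hv
  · intro x y _ _ h1 h2
    rw [ap_xor, ap_xor, ap_xor, h1, h2]
  · intro i hi
    rw [ap_two_pow _ hi, ap_two_pow _ hi, mm_eq, col_bl (fun _ _ => ap_lt _ _) hi]

theorem ap_mone {v : ℕ} (hv : v < 4096) : ap mone v = v := by
  refine vec_induction (fun v => ap mone v = v) (by simp) ?_ ?_ v hv
  · intro x y _ _ h1 h2
    rw [ap_xor, h1, h2]
  · intro i hi
    interval_cases i <;> rfl

theorem mone_lt : mone < 2 ^ 144 := by decide +kernel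

theorem mat_ext {a b : ℕ} (ha : a < 2 ^ 144) (hb : b < 2 ^ 144) (h : ∀ v < 4096, ap a v = ap b v) :
    a = b := by
  rw [← bl_col ha, ← bl_col hb]
  refine bl_congr fun i hi => ?_
  rw [← ap_two_pow _ hi, ← ap_two_pow _ hi]
  exact h _ (Nat.pow_lt_pow_right (by norm_num) hi : 2 ^ i < 2 ^ 12)

/-- powers of a coded matrix -/
def mpw (c n : ℕ) : ℕ := Nat.rec (motive := fun _ => ℕ) mone (fun _ ih => force ih fun a => mm c a) n

theorem mpw_succ (c n : ℕ) : mpw c (n + 1) = mm c (mpw c n) := force_eq _ _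

/-- iterated application -/
def apn (c n v : ℕ) : ℕ := Nat.rec (motive := fun _ => ℕ) v (fun _ ih => force ih fun a => ap c a) n

theorem apn_succ (c n v : ℕ) : apn c (n + 1) v = ap c (apn c n v) := force_eq _ _

theorem apn_lt (c n : ℕ) {v : ℕ} (hv : v < 4096) : apn c n v < 4096 := by
  cases n
  · exact hv
  · rw [apn_succ]; exact ap_lt _ _

/-- bit `i` of a table -/
def bit (L i : ℕ) : ℕ := Nat.land (Nat.shiftRight L i) (nat_lit 1)

theorem bit_lt (L i : ℕ) : bit L i < 2 := Nat.lt_succ_of_le Nat.and_le_right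

theorem allV {f : ℕ → Bool} (h : allP f 12 0 = true) {v : ℕ} (hv : v < 4096) : f v = true :=
  allP_zero h v hv

section Lin

variable {W : Type*} [AddCommGroup W]

/-- the combination of the members of `l` selected by the bits `i, i + 1, …` of `k` -/
def lin : List W → ℕ → ℕ → W
  | [], _, _ => 0
  | a :: l, k, i => ((k >>> i) &&& 1) • a + lin l k (i + 1)

theorem lin_xor (h2 : ∀ w : W, w + w = 0) (l : List W) (a b i : ℕ) :
    lin l (a ^^^ b) i = lin l a i + lin l b i := by
  induction l generalizing i with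
  | nil => simp [lin]
  | cons c l ih =>
    simp only [lin, ih, bit_eq, Nat.testBit_xor]
    cases a.testBit i <;> cases b.testBit i <;> simp [add_assoc, add_left_comm]
    rw [← add_assoc, h2, zero_add]

@[simp] theorem lin_zero (l : List W) (i : ℕ) : lin l 0 i = 0 := by
  induction l generalizing i with
  | nil => rfl
  | cons c l ih => simp [lin, ih]

theorem map_lin {W' : Type*} [AddCommGroup W'] (φ : W →+ W') (l : List W) (k i : ℕ) :
    φ (lin l k i) = lin (l.map φ) k i := by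
  induction l generalizing i with
  | nil => simp [lin]
  | cons c l ih => simp [lin, ih]

theorem apply_xorSel (f : ℕ → W) (h0 : f 0 = 0) (hf : ∀ a b, f (a ^^^ b) = f a + f b) (l : List ℕ) (k i : ℕ) :
    f (xorSel l k i) = lin (l.map f) k i := by
  induction l generalizing i with
  | nil => simp [lin, xorSel, h0]
  | cons c l ih =>
    simp only [lin, xorSel, hf, ih, List.map_cons, bit_eq]
    cases k.testBit i <;> simp [h0]

/-- an additive map acts on coordinates as the matrix of the images of the basis -/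
theorem act_of_cols (h2 : ∀ w : W, w + w = 0) (φ : W →+ W) (l : List W) (m : ℕ)
    (h : l.map φ = (cols m).map fun c => lin l c 0) (v : ℕ) : φ (lin l v 0) = lin l (ap m v) 0 := by
  rw [map_lin, h, ap_eq, apply_xorSel (fun c => lin l c 0) (lin_zero _ _) (fun a b => lin_xor h2 l a b 0)]

end Lin

end

end CA.J4

theorem CA.J4.realizeEqnsJ4Vec : True := by
  have := @CA.J4.lin.eq_1.{0}
  have := @CA.J4.lin.eq_2.{0}
  have := @CA.J4.lin.eq_def.{0}
  have := @CA.J4.lin.congr_simp.{0}
  have := @CA.J4.col.eq_1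
  have := @CA.J4.col.eq_def
  have := @CA.J4.col.congr_simp
  have := @CA.J4.apn.eq_1
  have := @CA.J4.apn.eq_def
  have := @CA.J4.apn.congr_simp
  have := @CA.J4.ap.eq_1
  have := @CA.J4.ap.eq_def
  have := @CA.J4.ap.congr_simp
  have := @CA.J4.cols.eq_1
  have := @CA.J4.cols.eq_def
  have := @CA.J4.cols.congr_simp
  have := @CA.J4.mpw.eq_1
  have := @CA.J4.mpw.eq_def
  have := @CA.J4.mpw.congr_simp
  have := @CA.J4.bit.eq_1
  have := @CA.J4.bit.eq_def
  have := @CA.J4.bit.congr_simp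
  have := @CA.J4.mm.eq_1
  have := @CA.J4.mm.eq_def
  have := @CA.J4.mm.congr_simp
  have := @CA.J4.mone.eq_1
  have := @CA.J4.mone.eq_def
  have := @CA.J4.mone.congr_simp
  have := @CA.J4.bl.eq_1
  have := @CA.J4.bl.eq_def
  have := @CA.J4.bl.congr_simp
  trivial
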